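import Mathlib

set_option autoImplicit false

/-!
# An isomorphism criterion: a cover of a simple group mapping onto a group containing the commutator subgroup (helper71)
-/

namespace Cfsg.Agent.H71

open Subgroup

theorem iso_of_cover {St L O : Type*} [Group St] [Group L] [Group O] (θ : St →* L) (hθ : Function.Surjective θ)
    (hker : θ.ker = center St) (hL : IsSimpleGroup L) (hLn : ¬ IsMulCommutative L) (φ : St →* O)
    (hcomm : commutator O ≤ φ.range) (hna : ∃ x y : St, φ x * φ y ≠ φ y * φ x) :
    Nonempty (L ≃* (commutator O ⧸ center (commutator O))) := by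
  set E := φ.range with hE
  -- `St → E / Z(E)`
  let c : St →* (E ⧸ center E) := (QuotientGroup.mk' (center E)).comp φ.rangeRestrict
  have hc : Function.Surjective c := (QuotientGroup.mk'_surjective _).comp φ.rangeRestrict_surjective
  have hcker : ∀ x, x ∈ c.ker ↔ ∀ y, φ x * φ y = φ y * φ x := by
    intro x
    rw [MonoidHom.mem_ker]
    show ((φ.rangeRestrict x : E) : E ⧸ center E) = 1 ↔ _
    rw [QuotientGroup.eq_one_iff, mem_center_iff]
    constructor
    · intro h y
      have := congrArg Subtype.val (h (φ.rangeRestrict y))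
      exact this.symm
    · rintro h ⟨_, y, rfl⟩
      apply Subtype.ext
      exact (h y).symm
  have hZ : center St ≤ c.ker := by
    intro x hx
    rw [hcker]
    intro y
    rw [← map_mul, ← map_mul, (mem_center_iff.1 hx y)]
  have hck : c.ker = center St := by
    apply le_antisymm _ hZ
    have hn : (c.ker.map θ).Normal := Normal.map inferInstance θ hθ
    rcases hL.eq_bot_or_eq_top_of_normal _ hn with h | h
    · rw [Subgroup.map_eq_bot_iff, hker] at h
      exact h
    · exfalso
      obtain ⟨x, y, hxy⟩ := hna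
      apply hxy
      have h1 : x ∈ c.ker := by
        have h2 : θ x ∈ c.ker.map θ := by rw [h]; trivial
        obtain ⟨z, hz, hzx⟩ := h2
        have h3 : z⁻¹ * x ∈ θ.ker := by
          rw [MonoidHom.mem_ker, map_mul, map_inv, hzx, inv_mul_cancel]
        rw [hker] at h3
        have := c.ker.mul_mem hz (hZ h3)
        rwa [mul_inv_cancel_left] at this
      exact (hcker x).1 h1 y
  have e1 : L ≃* (E ⧸ center E) :=
    (QuotientGroup.quotientKerEquivOfSurjective θ hθ).symm.trans
      ((QuotientGroup.quotientMulEquivOfEq (hker.trans hck.symm)).trans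
        (QuotientGroup.quotientKerEquivOfSurjective c hc))
  have hEs : IsSimpleGroup (E ⧸ center E) := e1.isSimpleGroup_congr.1 hL
  have hEn : ¬ IsMulCommutative (E ⧸ center E) := by
    intro h
    apply hLn
    refine ⟨⟨fun a b => e1.injective ?_⟩⟩
    rw [map_mul, map_mul]
    exact h.is_comm.comm _ _
  set C := commutator O with hC
  let d : C →* (E ⧸ center E) := (QuotientGroup.mk' (center E)).comp (inclusion hcomm)
  have hd : ∀ x : C, d x = ((⟨x, hcomm x.2⟩ : E) : E ⧸ center E) := fun _ => rfl
  have hCn : C.Normal := by rw [hC]; infer_instance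
  have hdn : d.range.Normal := by
    constructor
    rintro _ ⟨x, rfl⟩ g
    obtain ⟨g, rfl⟩ := QuotientGroup.mk_surjective g
    refine ⟨⟨g * x * (g : O)⁻¹, hCn.conj_mem _ x.2 g⟩, ?_⟩
    rw [hd, hd, ← QuotientGroup.mk_mul, ← QuotientGroup.mk_inv, ← QuotientGroup.mk_mul]
    rfl
  have hdr : d.range = ⊤ := by
    rcases hEs.eq_bot_or_eq_top_of_normal _ hdn with h | h
    · exfalso
      apply hEn
      refine ⟨⟨fun a b => ?_⟩⟩
      obtain ⟨a, rfl⟩ := QuotientGroup.mk_surjective a
      obtain ⟨b, rfl⟩ := QuotientGroup.mk_surjective b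
      have h1 : (a : O) * b * (a : O)⁻¹ * (b : O)⁻¹ ∈ C := by
        have := commutator_mem_commutator (mem_top (a : O)) (mem_top (b : O))
        rwa [commutatorElement_def] at this
      have h2 : d ⟨_, h1⟩ ∈ d.range := ⟨_, rfl⟩
      rw [h, mem_bot, hd] at h2
      have h3 : (⟨(a : O) * b * (a : O)⁻¹ * (b : O)⁻¹, hcomm h1⟩ : E) = a * b * a⁻¹ * b⁻¹ := rfl
      rw [h3, QuotientGroup.mk_mul, QuotientGroup.mk_mul, QuotientGroup.mk_mul, QuotientGroup.mk_inv,
        QuotientGroup.mk_inv, mul_inv_eq_one, mul_inv_eq_iff_eq_mul] at h2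
      exact h2
    · exact h
  have hds : Function.Surjective d := MonoidHom.range_eq_top.1 hdr
  have hdk : d.ker = center C := by
    ext x
    rw [MonoidHom.mem_ker, hd, QuotientGroup.eq_one_iff, mem_center_iff, mem_center_iff]
    constructor
    · intro h y
      have := congrArg Subtype.val (h ⟨y, hcomm y.2⟩)
      exact Subtype.ext this
    · intro h y
      obtain ⟨z, hz⟩ := hds (y : E ⧸ center E)
      rw [hd, QuotientGroup.eq, mem_center_iff] at hz
      have h1 := congrArg Subtype.val (h z)
      have h2 := congrArg Subtype.val (hz ⟨x, hcomm x.2⟩)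
      apply Subtype.ext
      show (y : O) * x = x * y
      have h3 : (x : O) * ((z : O)⁻¹ * y) = ((z : O)⁻¹ * y) * x := h2
      have h4 : (z : O) * x = x * z := h1
      calc (y : O) * x = z * (((z : O)⁻¹ * y) * x) := by group
        _ = z * (x * ((z : O)⁻¹ * y)) := by rw [h3]
        _ = (z * x) * ((z : O)⁻¹ * y) := by group
        _ = (x * z) * ((z : O)⁻¹ * y) := by rw [h4]
        _ = x * y := by group
  exact ⟨e1.trans ((QuotientGroup.quotientKerEquivOfSurjective d hds).symm.trans
    (QuotientGroup.quotientMulEquivOfEq hdk))⟩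

end Cfsg.Agent.H71
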