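import Mathlib
import Cfsg.Agent.H71.FrobConstruct

/-!
Finite subgroups of division rings are Frobenius complements.
-/

set_option autoImplicit false
set_option linter.style.haveILetI false
set_option linter.unusedSimpArgs false

namespace Cfsg.Agent.H71

open Cfsg Cfsg.Agent.Frob

universe u

theorem exists_isFPF_divisionRing {D : Type u} [DivisionRing D] (H : Subgroup Dˣ) [Finite H] :
    ∃ (W : Type u) (_ : CommGroup W) (_ : Finite W) (_ : Nontrivial W) (φ : H →* MulAut W),
      IsFPF φ := by
  classical
  -- the submonoid of D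
  let g : H →* D := (Units.coeHom D).comp H.subtype
  let S : Submonoid D := MonoidHom.mrange g
  let R : Subalgebra ℤ D := Algebra.adjoin ℤ (S : Set D)
  have hgR : ∀ h : H, g h ∈ R := fun h => Algebra.subset_adjoin ⟨h, rfl⟩
  let f : H →* R := g.codRestrict R hgR
  have hfin : Module.Finite ℤ R := by
    have h1 : Subalgebra.toSubmodule R = Submodule.span ℤ (S : Set D) := by
      rw [Algebra.adjoin_eq_span, Submonoid.closure_eq]
    have h2 : (Subalgebra.toSubmodule R).FG := by
      rw [h1]
      have h3 : (S : Set D).Finite := by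
        have : (S : Set D) = Set.range g := MonoidHom.coe_mrange g
        rw [this]
        exact Set.finite_range g
      exact ⟨h3.toFinset, by rw [Set.Finite.coe_toFinset]⟩
    exact Module.Finite.iff_fg.mpr h2
  have hnorm : ∀ a : H, a ≠ 1 → ∑ i ∈ Finset.range (orderOf a), f a ^ i = 0 := by
    intro a ha
    have hcoe : ((∑ i ∈ Finset.range (orderOf a), f a ^ i : R) : D) =
        ∑ i ∈ Finset.range (orderOf a), (g a) ^ i := by
      push_cast
      rfl
    have h1 : (g a - 1) * ∑ i ∈ Finset.range (orderOf a), (g a) ^ i = 0 := by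
      rw [mul_geom_sum, ← map_pow, pow_orderOf_eq_one, map_one, sub_self]
    have h2 : g a - 1 ≠ 0 := by
      intro h3
      apply ha
      have h4 : g a = 1 := sub_eq_zero.mp h3
      apply Subtype.ext
      apply Units.ext
      exact h4
    have h3 := (mul_eq_zero.mp h1).resolve_left h2
    apply Subtype.ext
    rw [hcoe, h3]
    rfl
  obtain ⟨p, hp⟩ := CharP.exists D
  rcases CharP.char_is_prime_or_zero D p with hpp | hp0
  · haveI : Fact p.Prime := ⟨hpp⟩
    have hcop : (Nat.card H).Coprime p := by
      rw [Nat.coprime_comm, Nat.Prime.coprime_iff_not_dvd hpp]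
      intro hdvd
      obtain ⟨x, hx⟩ := exists_prime_orderOf_dvd_card' p hdvd
      have h1 : (g x) ^ p = 1 := by rw [← map_pow, ← hx, pow_orderOf_eq_one, map_one]
      have h2 : (g x - 1) ^ p = 0 := by
        have := sub_pow_char_of_commute (p := p) (Commute.one_right (g x))
        rw [this, h1, one_pow, sub_self]
      have h3 : g x = 1 := sub_eq_zero.mp (eq_zero_of_pow_eq_zero h2)
      have h4 : x = 1 := by
        apply Subtype.ext
        apply Units.ext
        exact h3
      rw [h4, orderOf_one] at hx
      exact hpp.one_lt.ne hx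
    apply exists_isFPF_of_ring f hnorm hpp.ne_zero hcop
    rintro ⟨r, hr⟩
    have h1 : ((p : R) : D) * (r : D) = 1 := by exact_mod_cast congrArg Subtype.val hr
    have h2 : ((p : R) : D) = 0 := by
      push_cast
      exact CharP.cast_eq_zero D p
    rw [h2, zero_mul] at h1
    exact zero_ne_one h1
  · subst hp0
    haveI : CharZero D := CharP.charP_to_charZero D
    obtain ⟨l, hl1, hl2⟩ := Nat.exists_infinite_primes (Nat.card H + 1)
    have hcop : (Nat.card H).Coprime l := by
      rw [Nat.coprime_comm, Nat.Prime.coprime_iff_not_dvd hl2]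
      intro hdvd
      have := Nat.le_of_dvd Nat.card_pos hdvd
      omega
    apply exists_isFPF_of_ring f hnorm hl2.ne_zero hcop
    rintro ⟨r, hr⟩
    have hle : (⊤ : Submodule ℤ R) ≤ (Ideal.span {(l : ℤ)} : Ideal ℤ) • (⊤ : Submodule ℤ R) := by
      intro x _
      have : x = (l : ℤ) • (r * x) := by
        rw [zsmul_eq_mul, ← mul_assoc]
        push_cast
        rw [hr, one_mul]
      rw [this]
      exact Submodule.smul_mem_smul (Ideal.mem_span_singleton_self _) Submodule.mem_top
    obtain ⟨c, hc1, hc2⟩ := Submodule.exists_sub_one_mem_and_smul_eq_zero_of_fg_of_le_smul _ _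
      (Module.Finite.fg_top) hle
    have hc3 := hc2 1 Submodule.mem_top
    have hc4 : (c : D) = 0 := by
      have := congrArg Subtype.val hc3
      simpa using this
    have hc5 : c = 0 := by exact_mod_cast hc4
    rw [hc5, Ideal.mem_span_singleton] at hc1
    have : (l : ℤ) ∣ 1 := by simpa using hc1
    have h3 := Int.eq_one_of_dvd_one (by positivity) this
    have h4 : l = 1 := by exact_mod_cast h3
    exact hl2.one_lt.ne' h4

theorem divisionRing_frobenius {D : Type u} [DivisionRing D] (H : Subgroup Dˣ) [Finite H]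
    (hH : H ≠ ⊥) :
    ∃ (L : Type) (_ : Group L) (_ : Finite L) (C : Subgroup L),
      Cfsg.IsFrobeniusComplement C ∧ Nonempty (H ≃* C) := by
  obtain ⟨W, _, _, _, φ, hφ⟩ := exists_isFPF_divisionRing H
  haveI : Nontrivial H := (Subgroup.nontrivial_iff_ne_bot H).mpr hH
  obtain ⟨L, i1, i2, C, h1, h2, -⟩ := exists_isFrobeniusComplement hφ
  exact ⟨L, i1, i2, C, h1, h2⟩

/-- Any nontrivial finite group embedding in the units of a division ring. -/
theorem frobenius_of_injective {D : Type*} [DivisionRing D] {A : Type*} [Group A] [Finite A]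
    [Nontrivial A] (f : A →* Dˣ) (hf : Function.Injective f) :
    ∃ (L : Type) (_ : Group L) (_ : Finite L) (C : Subgroup L),
      Cfsg.IsFrobeniusComplement C ∧ Nonempty (A ≃* C) := by
  let e : A ≃* f.range := MonoidHom.ofInjective hf
  haveI : Finite f.range := Finite.of_equiv _ e.toEquiv
  have hb : f.range ≠ ⊥ := by
    intro h
    obtain ⟨a, ha⟩ := exists_ne (1 : A)
    have h1 : f a ∈ f.range := ⟨a, rfl⟩
    rw [h, Subgroup.mem_bot] at h1
    exact ha (hf (by rw [h1, map_one]))
  obtain ⟨L, i1, i2, C, h1, ⟨e2⟩⟩ := divisionRing_frobenius f.range hb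
  exact ⟨L, i1, i2, C, h1, ⟨e.trans e2⟩⟩

end Cfsg.Agent.H71
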