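import Cfsg.Agent.H71.NatRep
import Cfsg.Prelude.Def_ChevB2
import Cfsg.Prelude.Def_ChevD4

set_option autoImplicit false
set_option maxRecDepth 100000

/-!
# Tables of the natural representations of types B2 and D4 (helper71)
-/

namespace Cfsg.Agent.H71.NatRep

open Cfsg.Lie

/-- table of root elements -/
def rowsD4 : List (ℕ × ℕ × ℤ) := [(6, 7, 1), (5, 7, 1), (3, 7, 1), (4, 7, 1), (2, 7, -1), (1, 7, 1), (5, 6, -1), (3, 6, -1), (4, 6, -1), (2, 6, 1), (3, 5, 1), (4, 5, 1), (2, 3, 1), (2, 4, 1), (1, 5, 1), (1, 3, -1), (1, 4, -1), (1, 2, -1), (0, 6, 1), (0, 5, -1), (0, 3, 1), (0, 4, 1), (0, 2, 1), (0, 1, 1)]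

/-- the natural representation of type D4 -/
def tabD4 : Tab where
  n := 8
  be k l := if k + l = 7 then 1 else 0
  ga _ := 0
  ra r := (rowsD4.getD r (0, 0, 0)).1
  rb r := (rowsD4.getD r (0, 0, 0)).2.1
  rs r := (rowsD4.getD r (0, 0, 0)).2.2

/-- table of root elements -/
def rowsB2 : List (ℕ × ℕ × ℤ) := [(3, 4, 1), (4, 2, -1), (3, 2, -1), (1, 4, 1), (0, 3, 1), (1, 2, 1), (0, 2, 1), (0, 1, 1)]

/-- the natural representation of type B2 -/
def tabB2 : Tab where
  n := 5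
  be k l := if k + l = 4 then (if k = 2 then 2 else 1) else 0
  ga k := if k = 2 then 1 else 0
  ra r := (rowsB2.getD r (0, 0, 0)).1
  rb r := (rowsB2.getD r (0, 0, 0)).2.1
  rs r := (rowsB2.getD r (0, 0, 0)).2.2

theorem checksB2 : Checks tabB2 chevB2 := checks_of (by decide +kernel)

theorem checksD4 : Checks tabD4 chevD4 := checks_of (by decide +kernel)

end Cfsg.Agent.H71.NatRep
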