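import Cfsg.Agent.H71.NatData
import Cfsg.Agent.H71.CoverIso
import Cfsg.Agent.ClassO.Main
import Cfsg.Agent.Orth.Bridge

set_option autoImplicit false

/-!
# Images of the natural representations contain the Eichler elements of the standard hyperbolic pairs (helper71)
-/

namespace Cfsg.Agent.H71.NatRep

open QuadraticMap Cfsg.Agent.Orth Cfsg.Agent.ClassO Cfsg.Lie

variable {F V : Type*} [Field F] [AddCommGroup V] [Module F V]
variable {T : Tab} {Q : QuadraticForm F V} {bas : ℕ → V} {D : ChevalleyDatum}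

/-- the geometric checks of a table -/
structure GChk (T : Tab) (D : ChevalleyDatum) (m : ℕ) : Prop where
  mn : 2 * m ≤ T.n
  dual : ∀ j < T.n, ∀ k < T.n, (j < m ∨ T.n - 1 - j < m) → T.be j k = if j + k + 1 = T.n then 1 else 0
  gz : ∀ j < T.n, (j < m ∨ T.n - 1 - j < m) → T.ga j = 0
  row : (allN T.n fun j => allN T.n fun k => decide (¬ (j < m ∨ T.n - 1 - j < m)) || decide (k = j) ||
    decide (j + k + 1 = T.n) || (List.range D.nroots).any (fun r =>
      decide ((T.ra r = j ∧ T.rb r = k) ∨ (T.ra r = k ∧ T.rb r = j ∧ T.ga k = 0)))) = true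

theorem rs_sq {r : ℕ} (h : okR T r) : (T.rs r : F) * (T.rs r : F) = 1 := by
  have := h.2.2
  have h2 : ((T.rs r ^ 2 : ℤ) : F) = ((1 : ℤ) : F) := by rw [this]
  push_cast at h2
  rw [← h2]; ring

theorem eich_swap {a b : V} (ha : Q a = 0) (hb : Q b = 0) (hab : polar Q a b = 0) (c : F) :
    eich Q a (c • b) ha (by rw [psr, hab, mul_zero]) = eich Q b ((-c) • a) hb (by rw [psr, pc, hab, mul_zero]) := by
  refine OGrp_ext fun x => ?_
  rw [eich_apply, eich_apply]
  simp only [qsmul, psr, ha, hb]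
  module

theorem row_mem (R : Rz T Q bas) (C : Checks T D) {r : ℕ} (hr : r < D.nroots) (c : F)
    (h0 : Q (bas (T.ra r)) = 0) (h1 : polar Q (bas (T.ra r)) (c • bas (T.rb r)) = 0) :
    eich Q (bas (T.ra r)) (c • bas (T.rb r)) h0 h1 ∈ (stHom R C).range := by
  refine ⟨D.stGen F r ((T.rs r : F) * c), ?_⟩
  rw [stHom_gen R C hr, X_eq R (C.ok r hr)]
  apply eich_congr rfl
  rw [← mul_assoc, rs_sq (C.ok r hr), one_mul]

theorem basic_mem (R : Rz T Q bas) (C : Checks T D) {m : ℕ} (G : GChk T D m) {j k : ℕ} (hj : j < T.n) (hk : k < T.n)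
    (hjm : j < m ∨ T.n - 1 - j < m) (hjk : j + k + 1 ≠ T.n) (c : F)
    (h0 : Q (bas j) = 0) (h1 : polar Q (bas j) (c • bas k) = 0) :
    eich Q (bas j) (c • bas k) h0 h1 ∈ (stHom R C).range := by
  by_cases h : k = j
  · subst h
    rw [eich_self]
    exact Subgroup.one_mem _
  · have hrow := allN_iff.1 (allN_iff.1 G.row j hj) k hk
    simp only [Bool.or_eq_true, List.any_eq_true, decide_eq_true_eq, List.mem_range] at hrow
    replace hrow := ((hrow.resolve_left (by tauto)))
    obtain ⟨r, hr, h2 | h2⟩ := hrow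
    · obtain ⟨rfl, rfl⟩ := h2
      exact row_mem R C hr c h0 h1
    · obtain ⟨rfl, h3, h4⟩ := h2
      subst h3
      have hk0 : Q (bas (T.ra r)) = 0 := by rw [R.hga, h4]; simp
      have hp : polar Q (bas (T.rb r)) (bas (T.ra r)) = 0 := by
        rw [R.hbe, G.dual _ hj _ hk hjm, if_neg hjk]; simp
      rw [eich_swap h0 hk0 hp]
      exact row_mem R C hr _ _ _

theorem sum_mem (R : Rz T Q bas) (C : Checks T D) {m : ℕ} (G : GChk T D m) {j : ℕ} (hj : j < T.n)
    (hjm : j < m ∨ T.n - 1 - j < m) (c : ℕ → F) (h0 : Q (bas j) = 0) (s : Finset ℕ)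
    (hs : ∀ k ∈ s, k < T.n ∧ j + k + 1 ≠ T.n) :
    ∀ h1 : polar Q (bas j) (∑ k ∈ s, c k • bas k) = 0,
    eich Q (bas j) (∑ k ∈ s, c k • bas k) h0 h1 ∈ (stHom R C).range := by
  induction s using Finset.induction_on with
  | empty =>
    intro h1
    have h2 : polar Q (bas j) 0 = 0 := by simp
    have : eich Q (bas j) (∑ k ∈ (∅ : Finset ℕ), c k • bas k) h0 h1 = 1 := by
      rw [eich_congr (b' := 0) rfl Finset.sum_empty]
      exact eich_zero ..
    rw [this]
    exact Subgroup.one_mem _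
  | insert a s ha ih =>
    intro h1
    have h2 : polar Q (bas j) (c a • bas a) = 0 := by
      have := hs a (Finset.mem_insert_self _ _)
      rw [psr, R.hbe, G.dual j hj a this.1 hjm, if_neg this.2]; simp
    have h3 : polar Q (bas j) (∑ k ∈ s, c k • bas k) = 0 := by
      rw [Finset.sum_insert ha, par, h2, zero_add] at h1
      exact h1
    have h4 := Subgroup.mul_mem _ (basic_mem R C G hj (hs a (Finset.mem_insert_self _ _)).1 hjm
      (hs a (Finset.mem_insert_self _ _)).2 (c a) h0 h2)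
      (ih (fun k hk => hs k (Finset.mem_insert_of_mem hk)) h3)
    rw [eich_mul] at h4
    rw [eich_congr rfl (Finset.sum_insert ha)]
    exact h4

theorem all_mem (R : Rz T Q bas) (C : Checks T D) {m : ℕ} (G : GChk T D m)
    (hsp : ∀ v : V, ∃ c : ℕ → F, v = ∑ k ∈ Finset.range T.n, c k • bas k) {j : ℕ} (hj : j < T.n)
    (hjm : j < m ∨ T.n - 1 - j < m) (w : V) (h0 : Q (bas j) = 0) (hw : polar Q (bas j) w = 0) :
    eich Q (bas j) w h0 hw ∈ (stHom R C).range := by
  obtain ⟨c, rfl⟩ := hsp w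
  have h1 : ∀ s : Finset ℕ, polar Q (bas j) (∑ k ∈ s, c k • bas k) = ∑ k ∈ s, c k * (T.be j k : F) := by
    intro s
    induction s using Finset.induction_on with
    | empty => simp
    | insert a s ha ih => rw [Finset.sum_insert ha, Finset.sum_insert ha, par, ih, psr, R.hbe]
  have hd : T.n - 1 - j ∈ Finset.range T.n := by rw [Finset.mem_range]; omega
  have h2 : c (T.n - 1 - j) = 0 := by
    have h3 := hw
    rw [h1, Finset.sum_eq_single (T.n - 1 - j)] at h3
    · rw [G.dual j hj _ (by omega) hjm, if_pos (by omega)] at h3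
      simpa using h3
    · intro b hb hne
      rw [Finset.mem_range] at hb
      rw [G.dual j hj b hb hjm, if_neg (by omega)]
      simp
    · intro h; exact absurd hd h
  have h3 : ∑ k ∈ Finset.range T.n, c k • bas k = ∑ k ∈ (Finset.range T.n).erase (T.n - 1 - j), c k • bas k := by
    rw [← Finset.add_sum_erase _ _ hd, h2, zero_smul, zero_add]
  rw [eich_congr rfl h3]
  apply sum_mem R C G hj hjm
  intro k hk
  rw [Finset.mem_erase, Finset.mem_range] at hk
  exact ⟨hk.2, by omega⟩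

theorem eh_range (R : Rz T Q bas) (C : Checks T D) {m : ℕ} (G : GChk T D m)
    (hsp : ∀ v : V, ∃ c : ℕ → F, v = ∑ k ∈ Finset.range T.n, c k • bas k) :
    OGen.EH Q m bas (fun i => bas (T.n - 1 - i)) (stHom R C).range := by
  have := G.mn
  refine ⟨fun i hi w h0 hw => all_mem R C G hsp (by omega) (Or.inl hi) w h0 hw,
    fun i hi w h0 hw => all_mem R C G hsp (j := T.n - 1 - i) (by omega) (Or.inr (by omega)) w h0 hw⟩

theorem hs_of (R : Rz T Q bas) {m : ℕ} (G : GChk T D m)
    (han : ∀ v, (∀ i < m, polar Q v (bas i) = 0 ∧ polar Q v (bas (T.n - 1 - i)) = 0) → Q v = 0 → v = 0) :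
    OGen.HS Q m bas (fun i => bas (T.n - 1 - i)) := by
  have hm := G.mn
  refine ⟨fun i hi => ?_, fun i hi => ?_, fun i hi => ?_, fun i hi j hj => ?_, fun i hi j hj => ?_,
    fun i hi j hj hij => ?_, han⟩
  · rw [R.hga, G.gz i (by omega) (Or.inl hi)]; simp
  · rw [R.hga, G.gz _ (by omega) (Or.inr (by omega))]; simp
  · rw [R.hbe, G.dual _ (by omega) _ (by omega) (Or.inl hi), if_pos (by omega)]; simp
  · rw [R.hbe, G.dual _ (by omega) _ (by omega) (Or.inl hi), if_neg (by omega)]; simp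
  · rw [R.hbe, G.dual _ (by omega) _ (by omega) (Or.inr (by omega)), if_neg (by omega)]; simp
  · rw [R.hbe, G.dual _ (by omega) _ (by omega) (Or.inl hi), if_neg (by omega)]; simp

theorem gchkD4 : GChk tabD4 chevD4 4 where
  mn := by decide
  dual := by decide
  gz := by decide
  row := by decide +kernel

theorem gchkB2 : GChk tabB2 chevB2 2 where
  mn := by decide
  dual := by decide
  gz := by decide
  row := by decide +kernel

/-- two generators that do not commute -/
theorem nc_of (R : Rz T Q bas) (C : Checks T D) {r s : ℕ} (hr : r < D.nroots) (hs : s < D.nroots) {k : ℕ}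
    {x y : List Cfsg.Agent.Chev.Term} (hx : apW T [(r, 1, 0, 0), (s, 1, 0, 0)] [(k, 1, 0, 0)] = x)
    (hy : apW T [(s, 1, 0, 0), (r, 1, 0, 0)] [(k, 1, 0, 0)] = y) (h : evV bas (1 : F) 1 x ≠ evV bas (1 : F) 1 y) :
    ∃ x y : D.SteinbergGroup F, stHom R C x * stHom R C y ≠ stHom R C y * stHom R C x := by
  refine ⟨D.stGen F r 1, D.stGen F s 1, fun h1 => ?_⟩
  rw [stHom_gen R C hr, stHom_gen R C hs] at h1
  have h2 : ∀ a b : ℕ, Wd T Q bas (1 : F) (1 : F) [(a, (1 : ℤ), 0, 0), (b, 1, 0, 0)] = X T Q bas a 1 * X T Q bas b 1 := by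
    intro a b
    simp [Wd]
  rw [← h2, ← h2] at h1
  apply h
  have hok : ∀ a b : ℕ, a < D.nroots → b < D.nroots → ∀ x ∈ [(a, (1 : ℤ), 0, 0), (b, 1, 0, 0)], okR T x.1 := by
    intro a b ha hb x hx
    simp only [List.mem_cons, List.not_mem_nil, or_false] at hx
    rcases hx with rfl | rfl
    exacts [C.ok _ ha, C.ok _ hb]
  have e1 := Wd_vec R (1 : F) 1 _ (hok r s hr hs) [(k, 1, 0, 0)]
  have e2 := Wd_vec R (1 : F) 1 _ (hok s r hs hr) [(k, 1, 0, 0)]
  rw [hx] at e1
  rw [hy] at e2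
  rw [← e1, ← e2, h1]

end Cfsg.Agent.H71.NatRep
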