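import Cfsg.Agent.H71.NatGen
import Cfsg.Agent.S1054
import Cfsg.Agent.S1056
import Cfsg.Agent.S1077

set_option autoImplicit false

/-!
# Types D4 and B2 as orthogonal groups (helper71)
-/

namespace Cfsg.Agent.H71.NatRep

open QuadraticMap Cfsg.Agent.Orth Cfsg.Agent.ClassO Cfsg.Lie

section gen
variable {F V : Type*} [Field F] [AddCommGroup V] [Module F V] {T : Tab} {Q : QuadraticForm F V} {bas : ℕ → V}

theorem hext_of_span (hsp : ∀ v : V, ∃ c : ℕ → F, v = ∑ k ∈ Finset.range T.n, c k • bas k) (g h : OGrp Q)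
    (hgh : ∀ k < T.n, (g : V ≃ₗ[F] V) (bas k) = (h : V ≃ₗ[F] V) (bas k)) : g = h := by
  refine OGrp_ext fun v => ?_
  obtain ⟨c, rfl⟩ := hsp v
  rw [map_sum, map_sum]
  refine Finset.sum_congr rfl fun k hk => ?_
  rw [map_smul, map_smul, hgh k (Finset.mem_range.1 hk)]

end gen

variable (F : Type*) [Field F]

/-- the basis of the natural module of type D4 -/
noncomputable def bD4 (k : ℕ) : Fin 4 ⊕ Fin 4 → F :=
  if h : k < 4 then Pi.single (.inl ⟨k, h⟩) 1 else if h : k < 8 then Pi.single (.inr ⟨7 - k, by omega⟩) 1 else 0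

/-- the index -/
def iD4 (k : ℕ) : Fin 4 ⊕ Fin 4 :=
  if h : k < 4 then .inl ⟨k, h⟩ else if h : k < 8 then .inr ⟨7 - k, by omega⟩ else .inl 0

theorem spanD4 (v : Fin 4 ⊕ Fin 4 → F) : ∃ c : ℕ → F, v = ∑ k ∈ Finset.range tabD4.n, c k • bD4 F k := by
  refine ⟨fun k => v (iD4 k), ?_⟩
  show v = ∑ k ∈ Finset.range 8, v (iD4 k) • bD4 F k
  simp only [Finset.sum_range_succ, Finset.sum_range_zero]
  ext i
  rcases i with i | i <;> fin_cases i <;> simp [bD4, iD4]

theorem rzD4 : Rz tabD4 (qfPlus 4 F) (bD4 F) where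
  hbe k l := by
    have hbe : (tabD4.be k l : F) = if k + l = 7 then 1 else 0 := by
      show ((if k + l = 7 then 1 else 0 : ℤ) : F) = _
      split_ifs <;> simp
    rw [hbe]
    by_cases hk : k < 8
    · by_cases hl : l < 8
      · rw [polar_qfPlus]
        interval_cases k <;> interval_cases l <;> simp [bD4, Fin.sum_univ_four, Pi.single_apply]
      · have h1 : bD4 F l = 0 := by unfold bD4; rw [dif_neg (by omega), dif_neg (by omega)]
        rw [h1, if_neg (by omega)]; simp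
    · have h1 : bD4 F k = 0 := by unfold bD4; rw [dif_neg (by omega), dif_neg (by omega)]
      rw [h1, if_neg (by omega)]; simp
  hga k := by
    have hga : (tabD4.ga k : F) = 0 := by
      show ((0 : ℤ) : F) = 0
      simp
    rw [hga, qfPlus_apply]
    by_cases hk : k < 8
    · interval_cases k <;> simp [bD4, Fin.sum_univ_four, Pi.single_apply]
    · have h1 : bD4 F k = 0 := by unfold bD4; rw [dif_neg (by omega), dif_neg (by omega)]
      rw [h1]; simp
  hext := hext_of_span (spanD4 F)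

theorem ndD4 (v : Fin 4 ⊕ Fin 4 → F)
    (h : ∀ i < 4, polar (qfPlus 4 F) v (bD4 F i) = 0 ∧ polar (qfPlus 4 F) v (bD4 F (tabD4.n - 1 - i)) = 0) : v = 0 := by
  have h0 := h 0 (by norm_num)
  have h1 := h 1 (by norm_num)
  have h2 := h 2 (by norm_num)
  have h3 := h 3 (by norm_num)
  have hn : tabD4.n = 8 := rfl
  rw [hn] at h0 h1 h2 h3
  simp [polar_qfPlus, bD4, Fin.sum_univ_four, Pi.single_apply] at h0 h1 h2 h3
  ext i
  rcases i with i | i <;> fin_cases i <;> simp_all

theorem d4_main : Nonempty (↥(chevD4.group F) ≃* Cfsg.POmega F (Cfsg.quadFormPlus 4 F)) := by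
  obtain ⟨θ, h1, h2, -⟩ := Cfsg.Agent.S1077.result (K := F) chevD4 (by simp)
  obtain ⟨h3, h4⟩ := Cfsg.Agent.S1054.result (F := F) chevD4 (by simp)
  have hnd := ndD4 F
  have hHS : OGen.HS (qfPlus 4 F) 4 (bD4 F) (fun i => bD4 F (tabD4.n - 1 - i)) :=
    hs_of (rzD4 F) gchkD4 (fun v hv _ => hnd v hv)
  have hEH := eh_range (rzD4 F) checksD4 gchkD4 (spanD4 F)
  have h5 : commutator (OGrp (qfPlus 4 F)) ≤ (stHom (rzD4 F) checksD4).range :=
    (OGen.commutator_le_plus hHS (by norm_num) hnd).trans (OGen.EA_le hHS hEH (by norm_num))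
  have h6 : ∃ x y, stHom (rzD4 F) checksD4 x * stHom (rzD4 F) checksD4 y ≠
      stHom (rzD4 F) checksD4 y * stHom (rzD4 F) checksD4 x := by
    refine nc_of (rzD4 F) checksD4 (r := 23) (s := 0) (by decide) (by decide) (k := 7)
      (x := [(1, -1, 0, 0), (7, 1, 0, 0)]) (y := [(7, 2, 0, 0), (1, -1, 0, 0)]) (by decide +kernel) (by decide +kernel) ?_
    intro h
    have h7 := congrFun h (.inr 0)
    simp [evT, bD4] at h7
    exact one_ne_zero (α := F) (by linear_combination (-1 : F) * h7)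
  obtain ⟨e⟩ := iso_of_cover θ h1 h2 h3 h4 (stHom (rzD4 F) checksD4) h5 h6
  exact ⟨e.trans (pomE (qfPlus 4 F)).symm⟩

/-- the basis of the natural module of type B2 -/
noncomputable def bB2 (k : ℕ) : Unit ⊕ (Fin 2 ⊕ Fin 2) → F :=
  if k = 0 then Pi.single (.inr (.inl 0)) 1 else if k = 1 then Pi.single (.inr (.inl 1)) 1 else
  if k = 2 then Pi.single (.inl ()) 1 else if k = 3 then Pi.single (.inr (.inr 1)) 1 else
  if k = 4 then Pi.single (.inr (.inr 0)) 1 else 0

/-- the index -/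
def iB2 (k : ℕ) : Unit ⊕ (Fin 2 ⊕ Fin 2) :=
  if k = 0 then .inr (.inl 0) else if k = 1 then .inr (.inl 1) else
  if k = 2 then .inl () else if k = 3 then .inr (.inr 1) else .inr (.inr 0)

theorem bB2_zero {k : ℕ} (hk : ¬ k < 5) : bB2 F k = 0 := by
  unfold bB2
  rw [if_neg (by omega), if_neg (by omega), if_neg (by omega), if_neg (by omega), if_neg (by omega)]

theorem spanB2 (v : Unit ⊕ (Fin 2 ⊕ Fin 2) → F) : ∃ c : ℕ → F, v = ∑ k ∈ Finset.range tabB2.n, c k • bB2 F k := by
  refine ⟨fun k => v (iB2 k), ?_⟩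
  show v = ∑ k ∈ Finset.range 5, v (iB2 k) • bB2 F k
  simp only [Finset.sum_range_succ, Finset.sum_range_zero]
  ext i
  rcases i with i | i | i <;> fin_cases i <;> simp [bB2, iB2]

theorem rzB2 : Rz tabB2 (qfOdd 2 F) (bB2 F) where
  hbe k l := by
    have hbe : (tabB2.be k l : F) = if k + l = 4 then (if k = 2 then 2 else 1) else 0 := by
      show ((if k + l = 4 then (if k = 2 then 2 else 1) else 0 : ℤ) : F) = _
      split_ifs <;> simp
    rw [hbe]
    by_cases hk : k < 5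
    · by_cases hl : l < 5
      · rw [polar_qfOdd]
        interval_cases k <;> interval_cases l <;> simp [bB2, Fin.sum_univ_two, Pi.single_apply]
      · rw [bB2_zero F hl, if_neg (by omega)]; simp
    · rw [bB2_zero F hk, if_neg (by omega)]; simp
  hga k := by
    have hga : (tabB2.ga k : F) = if k = 2 then 1 else 0 := by
      show ((if k = 2 then 1 else 0 : ℤ) : F) = _
      split_ifs <;> simp
    rw [hga, qfOdd_apply]
    by_cases hk : k < 5
    · interval_cases k <;> simp [bB2, Fin.sum_univ_two, Pi.single_apply]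
    · rw [bB2_zero F hk, if_neg (by omega)]; simp
  hext := hext_of_span (spanB2 F)

theorem ndB2 (v : Unit ⊕ (Fin 2 ⊕ Fin 2) → F)
    (h : ∀ i < 2, polar (qfOdd 2 F) v (bB2 F i) = 0 ∧ polar (qfOdd 2 F) v (bB2 F (tabB2.n - 1 - i)) = 0) :
    ∃ c : F, v = c • bB2 F 2 := by
  refine ⟨v (.inl ()), ?_⟩
  have h0 := h 0 (by norm_num)
  have h1 := h 1 (by norm_num)
  have hn : tabB2.n = 5 := rfl
  rw [hn] at h0 h1
  simp [polar_qfOdd, bB2, Fin.sum_univ_two, Pi.single_apply] at h0 h1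
  ext i
  rcases i with i | i | i <;> fin_cases i <;> simp_all [bB2]

theorem b2_main (hF : ∃ a : F, a ≠ 0 ∧ a ≠ 1) :
    Nonempty (↥(chevB2.group F) ≃* Cfsg.POmega F (Cfsg.quadFormOdd 2 F)) := by
  obtain ⟨θ, h1, h2, -⟩ := Cfsg.Agent.S1077.result (K := F) chevB2 (by simp)
  obtain ⟨h3, h4⟩ := Cfsg.Agent.S1056.result (F := F) hF
  have hnd := ndB2 F
  have hq2 : qfOdd 2 F (bB2 F 2) = 1 := by simp [qfOdd_apply, bB2, Fin.sum_univ_two]
  have hHS : OGen.HS (qfOdd 2 F) 2 (bB2 F) (fun i => bB2 F (tabB2.n - 1 - i)) :=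
    hs_of (rzB2 F) gchkB2 (fun v hv hq => by
      obtain ⟨c, rfl⟩ := hnd v hv
      rw [qsmul, hq2] at hq
      have : c = 0 := by simpa using hq
      rw [this, zero_smul])
  have hEH := eh_range (rzB2 F) checksB2 gchkB2 (spanB2 F)
  have h5 : commutator (OGrp (qfOdd 2 F)) ≤ (stHom (rzB2 F) checksB2).range := by
    refine (OGen.commutator_le_odd hHS (by norm_num) (z := bB2 F 2) hq2 ?_ hnd).trans
      (OGen.EA_le hHS hEH (by norm_num))
    intro i hi
    have hR := rzB2 F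
    have hn : tabB2.n = 5 := rfl
    rw [hn]
    constructor
    · rw [hR.hbe]
      interval_cases i <;> simp [tabB2]
    · rw [hR.hbe]
      interval_cases i <;> simp [tabB2]
  have h6 : ∃ x y, stHom (rzB2 F) checksB2 x * stHom (rzB2 F) checksB2 y ≠
      stHom (rzB2 F) checksB2 y * stHom (rzB2 F) checksB2 x := by
    refine nc_of (rzB2 F) checksB2 (r := 7) (s := 0) (by decide) (by decide) (k := 4)
      (x := [(1, -1, 0, 0), (4, 1, 0, 0)]) (y := [(4, 2, 0, 0), (1, -1, 0, 0)]) (by decide +kernel) (by decide +kernel) ?_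
    intro h
    have h7 := congrFun h (.inr (.inr 0))
    simp [evT, bB2] at h7
    exact one_ne_zero (α := F) (by linear_combination (-1 : F) * h7)
  obtain ⟨e⟩ := iso_of_cover θ h1 h2 h3 h4 (stHom (rzB2 F) checksB2) h5 h6
  exact ⟨e.trans (pomE (qfOdd 2 F)).symm⟩

end Cfsg.Agent.H71.NatRep
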