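import Cfsg.Agent.H71.OGen
import Cfsg.Agent.Chev.Engine
import Cfsg.Prelude.Def_Steinberg

set_option autoImplicit false

/-!
# A verified symbolic engine for natural representations of Steinberg groups in orthogonal groups (helper71)
-/

namespace Cfsg.Agent.H71.NatRep

open QuadraticMap Cfsg.Agent.Orth Cfsg.Agent.ClassO Cfsg.Lie
open Cfsg.Agent.Chev (Term insertT normT eqV)

/-- tables of a natural representation -/
structure Tab where
  n : ℕ
  be : ℕ → ℕ → ℤ
  ga : ℕ → ℤ
  ra : ℕ → ℕ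
  rb : ℕ → ℕ
  rs : ℕ → ℤ

variable {F V : Type*} [Field F] [AddCommGroup V] [Module F V]

/-- realization of the tables -/
structure Rz (T : Tab) (Q : QuadraticForm F V) (bas : ℕ → V) : Prop where
  hbe : ∀ k l, polar Q (bas k) (bas l) = (T.be k l : F)
  hga : ∀ k, Q (bas k) = (T.ga k : F)
  hext : ∀ g h : OGrp Q, (∀ k < T.n, (g : V ≃ₗ[F] V) (bas k) = (h : V ≃ₗ[F] V) (bas k)) → g = h

/-- value of a term -/
def evT (bas : ℕ → V) (t u : F) (x : Term) : V :=
  (((x.2.1 : ℤ) : F) * (t ^ x.2.2.1 * u ^ x.2.2.2)) • bas x.1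

/-- value of a formal vector -/
def evV (bas : ℕ → V) (t u : F) (v : List Term) : V := (v.map (evT bas t u)).sum

section ev
variable (bas : ℕ → V) (t u : F)

@[simp] lemma evV_nil : evV bas t u [] = 0 := rfl
@[simp] lemma evV_cons (x : Term) (v : List Term) : evV bas t u (x :: v) = evT bas t u x + evV bas t u v := rfl
@[simp] lemma evV_append (v w : List Term) : evV bas t u (v ++ w) = evV bas t u v + evV bas t u w := by
  simp [evV]

lemma evV_insertT (x : Term) (l : List Term) : evV bas t u (insertT x l) = evT bas t u x + evV bas t u l := by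
  induction l with
  | nil => simp [insertT]
  | cons y l ih =>
    unfold insertT
    split_ifs with h
    · simp only [evV_cons, evT]
      rw [h.1, h.2, ← add_assoc, ← add_smul]
      congr 2
      push_cast
      ring
    · simp only [evV_cons, ih]; abel

lemma evV_filter (l : List Term) : evV bas t u (l.filter (fun x => x.2.1 ≠ 0)) = evV bas t u l := by
  induction l with
  | nil => simp
  | cons y l ih =>
    by_cases h : y.2.1 = 0
    · rw [List.filter_cons_of_neg (by simpa using h), ih, evV_cons]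
      simp [evT, h]
    · rw [List.filter_cons_of_pos (by simpa using h), evV_cons, evV_cons, ih]

lemma evV_normT (v : List Term) : evV bas t u (normT v) = evV bas t u v := by
  unfold normT
  rw [evV_filter]
  induction v with
  | nil => simp
  | cons x v ih => simp [evV_insertT, ih]

lemma evV_neg (v : List Term) : evV bas t u (v.map fun x => (x.1, -x.2.1, x.2.2)) = - evV bas t u v := by
  induction v with
  | nil => simp
  | cons x v ih =>
    simp only [List.map_cons, evV_cons, ih, neg_add]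
    congr 1
    simp [evT]

lemma eqV_sound {v v' : List Term} (h : eqV v v' = true) : evV bas t u v = evV bas t u v' := by
  unfold eqV at h
  rw [List.isEmpty_iff] at h
  have h1 := evV_normT bas t u (v ++ v'.map fun x => (x.1, -x.2.1, x.2.2))
  rw [h, evV_append, evV_neg] at h1
  simp only [evV_nil] at h1
  rw [eq_comm, add_neg_eq_zero] at h1
  exact h1

end ev

/-- reduction with `t u = 1` -/
def redT (x : Term) : Term := (x.1, x.2.1, x.2.2.1 - x.2.2.2, x.2.2.2 - x.2.2.1)

lemma evT_redT (bas : ℕ → V) {t u : F} (htu : t * u = 1) (x : Term) : evT bas t u (redT x) = evT bas t u x := by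
  unfold evT redT
  simp only
  congr 2
  rcases le_total x.2.2.1 x.2.2.2 with h | h
  · obtain ⟨d, hd⟩ := Nat.exists_eq_add_of_le h
    rw [hd]
    have : x.2.2.1 - (x.2.2.1 + d) = 0 := by omega
    rw [this, Nat.add_sub_cancel_left, pow_add, ← mul_assoc, ← mul_pow, htu]
    simp
  · obtain ⟨d, hd⟩ := Nat.exists_eq_add_of_le h
    rw [hd]
    have : x.2.2.2 - (x.2.2.2 + d) = 0 := by omega
    rw [this, Nat.add_sub_cancel_left, pow_add]
    have : t ^ x.2.2.2 * t ^ d * u ^ x.2.2.2 = (t * u) ^ x.2.2.2 * t ^ d := by rw [mul_pow]; ring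
    rw [this, htu]
    simp

lemma evV_redT (bas : ℕ → V) {t u : F} (htu : t * u = 1) (v : List Term) :
    evV bas t u (v.map redT) = evV bas t u v := by
  induction v with
  | nil => rfl
  | cons x v ih => rw [List.map_cons, evV_cons, evV_cons, ih, evT_redT bas htu]

/-- apply `x_r(a t^p u^q)` to a term -/
def apX (T : Tab) (r : ℕ) (a : ℤ) (p q : ℕ) (x : Term) : List Term :=
  [x, (T.ra r, T.be x.1 (T.rb r) * (T.rs r * a) * x.2.1, x.2.2.1 + p, x.2.2.2 + q),
    (T.rb r, -(T.be x.1 (T.ra r) * (T.rs r * a) * x.2.1), x.2.2.1 + p, x.2.2.2 + q),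
    (T.ra r, -(T.ga (T.rb r) * T.be x.1 (T.ra r) * (T.rs r * a) ^ 2 * x.2.1), x.2.2.1 + 2 * p, x.2.2.2 + 2 * q)]

/-- apply a root element to a formal vector -/
def apV (T : Tab) (r : ℕ) (a : ℤ) (p q : ℕ) (v : List Term) : List Term := normT (v.flatMap (apX T r a p q))

/-- apply a symbolic word to a formal vector -/
def apW (T : Tab) (w : List (ℕ × ℤ × ℕ × ℕ)) (v : List Term) : List Term :=
  w.foldr (fun x v => apV T x.1 x.2.1 x.2.2.1 x.2.2.2 v) v

open Classical in
/-- the root element -/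
noncomputable def X (T : Tab) (Q : QuadraticForm F V) (bas : ℕ → V) (r : ℕ) (t : F) : OGrp Q :=
  if h : Q (bas (T.ra r)) = 0 ∧ polar Q (bas (T.ra r)) (((T.rs r : F) * t) • bas (T.rb r)) = 0 then
    eich Q (bas (T.ra r)) (((T.rs r : F) * t) • bas (T.rb r)) h.1 h.2 else 1

/-- the basic checks of a root index -/
def okR (T : Tab) (r : ℕ) : Prop := T.ga (T.ra r) = 0 ∧ T.be (T.ra r) (T.rb r) = 0 ∧ T.rs r ^ 2 = 1

instance (T : Tab) (r : ℕ) : Decidable (okR T r) := inferInstanceAs (Decidable (_ ∧ _))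

section
variable {T : Tab} {Q : QuadraticForm F V} {bas : ℕ → V}

theorem okR.q (R : Rz T Q bas) {r : ℕ} (h : okR T r) : Q (bas (T.ra r)) = 0 := by
  rw [R.hga, h.1]; simp

theorem okR.p (R : Rz T Q bas) {r : ℕ} (h : okR T r) (c : F) : polar Q (bas (T.ra r)) (c • bas (T.rb r)) = 0 := by
  rw [psr, R.hbe, h.2.1]; simp

theorem X_eq (R : Rz T Q bas) {r : ℕ} (h : okR T r) (t : F) :
    X T Q bas r t = eich Q (bas (T.ra r)) (((T.rs r : F) * t) • bas (T.rb r)) (h.q R) (h.p R _) := by
  unfold X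
  rw [dif_pos ⟨h.q R, h.p R _⟩]

theorem X_add (R : Rz T Q bas) {r : ℕ} (h : okR T r) (t u : F) :
    X T Q bas r t * X T Q bas r u = X T Q bas r (t + u) := by
  rw [X_eq R h, X_eq R h, X_eq R h, eich_mul]
  apply eich_congr rfl
  rw [← add_smul, mul_add]

theorem X_zero (R : Rz T Q bas) {r : ℕ} (h : okR T r) : X T Q bas r (0 : F) = 1 := by
  have := X_add R h (0 : F) 0
  rw [add_zero] at this
  exact mul_eq_left.1 this

theorem X_inv (R : Rz T Q bas) {r : ℕ} (h : okR T r) (t : F) : (X T Q bas r t)⁻¹ = X T Q bas r (-t) := by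
  rw [inv_eq_iff_mul_eq_one, X_add R h, add_neg_cancel, X_zero R h]

theorem X_term (R : Rz T Q bas) {r : ℕ} (h : okR T r) (t u : F) (a : ℤ) (p q : ℕ) (x : Term) :
    (X T Q bas r ((a : F) * t ^ p * u ^ q) : V ≃ₗ[F] V) (evT bas t u x) = evV bas t u (apX T r a p q x) := by
  rw [X_eq R h, evT, map_smul, eich_apply]
  unfold apX
  simp only [evV_cons, evV_nil, evT, psr, R.hbe, qsmul, R.hga]
  push_cast
  match_scalars <;> ring

theorem X_vec (R : Rz T Q bas) {r : ℕ} (h : okR T r) (t u : F) (a : ℤ) (p q : ℕ) (v : List Term) :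
    (X T Q bas r ((a : F) * t ^ p * u ^ q) : V ≃ₗ[F] V) (evV bas t u v) = evV bas t u (apV T r a p q v) := by
  unfold apV
  rw [evV_normT]
  induction v with
  | nil => simp
  | cons x v ih =>
    rw [evV_cons, map_add, ih, List.flatMap_cons, evV_append, X_term R h]

/-- the element of a symbolic word -/
noncomputable def Wd (T : Tab) (Q : QuadraticForm F V) (bas : ℕ → V) (t u : F) (w : List (ℕ × ℤ × ℕ × ℕ)) : OGrp Q :=
  (w.map fun x => X T Q bas x.1 ((x.2.1 : F) * t ^ x.2.2.1 * u ^ x.2.2.2)).prod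

theorem Wd_vec (R : Rz T Q bas) (t u : F) (w : List (ℕ × ℤ × ℕ × ℕ)) (hw : ∀ x ∈ w, okR T x.1) (v : List Term) :
    (Wd T Q bas t u w : V ≃ₗ[F] V) (evV bas t u v) = evV bas t u (apW T w v) := by
  induction w with
  | nil => rfl
  | cons x w ih =>
    have h1 : Wd T Q bas t u (x :: w) = X T Q bas x.1 ((x.2.1 : F) * t ^ x.2.2.1 * u ^ x.2.2.2) * Wd T Q bas t u w := rfl
    rw [h1, coe_mul_apply, ih (fun y hy => hw y (by simp [hy])), X_vec R (hw x (by simp))]
    rfl

theorem evV_bas (t u : F) (k : ℕ) : evV bas t u [(k, 1, 0, 0)] = bas k := by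
  simp [evT]

/-- all numbers below `n` -/
def allN (n : ℕ) (f : ℕ → Bool) : Bool := (List.range n).all f

theorem allN_iff {n : ℕ} {f : ℕ → Bool} : allN n f = true ↔ ∀ k < n, f k = true := by
  simp [allN]

/-- equality of words on the basis -/
def chkW (T : Tab) (w w' : List (ℕ × ℤ × ℕ × ℕ)) : Bool :=
  allN T.n fun k => eqV (apW T w [(k, 1, 0, 0)]) (apW T w' [(k, 1, 0, 0)])

theorem Wd_eq (R : Rz T Q bas) (t u : F) {w w' : List (ℕ × ℤ × ℕ × ℕ)} (hw : ∀ x ∈ w, okR T x.1)
    (hw' : ∀ x ∈ w', okR T x.1) (h : chkW T w w' = true) : Wd T Q bas t u w = Wd T Q bas t u w' := by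
  apply R.hext
  intro k hk
  have h1 := allN_iff.1 h k hk
  have h2 := eqV_sound bas t u h1
  rw [← Wd_vec R t u w hw, ← Wd_vec R t u w' hw', evV_bas] at h2
  exact h2

/-- the left-hand side of the commutator relation -/
def lhs2 (r s : ℕ) : List (ℕ × ℤ × ℕ × ℕ) := [(s, -1, 0, 1), (r, -1, 1, 0), (s, 1, 0, 1), (r, 1, 1, 0)]

/-- the right-hand side of the commutator relation -/
def rhs2 (D : ChevalleyDatum) (r s : ℕ) : List (ℕ × ℤ × ℕ × ℕ) :=
  (D.commTerms r s).map fun c => (c.1, c.2.1 * (-1) ^ c.2.2.1, c.2.2.1, c.2.2.2)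

/-- the word of `h_r(t)`, `u = t⁻¹` -/
def hW (D : ChevalleyDatum) (r : ℕ) : List (ℕ × ℤ × ℕ × ℕ) :=
  [(r, 1, 1, 0), (D.neg r, -1, 0, 1), (r, 1, 1, 0), (r, -1, 0, 0), (D.neg r, 1, 0, 0), (r, -1, 0, 0)]

/-- the exponents of `h_r(t)` on the basis: `t^i u^j` -/
def hexp (T : Tab) (r k : ℕ) : ℕ × ℕ :=
  let m : ℤ := (if k = T.ra r then 1 + T.ga (T.rb r) else 0) + (if k = T.rb r ∧ T.ga (T.rb r) = 0 then 1 else 0)
    - (if T.be k (T.ra r) ≠ 0 then 1 + T.ga (T.rb r) else 0) - (if T.be k (T.rb r) ≠ 0 ∧ T.ga (T.rb r) = 0 then 1 else 0)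
  (m.toNat, (-m).toNat)

/-- the check of the action of `h_r(t)` -/
def chkH (T : Tab) (D : ChevalleyDatum) (r : ℕ) : Bool :=
  allN T.n fun k => eqV ((apW T (hW D r) [(k, 1, 0, 0)]).map redT) [(k, 1, (hexp T r k).1, (hexp T r k).2)]

theorem Wd_hW (R : Rz T Q bas) {D : ChevalleyDatum} {r : ℕ} (hr : okR T r) (hr' : okR T (D.neg r))
    (h : chkH T D r = true) {t : F} (ht : t ≠ 0) {k : ℕ} (hk : k < T.n) :
    (Wd T Q bas t t⁻¹ (hW D r) : V ≃ₗ[F] V) (bas k) = (t ^ (hexp T r k).1 * t⁻¹ ^ (hexp T r k).2) • bas k := by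
  have h1 := allN_iff.1 h k hk
  have h2 := eqV_sound bas t t⁻¹ h1
  rw [evV_redT bas (mul_inv_cancel₀ ht), ← Wd_vec R t t⁻¹, evV_bas] at h2
  · rw [h2]
    simp [evT]
  · intro x hx
    simp only [hW, List.mem_cons, List.not_mem_nil, or_false] at hx
    rcases hx with rfl | rfl | rfl | rfl | rfl | rfl <;> assumption

theorem Wd_hW_mul (R : Rz T Q bas) {D : ChevalleyDatum} {r : ℕ} (hr : okR T r) (hr' : okR T (D.neg r))
    (h : chkH T D r = true) {t s : F} (ht : t ≠ 0) (hs : s ≠ 0) :
    Wd T Q bas t t⁻¹ (hW D r) * Wd T Q bas s s⁻¹ (hW D r) = Wd T Q bas (t * s) (t * s)⁻¹ (hW D r) := by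
  apply R.hext
  intro k hk
  rw [coe_mul_apply, Wd_hW R hr hr' h hs hk, map_smul, Wd_hW R hr hr' h ht hk,
    Wd_hW R hr hr' h (mul_ne_zero ht hs) hk, smul_smul]
  congr 1
  rw [mul_inv, mul_pow, mul_pow]
  ring

/-- all the checks -/
structure Checks (T : Tab) (D : ChevalleyDatum) : Prop where
  ok : ∀ r < D.nroots, okR T r
  neg_lt : ∀ r < D.nroots, D.neg r < D.nroots
  h : ∀ r < D.nroots, chkH T D r = true
  comm : ∀ r < D.nroots, ∀ s < D.nroots, s ≠ r → s ≠ D.neg r →
    chkW T (lhs2 r s) (rhs2 D r s) = true ∧ ∀ x ∈ rhs2 D r s, x.1 < D.nroots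

/-- boolean version of the checks -/
def chkAll (T : Tab) (D : ChevalleyDatum) : Bool :=
  allN D.nroots fun r => decide (okR T r) && decide (D.neg r < D.nroots) && chkH T D r &&
    allN D.nroots fun s => decide (s = r) || decide (s = D.neg r) ||
      (chkW T (lhs2 r s) (rhs2 D r s) && (rhs2 D r s).all fun x => decide (x.1 < D.nroots))

theorem checks_of {T : Tab} {D : ChevalleyDatum} (h : chkAll T D = true) : Checks T D := by
  have h1 := allN_iff.1 h
  refine ⟨fun r hr => ?_, fun r hr => ?_, fun r hr => ?_, fun r hr s hs h2 h3 => ?_⟩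
  · have := h1 r hr
    simp only [Bool.and_eq_true, decide_eq_true_eq] at this
    exact this.1.1.1
  · have := h1 r hr
    simp only [Bool.and_eq_true, decide_eq_true_eq] at this
    exact this.1.1.2
  · have := h1 r hr
    simp only [Bool.and_eq_true, decide_eq_true_eq] at this
    exact this.1.2
  · have := h1 r hr
    simp only [Bool.and_eq_true, decide_eq_true_eq] at this
    have h4 := allN_iff.1 this.2 s hs
    simp only [Bool.or_eq_true, Bool.and_eq_true, decide_eq_true_eq, List.all_eq_true] at h4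
    rcases h4 with (h4 | h4) | h4
    · exact absurd h4 h2
    · exact absurd h4 h3
    · exact h4

/-- the map on generators -/
noncomputable def gen (T : Tab) (D : ChevalleyDatum) (Q : QuadraticForm F V) (bas : ℕ → V) :
    Fin D.nroots × F → OGrp Q := fun p => X T Q bas p.1 p.2

theorem lift_stX {D : ChevalleyDatum} {r : ℕ} (hr : r < D.nroots) (t : F) :
    FreeGroup.lift (gen T D Q bas) (D.stX r t) = X T Q bas r t := by
  unfold ChevalleyDatum.stX
  rw [dif_pos hr, FreeGroup.lift_apply_of]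
  rfl

theorem lift_stWord {D : ChevalleyDatum} (w : List (ℕ × F)) (hw : ∀ x ∈ w, x.1 < D.nroots) :
    FreeGroup.lift (gen T D Q bas) (D.stWord w) = (w.map fun x => X T Q bas x.1 x.2).prod := by
  unfold ChevalleyDatum.stWord
  rw [map_list_prod, List.map_map]
  congr 1
  apply List.map_congr_left
  intro x hx
  exact lift_stX (hw x hx) x.2

theorem lift_stH {D : ChevalleyDatum} (C : Checks T D) {r : ℕ} (hr : r < D.nroots) (t : F) :
    FreeGroup.lift (gen T D Q bas) (D.stH r t) = Wd T Q bas t t⁻¹ (hW D r) := by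
  unfold ChevalleyDatum.stH
  rw [lift_stWord]
  · simp [Wd, hW, ChevalleyDatum.hWord, ChevalleyDatum.nWord, inv_neg]
  · intro x hx
    have h1 := C.neg_lt r hr
    simp only [ChevalleyDatum.hWord, ChevalleyDatum.nWord, List.mem_append, List.mem_cons, List.not_mem_nil,
      or_false] at hx
    rcases hx with (rfl | rfl | rfl) | (rfl | rfl | rfl) <;> assumption

/-- the homomorphism from the Steinberg group -/
noncomputable def stHom (R : Rz T Q bas) {D : ChevalleyDatum} (C : Checks T D) : D.SteinbergGroup F →* OGrp Q :=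
  PresentedGroup.toGroup (f := gen T D Q bas) (rels := D.steinbergRels F) (by
    rintro g ((⟨r, t₁, t₂, hr, rfl⟩ | ⟨r, s, t, u, hr, hs, hsr, hsn, rfl⟩) | ⟨r, t₁, t₂, hr, h1, h2, rfl⟩)
    · rw [map_mul, map_mul, map_inv, lift_stX hr, lift_stX hr, lift_stX hr, X_add R (C.ok r hr), mul_inv_cancel]
    · obtain ⟨h1, h2⟩ := C.comm r hr s hs hsr hsn
      have h3 := Wd_eq R t u (w := lhs2 r s) (w' := rhs2 D r s) (by
        intro x hx
        simp only [lhs2, List.mem_cons, List.not_mem_nil, or_false] at hx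
        rcases hx with rfl | rfl | rfl | rfl
        exacts [C.ok _ hs, C.ok _ hr, C.ok _ hs, C.ok _ hr]) (fun x hx => C.ok _ (h2 x hx)) h1
      rw [map_mul, map_mul, map_mul, map_mul, map_inv, map_inv, map_inv, lift_stX hr, lift_stX hs, lift_stWord,
        mul_inv_eq_one]
      · rw [X_inv R (C.ok _ hs), X_inv R (C.ok _ hr)]
        have h4 : Wd T Q bas t u (lhs2 r s) = X T Q bas s (-u) * X T Q bas r (-t) * X T Q bas s u * X T Q bas r t := by
          simp [Wd, lhs2, mul_assoc]
        rw [← h4, h3]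
        unfold Wd rhs2 ChevalleyDatum.commWord
        rw [List.map_map, List.map_map]
        congr 1
        apply List.map_congr_left
        intro c _
        simp only [Function.comp_apply]
        congr 1
        push_cast
        rw [neg_pow t]
        ring
      · intro x hx
        unfold ChevalleyDatum.commWord at hx
        rw [List.mem_map] at hx
        obtain ⟨c, hc, rfl⟩ := hx
        exact h2 (c.1, c.2.1 * (-1) ^ c.2.2.1, c.2.2.1, c.2.2.2) (List.mem_map.2 ⟨c, hc, rfl⟩)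
    · rw [map_mul, map_mul, map_inv, lift_stH C hr, lift_stH C hr, lift_stH C hr,
        Wd_hW_mul R (C.ok r hr) (C.ok _ (C.neg_lt r hr)) (C.h r hr) h1 h2, mul_inv_cancel])

theorem stHom_gen (R : Rz T Q bas) {D : ChevalleyDatum} (C : Checks T D) {r : ℕ} (hr : r < D.nroots) (t : F) :
    stHom R C (D.stGen F r t) = X T Q bas r t := by
  have h1 : D.stGen F r t = PresentedGroup.of (rels := D.steinbergRels F) ((⟨r, hr⟩, t) : Fin D.nroots × F) := by
    unfold ChevalleyDatum.stGen ChevalleyDatum.stX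
    rw [dif_pos hr]
    rfl
  rw [h1]
  unfold stHom
  rw [PresentedGroup.toGroup.of]
  rfl

end

end Cfsg.Agent.H71.NatRep
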