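import Cfsg.Agent.ClassO.Gen

set_option autoImplicit false

/-!
# Generation of orthogonal groups by Eichler transformations over arbitrary fields, Witt index at least two (helper71)
-/

namespace Cfsg.Agent.H71.OGen

open QuadraticMap Cfsg.Agent.Orth Cfsg.Agent.ClassO
open scoped commutatorElement

variable {F V : Type*} [Field F] [AddCommGroup V] [Module F V]

/-- a system of `m` hyperbolic pairs with anisotropic orthogonal complement -/
structure HS (Q : QuadraticForm F V) (m : ℕ) (e f : ℕ → V) : Prop where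
  qe : ∀ i < m, Q (e i) = 0
  qf : ∀ i < m, Q (f i) = 0
  ef : ∀ i < m, polar Q (e i) (f i) = 1
  ee : ∀ i < m, ∀ j < m, polar Q (e i) (e j) = 0
  ff : ∀ i < m, ∀ j < m, polar Q (f i) (f j) = 0
  ef' : ∀ i < m, ∀ j < m, i ≠ j → polar Q (e i) (f j) = 0
  aniso : ∀ v, (∀ i < m, polar Q v (e i) = 0 ∧ polar Q v (f i) = 0) → Q v = 0 → v = 0

/-- orthogonal to the first `k` pairs -/
def Wk (Q : QuadraticForm F V) (e f : ℕ → V) (k : ℕ) (v : V) : Prop :=
  ∀ i < k, polar Q v (e i) = 0 ∧ polar Q v (f i) = 0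

/-- in `E` and fixing the first `k` pairs -/
def Good (Q : QuadraticForm F V) (e f : ℕ → V) (E : Subgroup (OGrp Q)) (k : ℕ) (x : OGrp Q) : Prop :=
  x ∈ E ∧ ∀ i < k, (x : V ≃ₗ[F] V) (e i) = e i ∧ (x : V ≃ₗ[F] V) (f i) = f i

variable {Q : QuadraticForm F V} {m : ℕ} {e f : ℕ → V} {E : Subgroup (OGrp Q)} {k : ℕ}

theorem Good.mul {x y : OGrp Q} (hx : Good Q e f E k x) (hy : Good Q e f E k y) : Good Q e f E k (x * y) := by
  refine ⟨E.mul_mem hx.1 hy.1, fun i hi => ?_⟩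
  rw [coe_mul_apply, coe_mul_apply, (hy.2 i hi).1, (hy.2 i hi).2]
  exact hx.2 i hi

theorem Good.one : Good Q e f E k 1 := ⟨E.one_mem, fun _ _ => ⟨rfl, rfl⟩⟩

theorem Good.wk {x : OGrp Q} (hx : Good Q e f E k x) {v : V} (hv : Wk Q e f k v) :
    Wk Q e f k ((x : V ≃ₗ[F] V) v) := by
  intro i hi
  have h1 := OGrp_polar x v (e i)
  have h2 := OGrp_polar x v (f i)
  rw [(hx.2 i hi).1] at h1
  rw [(hx.2 i hi).2] at h2
  rw [h1, h2]
  exact hv i hi

theorem HS.fe (h : HS Q m e f) {i j : ℕ} (hi : i < m) (hj : j < m) (hij : i ≠ j) : polar Q (f i) (e j) = 0 := by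
  rw [pc]; exact h.ef' j hj i hi (Ne.symm hij)

theorem HS.fe1 (h : HS Q m e f) {i : ℕ} (hi : i < m) : polar Q (f i) (e i) = 1 := by
  rw [pc]; exact h.ef i hi

theorem HS.wk_e (h : HS Q m e f) {j : ℕ} (hj : j < m) (hkj : k ≤ j) : Wk Q e f k (e j) := by
  intro i hi
  exact ⟨h.ee j hj i (by omega), h.ef' j hj i (by omega) (by omega)⟩

theorem HS.wk_f (h : HS Q m e f) {j : ℕ} (hj : j < m) (hkj : k ≤ j) : Wk Q e f k (f j) := by
  intro i hi
  exact ⟨h.fe hj (by omega) (by omega), h.ff j hj i (by omega)⟩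

theorem Wk.add {u v : V} (hu : Wk Q e f k u) (hv : Wk Q e f k v) : Wk Q e f k (u + v) := by
  intro i hi
  rw [pal, pal, (hu i hi).1, (hu i hi).2, (hv i hi).1, (hv i hi).2]
  simp

theorem Wk.sub {u v : V} (hu : Wk Q e f k u) (hv : Wk Q e f k v) : Wk Q e f k (u - v) := by
  intro i hi
  rw [pdl, pdl, (hu i hi).1, (hu i hi).2, (hv i hi).1, (hv i hi).2]
  simp

theorem Wk.smul {u : V} (c : F) (hu : Wk Q e f k u) : Wk Q e f k (c • u) := by
  intro i hi
  rw [psl, psl, (hu i hi).1, (hu i hi).2]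
  simp

/-- Eichler elements of vectors orthogonal to the first pairs fix these pairs. -/
theorem good_eich {a b : V} (ha : Q a = 0) (hab : polar Q a b = 0) (hWa : Wk Q e f k a) (hWb : Wk Q e f k b)
    (hE : eich Q a b ha hab ∈ E) : Good Q e f E k (eich Q a b ha hab) := by
  refine ⟨hE, fun i hi => ?_⟩
  have h1 := hWa i hi
  have h2 := hWb i hi
  rw [pc Q a, pc Q a] at h1
  rw [pc Q b, pc Q b] at h2
  rw [eich_apply, eich_apply, h1.1, h1.2, h2.1, h2.2]
  simp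

/-- the hypotheses on `E` -/
structure EH (Q : QuadraticForm F V) (m : ℕ) (e f : ℕ → V) (E : Subgroup (OGrp Q)) : Prop where
  he : ∀ i < m, ∀ (w : V) (h0 : Q (e i) = 0) (hw : polar Q (e i) w = 0), eich Q (e i) w h0 hw ∈ E
  hf : ∀ i < m, ∀ (w : V) (h0 : Q (f i) = 0) (hw : polar Q (f i) w = 0), eich Q (f i) w h0 hw ∈ E

/-- normalization of a singular vector with nonzero `e k`-component -/
theorem stepA1' (h : HS Q m e f) (hE : EH Q m e f E) (hk : k < m) {u : V} (hu : Wk Q e f k u) (hq : Q u = 0)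
    (hα : polar Q u (f k) ≠ 0) : ∃ x, Good Q e f E k x ∧ (x : V ≃ₗ[F] V) u = polar Q u (f k) • e k := by
  set α := polar Q u (f k) with hαd
  set β := polar Q u (e k) with hβd
  set b : V := α⁻¹ • (u - α • e k - β • f k) with hb
  have hbf : polar Q (f k) b = 0 := by
    rw [hb, psr, pdr, pdr, psr, psr, h.fe1 hk, h.ff k hk k hk, pc Q (f k) u, ← hαd]
    ring
  have hWb : Wk Q e f k b := by
    rw [hb]
    exact Wk.smul _ ((hu.sub ((h.wk_e hk le_rfl).smul _)).sub ((h.wk_f hk le_rfl).smul _))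
  refine ⟨eich Q (f k) b (h.qf k hk) hbf, good_eich _ _ (h.wk_f hk le_rfl) hWb (hE.hf k hk b _ hbf), ?_⟩
  set x := eich Q (f k) b (h.qf k hk) hbf with hx
  have h1 : (x : V ≃ₗ[F] V) u = α • e k + (β + polar Q u b - Q b * α) • f k := by
    rw [hx, eich_apply, ← hαd]
    have : α • b = u - α • e k - β • f k := by
      rw [hb, smul_smul, mul_inv_cancel₀ hα, one_smul]
    rw [this]
    module
  have h2 : Q ((x : V ≃ₗ[F] V) u) = 0 := by rw [OGrp_q, hq]
  generalize β + polar Q u b - Q b * α = c at h1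
  rw [h1, qadd, qsmul, qsmul, h.qe k hk, h.qf k hk, psl, psr, h.ef k hk] at h2
  have h3 : c = 0 := by
    have h4 : α * c = 0 := by linear_combination h2
    exact (mul_eq_zero.1 h4).resolve_left hα
  rw [h1, h3, zero_smul, add_zero]

theorem stepA1 (h : HS Q m e f) (hE : EH Q m e f E) (hk : k + 1 < m) {u : V} (hu : Wk Q e f k u) (hq : Q u = 0)
    (hα : polar Q u (f k) ≠ 0) : ∃ x, Good Q e f E k x ∧ (x : V ≃ₗ[F] V) u = e k := by
  have hkm : k < m := by omega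
  obtain ⟨x, hx, hxu⟩ := stepA1' h hE hkm hu hq hα
  set α := polar Q u (f k) with hαd
  have he1 := h.qe k hkm
  have he2 := h.qe (k + 1) hk
  have hp1 : ∀ t : F, polar Q (e k) (t • f (k + 1)) = 0 := fun t => by
    rw [psr, h.ef' k hkm (k + 1) hk (by omega), mul_zero]
  have hp2 : ∀ t : F, polar Q (e (k + 1)) (t • f k) = 0 := fun t => by
    rw [psr, h.ef' (k + 1) hk k hkm (by omega), mul_zero]
  let X : F → OGrp Q := fun t => eich Q (e k) (t • f (k + 1)) he1 (hp1 t)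
  let Y : F → OGrp Q := fun t => eich Q (e (k + 1)) (t • f k) he2 (hp2 t)
  have hX : ∀ t, Good Q e f E k (X t) := fun t =>
    good_eich _ _ (h.wk_e hkm le_rfl) ((h.wk_f hk (by omega)).smul t) (hE.he k hkm _ _ _)
  have hY : ∀ t, Good Q e f E k (Y t) := fun t =>
    good_eich _ _ (h.wk_e hk (by omega)) ((h.wk_f hkm le_rfl).smul t) (hE.he (k + 1) hk _ _ _)
  have hX1 : ∀ t, (X t : V ≃ₗ[F] V) (e k) = e k := by
    intro t
    rw [eich_apply, psr, h.ef' k hkm (k + 1) hk (by omega), h.ee k hkm k hkm]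
    simp
  have hX2 : ∀ t, (X t : V ≃ₗ[F] V) (e (k + 1)) = e (k + 1) + t • e k := by
    intro t
    rw [eich_apply, psr, h.ef (k + 1) hk, h.ee (k + 1) hk k hkm]
    simp
  have hY1 : ∀ t, (Y t : V ≃ₗ[F] V) (e k) = e k + t • e (k + 1) := by
    intro t
    rw [eich_apply, psr, h.ef k hkm, h.ee k hkm (k + 1) hk]
    simp
  have hY2 : ∀ t, (Y t : V ≃ₗ[F] V) (e (k + 1)) = e (k + 1) := by
    intro t
    rw [eich_apply, psr, h.ef' (k + 1) hk k hkm (by omega), h.ee (k + 1) hk (k + 1) hk]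
    simp
  refine ⟨Y (-1) * (X (1 - α) * (Y α⁻¹ * x)), (hY _).mul ((hX _).mul ((hY _).mul hx)), ?_⟩
  rw [coe_mul_apply, coe_mul_apply, coe_mul_apply, hxu]
  simp only [map_smul, map_add, hX1, hX2, hY1, hY2]
  have hinv : α * α⁻¹ = 1 := mul_inv_cancel₀ hα
  match_scalars <;> first | linear_combination (1 - α) * hinv | linear_combination α * hinv

/-- transitivity on singular vectors -/
theorem stepA2 (h : HS Q m e f) (hE : EH Q m e f E) (hk : k + 1 < m) {u : V} (hu : Wk Q e f k u) (hq : Q u = 0)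
    (hu0 : u ≠ 0) : ∃ x, Good Q e f E k x ∧ (x : V ≃ₗ[F] V) u = e k := by
  have hkm : k < m := by omega
  -- the case of a basis vector `y` outside the pair number `k`
  have key : ∀ (u y : V), Wk Q e f k u → Q u = 0 → Wk Q e f k y → Q y = 0 → polar Q (e k) y = 0 →
      polar Q (f k) y = 0 → polar Q u y ≠ 0 → ∃ x, Good Q e f E k x ∧ (x : V ≃ₗ[F] V) u = e k := by
    intro u y hu hq hy hqy hey hfy huy
    by_cases hα : polar Q u (f k) = 0
    · have hx0 := good_eich (E := E) (h.qe k hkm) hey (h.wk_e hkm le_rfl) hy (hE.he k hkm _ _ _)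
      set x0 := eich Q (e k) y (h.qe k hkm) hey with hx0d
      have hu1 := hx0.wk hu
      have hα1 : polar Q ((x0 : V ≃ₗ[F] V) u) (f k) ≠ 0 := by
        rw [hx0d, eich_apply, hqy, pdl, pdl, pal, psl, psl, psl, h.ef k hkm, hα, pc Q y, hfy]
        simpa using huy
      obtain ⟨x, hx, hxu⟩ := stepA1 h hE hk hu1 (by rw [OGrp_q, hq]) hα1
      exact ⟨x * x0, hx.mul hx0, by rw [coe_mul_apply, hxu]⟩
    · exact stepA1 h hE hk hu hq hα
  by_cases h1 : ∃ j, k < j ∧ j < m ∧ (polar Q u (e j) ≠ 0 ∨ polar Q u (f j) ≠ 0)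
  · obtain ⟨j, hkj, hj, h2 | h2⟩ := h1
    · exact key u (e j) hu hq (h.wk_e hj (by omega)) (h.qe j hj) (h.ee k hkm j hj) (h.fe hkm hj (by omega)) h2
    · exact key u (f j) hu hq (h.wk_f hj (by omega)) (h.qf j hj) (h.ef' k hkm j hj (by omega)) (h.ff k hkm j hj) h2
  · push Not at h1
    by_cases hα : polar Q u (f k) = 0
    · -- `u` is a multiple of `f k`
      set β := polar Q u (e k) with hβ
      have h2 : u - β • f k = 0 := by
        apply h.aniso
        · intro i hi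
          rw [pdl, pdl, psl, psl]
          rcases lt_trichotomy i k with hik | rfl | hik
          · rw [(hu i hik).1, (hu i hik).2, h.fe hkm hi (by omega), h.ff k hkm i hi]
            simp
          · rw [h.fe1 hi, h.ff i hi i hi, hα, ← hβ]
            simp
          · rw [(h1 i hik hi).1, (h1 i hik hi).2, h.fe hkm hi (by omega), h.ff k hkm i hi]
            simp
        · rw [qsub, qsmul, psr, hq, h.qf k hkm, hα]
          ring
      have h3 : u = β • f k := sub_eq_zero.1 h2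
      have hβ0 : β ≠ 0 := by
        rintro h0
        apply hu0
        rw [h3, h0, zero_smul]
      have hp : polar Q (e k) (e (k + 1)) = 0 := h.ee k hkm (k + 1) hk
      have hx0 := good_eich (E := E) (h.qe k hkm) hp (h.wk_e hkm le_rfl) (h.wk_e hk (by omega)) (hE.he k hkm _ _ _)
      set x0 := eich Q (e k) (e (k + 1)) (h.qe k hkm) hp with hx0d
      have hx0u : (x0 : V ≃ₗ[F] V) u = β • f k - β • e (k + 1) := by
        rw [hx0d, eich_apply, h3, psl, psl, h.fe hkm hk (by omega), h.fe1 hkm, h.qe (k + 1) hk]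
        simp
      obtain ⟨x, hx, hxu⟩ := key ((x0 : V ≃ₗ[F] V) u) (f (k + 1)) (hx0.wk hu) (by rw [OGrp_q, hq])
        (h.wk_f hk (by omega)) (h.qf (k + 1) hk) (h.ef' k hkm (k + 1) hk (by omega)) (h.ff k hkm (k + 1) hk) (by
          rw [hx0u, pdl, psl, psl, h.ff k hkm (k + 1) hk, h.ef (k + 1) hk]
          simpa using hβ0)
      exact ⟨x * x0, hx.mul hx0, by rw [coe_mul_apply, hxu]⟩
    · exact stepA1 h hE hk hu hq hα

/-- moving the second vector of a pair -/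
theorem stepA3' (h : HS Q m e f) (hE : EH Q m e f E) (hk : k < m) {v : V} {α : F} (hα : α ≠ 0)
    (hv : Wk Q e f k v) (hqv : Q v = 0) (huv : polar Q (e k) v = α) :
    ∃ x, Good Q e f E k x ∧ (x : V ≃ₗ[F] V) (e k) = e k ∧ (x : V ≃ₗ[F] V) v = α • f k := by
  set γ := polar Q v (f k) with hγ
  set w : V := α⁻¹ • (v - γ • e k - α • f k) with hw
  have hwe : polar Q (e k) w = 0 := by
    rw [hw, psr, pdr, pdr, psr, psr, huv, h.ee k hk k hk, h.ef k hk]; ring
  have hWw : Wk Q e f k w := by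
    rw [hw]
    exact Wk.smul _ ((hv.sub ((h.wk_e hk le_rfl).smul _)).sub ((h.wk_f hk le_rfl).smul _))
  have hx := good_eich (E := E) (h.qe k hk) hwe (h.wk_e hk le_rfl) hWw (hE.he k hk _ _ _)
  set x := eich Q (e k) w (h.qe k hk) hwe with hxd
  have hxe : (x : V ≃ₗ[F] V) (e k) = e k := by
    rw [hxd, eich_apply, hwe, h.ee k hk k hk]
    simp
  refine ⟨x, hx, hxe, ?_⟩
  have h1 : (x : V ≃ₗ[F] V) v = (γ + polar Q v w - Q w * α) • e k + α • f k := by
    rw [hxd, eich_apply, pc Q v (e k), huv]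
    have : α • w = v - γ • e k - α • f k := by
      rw [hw, smul_smul, mul_inv_cancel₀ hα, one_smul]
    rw [this]
    module
  have h2 : Q ((x : V ≃ₗ[F] V) v) = 0 := by rw [OGrp_q, hqv]
  generalize γ + polar Q v w - Q w * α = c at h1
  rw [h1, qadd, qsmul, qsmul, h.qe k hk, h.qf k hk, psl, psr, h.ef k hk] at h2
  have h3 : c = 0 := by
    have h4 : α * c = 0 := by linear_combination h2
    exact (mul_eq_zero.1 h4).resolve_left hα
  rw [h1, h3, zero_smul, zero_add]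

/-- transitivity on hyperbolic pairs -/
theorem stepA3 (h : HS Q m e f) (hE : EH Q m e f E) (hk : k + 1 < m) {u v : V} (hu : Wk Q e f k u) (hq : Q u = 0)
    (hv : Wk Q e f k v) (hqv : Q v = 0) (huv : polar Q u v = 1) :
    ∃ x, Good Q e f E k x ∧ (x : V ≃ₗ[F] V) u = e k ∧ (x : V ≃ₗ[F] V) v = f k := by
  have hu0 : u ≠ 0 := by
    rintro rfl
    rw [polar_zero_left] at huv
    exact zero_ne_one huv
  obtain ⟨x, hx, hxu⟩ := stepA2 h hE hk hu hq hu0
  have h1 : polar Q (e k) ((x : V ≃ₗ[F] V) v) = 1 := by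
    rw [← hxu, OGrp_polar, huv]
  obtain ⟨y, hy, hye, hyv⟩ := stepA3' h hE (by omega : k < m) one_ne_zero (hx.wk hv) (by rw [OGrp_q, hqv]) h1
  refine ⟨y * x, hy.mul hx, ?_, ?_⟩
  · rw [coe_mul_apply, hxu, hye]
  · rw [coe_mul_apply, hyv, one_smul]

/-- every isometry is, modulo `E`, the identity on the first `k ≤ m - 1` pairs -/
theorem exists_fix (h : HS Q m e f) (hE : EH Q m e f E) (g : OGrp Q) (k : ℕ) (hk : k < m) :
    ∃ x ∈ E, ∀ i < k, ((x * g : OGrp Q) : V ≃ₗ[F] V) (e i) = e i ∧ ((x * g : OGrp Q) : V ≃ₗ[F] V) (f i) = f i := by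
  induction k with
  | zero => exact ⟨1, E.one_mem, fun i hi => by omega⟩
  | succ k ih =>
    obtain ⟨x, hx, hxg⟩ := ih (by omega)
    obtain ⟨y, hy⟩ : ∃ y, x * g = y := ⟨_, rfl⟩
    rw [hy] at hxg
    have hW : ∀ v, Wk Q e f k v → Wk Q e f k ((y : V ≃ₗ[F] V) v) := by
      intro v hv i hi
      have h1 := OGrp_polar y v (e i)
      have h2 := OGrp_polar y v (f i)
      rw [(hxg i hi).1] at h1
      rw [(hxg i hi).2] at h2
      rw [h1, h2]
      exact hv i hi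
    obtain ⟨z, hz, hze, hzf⟩ := stepA3 h hE hk (hW _ (h.wk_e (by omega) le_rfl)) (by rw [OGrp_q, h.qe k (by omega)])
      (hW _ (h.wk_f (by omega) le_rfl)) (by rw [OGrp_q, h.qf k (by omega)]) (by rw [OGrp_polar, h.ef k (by omega)])
    refine ⟨z * x, E.mul_mem hz.1 hx, fun i hi => ?_⟩
    rw [mul_assoc, hy, coe_mul_apply, coe_mul_apply]
    rcases Nat.lt_succ_iff_lt_or_eq.1 hi with hi | rfl
    · rw [(hxg i hi).1, (hxg i hi).2]
      exact hz.2 i hi
    · exact ⟨hze, hzf⟩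

/-- the group generated by all Eichler transformations -/
def EA (Q : QuadraticForm F V) : Subgroup (OGrp Q) :=
  Subgroup.closure {g | ∃ (a b : V) (ha : Q a = 0) (hab : polar Q a b = 0), g = eich Q a b ha hab}

theorem eich_mem_EA {a b : V} (ha : Q a = 0) (hab : polar Q a b = 0) : eich Q a b ha hab ∈ EA Q :=
  Subgroup.subset_closure ⟨a, b, ha, hab, rfl⟩

instance EA_normal : (EA Q).Normal := by
  refine ⟨fun n hn g => ?_⟩
  induction hn using Subgroup.closure_induction with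
  | mem x hx =>
    obtain ⟨a, b, ha, hab, rfl⟩ := hx
    rw [eich_conj]
    exact eich_mem_EA _ _
  | one => rw [mul_one, mul_inv_cancel]; exact Subgroup.one_mem _
  | mul x y _ _ hx hy =>
    have : g * (x * y) * g⁻¹ = (g * x * g⁻¹) * (g * y * g⁻¹) := by group
    rw [this]
    exact Subgroup.mul_mem _ hx hy
  | inv x _ hx =>
    have : g * x⁻¹ * g⁻¹ = (g * x * g⁻¹)⁻¹ := by group
    rw [this]
    exact Subgroup.inv_mem _ hx

theorem EH_EA : EH Q m e f (EA Q) :=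
  ⟨fun _ _ _ _ _ => eich_mem_EA _ _, fun _ _ _ _ _ => eich_mem_EA _ _⟩

theorem EA_le (h : HS Q m e f) (hE : EH Q m e f E) (hm : 2 ≤ m) : EA Q ≤ E := by
  rw [EA, Subgroup.closure_le]
  rintro _ ⟨a, b, ha, hab, rfl⟩
  by_cases ha0 : a = 0
  · subst ha0
    rw [eich_zero_left]
    exact E.one_mem
  · obtain ⟨x, hx, hxa⟩ := stepA2 h hE (k := 0) (by omega) (u := a) (fun i hi => by omega) ha ha0
    have h1 := eich_conj x ha hab
    have h2 : x * eich Q a b ha hab * x⁻¹ ∈ E := by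
      rw [h1]
      have h3 : Q (e 0) = 0 := h.qe 0 (by omega)
      have h4 : polar Q (e 0) ((x : V ≃ₗ[F] V) b) = 0 := by rw [← hxa, OGrp_polar, hab]
      have h5 := hE.he 0 (by omega) ((x : V ≃ₗ[F] V) b) h3 h4
      rwa [eich_congr hxa rfl]
    have h3 := E.mul_mem (E.mul_mem (E.inv_mem hx.1) h2) hx.1
    have h4 : x⁻¹ * (x * eich Q a b ha hab * x⁻¹) * x = eich Q a b ha hab := by group
    rwa [h4] at h3

/-- Commutators are in `EA Q`: the case of a trivial orthogonal complement. -/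
theorem commutator_le_plus (h : HS Q m e f) (hm : 2 ≤ m)
    (hnd : ∀ v, (∀ i < m, polar Q v (e i) = 0 ∧ polar Q v (f i) = 0) → v = 0) :
    commutator (OGrp Q) ≤ EA Q := by
  rw [commutator_def, Subgroup.commutator_le]
  intro g _ k _
  -- `g`, `k` modulo `EA Q` fix the first `m - 1` pairs
  obtain ⟨x, hx, hxg⟩ := exists_fix h EH_EA g (m - 1) (by omega)
  obtain ⟨y, hy, hyk⟩ := exists_fix h EH_EA k (m - 1) (by omega)
  have hm1 : m - 1 < m := by omega
  obtain ⟨z, hz, hze, hzf⟩ := stepA3 (k := 0) (E := EA Q) h EH_EA (by omega) (u := e (m - 1)) (v := f (m - 1))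
    (fun i hi => by omega) (h.qe _ hm1) (fun i hi => by omega) (h.qf _ hm1) (h.ef _ hm1)
  set g0 := x * g with hg0
  set k0 := y * k with hk0
  clear_value g0 k0
  -- an isometry fixing the first `m - 1` pairs
  have hfix : ∀ (k0 : OGrp Q), (∀ i < m - 1, (k0 : V ≃ₗ[F] V) (e i) = e i ∧ (k0 : V ≃ₗ[F] V) (f i) = f i) →
      (∀ w, polar Q w (e (m - 1)) = 0 → polar Q w (f (m - 1)) = 0 → (k0 : V ≃ₗ[F] V) w = w) ∧
      ∀ u, (∀ i < m - 1, polar Q u (e i) = 0 ∧ polar Q u (f i) = 0) →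
        ∃ a b : F, (k0 : V ≃ₗ[F] V) u = a • e (m - 1) + b • f (m - 1) := by
    intro k0 hk0
    have hspan : ∀ u, (∀ i < m - 1, polar Q u (e i) = 0 ∧ polar Q u (f i) = 0) →
        u = polar Q u (f (m - 1)) • e (m - 1) + polar Q u (e (m - 1)) • f (m - 1) := by
      intro u hu
      rw [← sub_eq_zero]
      apply hnd
      intro i hi
      rw [pdl, pdl, pal, pal, psl, psl, psl, psl]
      by_cases hi1 : i = m - 1
      · subst hi1
        rw [h.ee _ hi _ hi, h.fe1 hi, h.ef _ hi, h.ff _ hi _ hi]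
        constructor <;> ring
      · rw [h.ee _ hm1 _ hi, h.fe hm1 hi (Ne.symm hi1), h.ef' _ hm1 _ hi (Ne.symm hi1), h.ff _ hm1 _ hi,
          (hu i (by omega)).1, (hu i (by omega)).2]
        constructor <;> ring
    have hW : ∀ u, (∀ i < m - 1, polar Q u (e i) = 0 ∧ polar Q u (f i) = 0) →
        ∀ i < m - 1, polar Q ((k0 : V ≃ₗ[F] V) u) (e i) = 0 ∧ polar Q ((k0 : V ≃ₗ[F] V) u) (f i) = 0 := by
      intro u hu i hi
      have h1 := OGrp_polar k0 u (e i)
      have h2 := OGrp_polar k0 u (f i)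
      rw [(hk0 i hi).1] at h1
      rw [(hk0 i hi).2] at h2
      rw [h1, h2]
      exact hu i hi
    refine ⟨fun w hwe hwf => ?_, fun u hu => ⟨_, _, hspan _ (hW u hu)⟩⟩
    -- `w` is orthogonal to the last pair
    have hperp : ∀ u, (∀ i < m - 1, polar Q u (e i) = 0 ∧ polar Q u (f i) = 0) →
        polar Q ((k0 : V ≃ₗ[F] V) w) ((k0 : V ≃ₗ[F] V) u) = 0 := by
      intro u hu
      rw [OGrp_polar, hspan u hu, par, psr, psr, hwe, hwf]
      ring
    have hWe : ∀ i < m - 1, polar Q (e (m - 1)) (e i) = 0 ∧ polar Q (e (m - 1)) (f i) = 0 := fun i hi =>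
      ⟨h.ee _ hm1 _ (by omega), h.ef' _ hm1 _ (by omega) (by omega)⟩
    have hWf : ∀ i < m - 1, polar Q (f (m - 1)) (e i) = 0 ∧ polar Q (f (m - 1)) (f i) = 0 := fun i hi =>
      ⟨h.fe hm1 (by omega) (by omega), h.ff _ hm1 _ (by omega)⟩
    -- preimages
    have hk0' : ∀ i < m - 1, ((k0⁻¹ : OGrp Q) : V ≃ₗ[F] V) (e i) = e i ∧ ((k0⁻¹ : OGrp Q) : V ≃ₗ[F] V) (f i) = f i := by
      intro i hi
      have h1 := coe_inv_apply_self k0 (e i)
      have h2 := coe_inv_apply_self k0 (f i)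
      rw [(hk0 i hi).1] at h1
      rw [(hk0 i hi).2] at h2
      exact ⟨h1, h2⟩
    have hW' : ∀ u, (∀ i < m - 1, polar Q u (e i) = 0 ∧ polar Q u (f i) = 0) →
        ∀ i < m - 1, polar Q (((k0⁻¹ : OGrp Q) : V ≃ₗ[F] V) u) (e i) = 0 ∧
          polar Q (((k0⁻¹ : OGrp Q) : V ≃ₗ[F] V) u) (f i) = 0 := by
      intro u hu i hi
      have h1 := OGrp_polar k0⁻¹ u (e i)
      have h2 := OGrp_polar k0⁻¹ u (f i)
      rw [(hk0' i hi).1] at h1
      rw [(hk0' i hi).2] at h2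
      rw [h1, h2]
      exact hu i hi
    have h1 := hperp _ (hW' _ hWe)
    have h2 := hperp _ (hW' _ hWf)
    rw [coe_apply_inv_self] at h1 h2
    rw [← sub_eq_zero]
    apply hnd
    intro i hi
    rw [pdl, pdl]
    by_cases hi1 : i = m - 1
    · subst hi1
      rw [h1, h2, hwe, hwf]
      simp
    · have h3 := OGrp_polar k0 w (e i)
      have h4 := OGrp_polar k0 w (f i)
      rw [(hk0 i (by omega)).1] at h3
      rw [(hk0 i (by omega)).2] at h4
      rw [h3, h4]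
      simp
  obtain ⟨hk1, hk2⟩ := hfix k0 hyk
  -- the conjugate
  obtain ⟨k1, hk1d⟩ : ∃ k1, k1 = z * k0 * z⁻¹ := ⟨_, rfl⟩
  have hz' : ∀ u, ((z⁻¹ : OGrp Q) : V ≃ₗ[F] V) ((z : V ≃ₗ[F] V) u) = u := fun u => coe_inv_apply_self z u
  have hk1e : ∃ a b : F, (k1 : V ≃ₗ[F] V) (e 0) = a • e 0 + b • f 0 := by
    obtain ⟨a, b, hab⟩ := hk2 (e (m - 1)) (fun i hi => ⟨h.ee _ hm1 _ (by omega), h.ef' _ hm1 _ (by omega) (by omega)⟩)
    refine ⟨a, b, ?_⟩
    rw [hk1d, coe_mul_apply, coe_mul_apply, ← hze, hz', hab, map_add, map_smul, map_smul, hze, hzf]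
  have hk1f : ∃ a b : F, (k1 : V ≃ₗ[F] V) (f 0) = a • e 0 + b • f 0 := by
    obtain ⟨a, b, hab⟩ := hk2 (f (m - 1)) (fun i hi => ⟨h.fe hm1 (by omega) (by omega), h.ff _ hm1 _ (by omega)⟩)
    refine ⟨a, b, ?_⟩
    rw [hk1d, coe_mul_apply, coe_mul_apply, ← hzf, hz', hab, map_add, map_smul, map_smul, hze, hzf]
  have hk1w : ∀ w, polar Q w (e 0) = 0 → polar Q w (f 0) = 0 → (k1 : V ≃ₗ[F] V) w = w := by
    intro w hwe hwf
    rw [hk1d, coe_mul_apply, coe_mul_apply, hk1, coe_apply_inv_self]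
    · have := OGrp_polar z (((z⁻¹ : OGrp Q) : V ≃ₗ[F] V) w) (e (m - 1))
      rw [coe_apply_inv_self, hze] at this
      rw [← this, hwe]
    · have := OGrp_polar z (((z⁻¹ : OGrp Q) : V ≃ₗ[F] V) w) (f (m - 1))
      rw [coe_apply_inv_self, hzf] at this
      rw [← this, hwf]
  have h0 : (0 : ℕ) < m := by omega
  have hcomm : g0 * k1 = k1 * g0 := by
    obtain ⟨hg0e, hg0f⟩ := hxg 0 (by omega)
    refine OGrp_ext fun v => ?_
    rw [coe_mul_apply, coe_mul_apply]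
    -- decompose `v`
    set a := polar Q v (f 0) with ha
    set b := polar Q v (e 0) with hb
    obtain ⟨w, hw⟩ : ∃ w, w = v - a • e 0 - b • f 0 := ⟨_, rfl⟩
    have hv : v = a • e 0 + b • f 0 + w := by rw [hw]; module
    have hwe : polar Q w (e 0) = 0 := by
      rw [hw, pdl, pdl, psl, psl, h.ee 0 h0 0 h0, h.fe1 h0, ← hb]; ring
    have hwf : polar Q w (f 0) = 0 := by
      rw [hw, pdl, pdl, psl, psl, h.ef 0 h0, h.ff 0 h0 0 h0, ← ha]; ring
    have hwe' : polar Q ((g0 : V ≃ₗ[F] V) w) (e 0) = 0 := by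
      have := OGrp_polar g0 w (e 0)
      rw [hg0e] at this
      rw [this, hwe]
    have hwf' : polar Q ((g0 : V ≃ₗ[F] V) w) (f 0) = 0 := by
      have := OGrp_polar g0 w (f 0)
      rw [hg0f] at this
      rw [this, hwf]
    obtain ⟨a1, b1, h1⟩ := hk1e
    obtain ⟨a2, b2, h2⟩ := hk1f
    rw [hv]
    simp only [map_add, map_smul, hk1w w hwe hwf, hk1w _ hwe' hwf', h1, h2, hg0e, hg0f]
  -- conclusion in the quotient
  rw [← QuotientGroup.eq_one_iff, commutatorElement_def]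
  have e1 : ((g : OGrp Q) : OGrp Q ⧸ EA Q) = g0 := by
    rw [hg0, QuotientGroup.mk_mul, (QuotientGroup.eq_one_iff x).2 hx, one_mul]
  have e2 : ((k : OGrp Q) : OGrp Q ⧸ EA Q) = k1 := by
    rw [hk1d, hk0, QuotientGroup.mk_mul, QuotientGroup.mk_mul, QuotientGroup.mk_mul, QuotientGroup.mk_inv,
      (QuotientGroup.eq_one_iff y).2 hy, (QuotientGroup.eq_one_iff z).2 hz.1]
    group
  rw [QuotientGroup.mk_mul, QuotientGroup.mk_mul, QuotientGroup.mk_mul, QuotientGroup.mk_inv, QuotientGroup.mk_inv,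
    e1, e2, ← QuotientGroup.mk_mul, hcomm, QuotientGroup.mk_mul]
  group

/-- Commutators are in `EA Q`: the case of an orthogonal complement spanned by `z` with `Q z = 1`. -/
theorem commutator_le_odd (h : HS Q m e f) (hm : 2 ≤ m) {z : V} (hz1 : Q z = 1)
    (hz : ∀ i < m, polar Q z (e i) = 0 ∧ polar Q z (f i) = 0)
    (hnd : ∀ v, (∀ i < m, polar Q v (e i) = 0 ∧ polar Q v (f i) = 0) → ∃ c : F, v = c • z) :
    commutator (OGrp Q) ≤ EA Q := by
  rw [commutator_def, Subgroup.commutator_le]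
  have hm1 : m - 1 < m := by omega
  -- normal form modulo `EA Q`
  have key : ∀ g : OGrp Q, ∃ x ∈ EA Q, ∃ g0 : OGrp Q, g0 = x * g ∧
      (∀ i < m - 1, (g0 : V ≃ₗ[F] V) (e i) = e i ∧ (g0 : V ≃ₗ[F] V) (f i) = f i) ∧
      (∃ a : F, (g0 : V ≃ₗ[F] V) (e (m - 1)) = a • e (m - 1)) ∧
      (∃ b : F, (g0 : V ≃ₗ[F] V) (f (m - 1)) = b • f (m - 1)) ∧ (∃ c : F, (g0 : V ≃ₗ[F] V) z = c • z) := by
    intro g
    obtain ⟨x0, hx0, hx0g⟩ := exists_fix h EH_EA g (m - 1) (by omega)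
    obtain ⟨y0, hy0⟩ : ∃ y, x0 * g = y := ⟨_, rfl⟩
    rw [hy0] at hx0g
    have hW : ∀ (y0 : OGrp Q), (∀ i < m - 1, (y0 : V ≃ₗ[F] V) (e i) = e i ∧ (y0 : V ≃ₗ[F] V) (f i) = f i) →
        ∀ v, Wk Q e f (m - 1) v → Wk Q e f (m - 1) ((y0 : V ≃ₗ[F] V) v) := by
      intro y0 hx0g v hv i hi
      have h1 := OGrp_polar y0 v (e i)
      have h2 := OGrp_polar y0 v (f i)
      rw [(hx0g i hi).1] at h1
      rw [(hx0g i hi).2] at h2
      rw [h1, h2]
      exact hv i hi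
    set u := (y0 : V ≃ₗ[F] V) (e (m - 1)) with hu
    set v := (y0 : V ≃ₗ[F] V) (f (m - 1)) with hv
    have hWu : Wk Q e f (m - 1) u := hW y0 hx0g _ (h.wk_e hm1 le_rfl)
    have hWv : Wk Q e f (m - 1) v := hW y0 hx0g _ (h.wk_f hm1 le_rfl)
    have hqu : Q u = 0 := by rw [hu, OGrp_q, h.qe _ hm1]
    have hqv : Q v = 0 := by rw [hv, OGrp_q, h.qf _ hm1]
    have huv : polar Q u v = 1 := by rw [hu, hv, OGrp_polar, h.ef _ hm1]
    obtain ⟨x1, hx1, hx1u⟩ : ∃ x1, Good Q e f (EA Q) (m - 1) x1 ∧ polar Q ((x1 : V ≃ₗ[F] V) u) (f (m - 1)) ≠ 0 := by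
      by_cases hα : polar Q u (f (m - 1)) = 0
      · set β := polar Q u (e (m - 1)) with hβ
        obtain ⟨c, hc⟩ := hnd (u - β • f (m - 1)) (by
          intro i hi
          rw [pdl, pdl, psl, psl]
          by_cases hi1 : i = m - 1
          · subst hi1
            rw [h.fe1 hi, h.ff _ hi _ hi, hα, ← hβ]
            simp
          · rw [(hWu i (by omega)).1, (hWu i (by omega)).2, h.fe hm1 hi (Ne.symm hi1), h.ff _ hm1 i hi]
            simp)
        have h1 : Q (u - β • f (m - 1)) = 0 := by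
          rw [qsub, qsmul, psr, hqu, h.qf _ hm1, hα]; ring
        rw [hc, qsmul, hz1, mul_one] at h1
        have hc0 : c = 0 := mul_self_eq_zero.1 h1
        have h3 : u = β • f (m - 1) := by
          rw [hc0, zero_smul, sub_eq_zero] at hc
          exact hc
        have hβ0 : β ≠ 0 := by
          rintro h0
          rw [h3, h0, zero_smul, polar_zero_left] at huv
          exact zero_ne_one huv
        have hez : polar Q (e (m - 1)) z = 0 := by rw [pc, (hz _ hm1).1]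
        have hWz : Wk Q e f (m - 1) z := fun i hi => hz i (by omega)
        have hx1 := good_eich (E := EA Q) (h.qe _ hm1) hez (h.wk_e hm1 le_rfl) hWz (eich_mem_EA _ _)
        refine ⟨_, hx1, ?_⟩
        rw [eich_apply, hz1, pdl, pdl, pal, psl, psl, psl, hα, h.ef _ hm1, (hz _ hm1).2, ← hβ, h3, psl, pc Q _ z,
          (hz _ hm1).2]
        simpa using hβ0
      · exact ⟨1, Good.one, hα⟩
    obtain ⟨x2, hx2, hx2u⟩ := stepA1' h EH_EA hm1 (hx1.wk hWu) (by rw [OGrp_q, hqu]) hx1u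
    set α := polar Q ((x1 : V ≃ₗ[F] V) u) (f (m - 1)) with hα
    have h4 : polar Q (e (m - 1)) ((x2 : V ≃ₗ[F] V) ((x1 : V ≃ₗ[F] V) v)) = α⁻¹ := by
      have h5 : polar Q ((x2 : V ≃ₗ[F] V) ((x1 : V ≃ₗ[F] V) u)) ((x2 : V ≃ₗ[F] V) ((x1 : V ≃ₗ[F] V) v)) = 1 := by
        rw [OGrp_polar, OGrp_polar, huv]
      rw [hx2u, psl] at h5
      exact eq_inv_of_mul_eq_one_right h5
    obtain ⟨x3, hx3, hx3e, hx3v⟩ := stepA3' h EH_EA hm1 (inv_ne_zero hx1u) (hx2.wk (hx1.wk hWv))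
      (by rw [OGrp_q, OGrp_q, hqv]) h4
    refine ⟨x3 * (x2 * (x1 * x0)), mul_mem hx3.1 (mul_mem hx2.1 (mul_mem hx1.1 hx0)),
      x3 * (x2 * (x1 * y0)), by rw [← hy0]; group, ?_⟩
    have hg1 : ∀ i < m - 1, ((x3 * (x2 * (x1 * y0)) : OGrp Q) : V ≃ₗ[F] V) (e i) = e i ∧
        ((x3 * (x2 * (x1 * y0)) : OGrp Q) : V ≃ₗ[F] V) (f i) = f i := by
      intro i hi
      simp only [coe_mul_apply]
      rw [(hx0g i hi).1, (hx0g i hi).2, (hx1.2 i hi).1, (hx1.2 i hi).2, (hx2.2 i hi).1, (hx2.2 i hi).2]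
      exact hx3.2 i hi
    have hge : ((x3 * (x2 * (x1 * y0)) : OGrp Q) : V ≃ₗ[F] V) (e (m - 1)) = α • e (m - 1) := by
      simp only [coe_mul_apply]
      rw [← hu, hx2u, map_smul, hx3e]
    have hgf : ((x3 * (x2 * (x1 * y0)) : OGrp Q) : V ≃ₗ[F] V) (f (m - 1)) = α⁻¹ • f (m - 1) := by
      simp only [coe_mul_apply]
      rw [← hv, hx3v]
    refine ⟨hg1, ⟨α, hge⟩, ⟨α⁻¹, hgf⟩, ?_⟩
    set g0 := x3 * (x2 * (x1 * y0)) with hg0
    clear_value g0
    apply hnd
    intro i hi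
    by_cases hi1 : i = m - 1
    · subst hi1
      have h5 := OGrp_polar g0 z (e (m - 1))
      have h6 := OGrp_polar g0 z (f (m - 1))
      rw [hge, psr, (hz _ hi).1] at h5
      rw [hgf, psr, (hz _ hi).2] at h6
      exact ⟨(mul_eq_zero.1 h5).resolve_left hx1u, (mul_eq_zero.1 h6).resolve_left (inv_ne_zero hx1u)⟩
    · have h5 := OGrp_polar g0 z (e i)
      have h6 := OGrp_polar g0 z (f i)
      rw [(hg1 i (by omega)).1, (hz i hi).1] at h5
      rw [(hg1 i (by omega)).2, (hz i hi).2] at h6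
      exact ⟨h5, h6⟩
  intro g _ k _
  obtain ⟨x, hx, g0, hg0, hg1, ⟨a1, ha1⟩, ⟨b1, hb1⟩, ⟨c1, hc1⟩⟩ := key g
  obtain ⟨y, hy, k0, hk0, hk1, ⟨a2, ha2⟩, ⟨b2, hb2⟩, ⟨c2, hc2⟩⟩ := key k
  have hcomm : g0 * k0 = k0 * g0 := by
    refine OGrp_ext fun v => ?_
    rw [coe_mul_apply, coe_mul_apply]
    have he : ∀ i < m, (g0 : V ≃ₗ[F] V) ((k0 : V ≃ₗ[F] V) (e i)) = (k0 : V ≃ₗ[F] V) ((g0 : V ≃ₗ[F] V) (e i)) := by
      intro i hi
      by_cases hi1 : i = m - 1
      · subst hi1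
        rw [ha2, ha1, map_smul, map_smul, ha1, ha2, smul_smul, smul_smul, mul_comm]
      · rw [(hg1 i (by omega)).1, (hk1 i (by omega)).1, (hg1 i (by omega)).1]
    have hf : ∀ i < m, (g0 : V ≃ₗ[F] V) ((k0 : V ≃ₗ[F] V) (f i)) = (k0 : V ≃ₗ[F] V) ((g0 : V ≃ₗ[F] V) (f i)) := by
      intro i hi
      by_cases hi1 : i = m - 1
      · subst hi1
        rw [hb2, hb1, map_smul, map_smul, hb1, hb2, smul_smul, smul_smul, mul_comm]
      · rw [(hg1 i (by omega)).2, (hk1 i (by omega)).2, (hg1 i (by omega)).2]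
    have hz' : (g0 : V ≃ₗ[F] V) ((k0 : V ≃ₗ[F] V) z) = (k0 : V ≃ₗ[F] V) ((g0 : V ≃ₗ[F] V) z) := by
      rw [hc2, hc1, map_smul, map_smul, hc1, hc2, smul_smul, smul_smul, mul_comm]
    -- decomposition of `v`
    obtain ⟨s, hs⟩ : ∃ s, s = ∑ i ∈ Finset.range m, (polar Q v (f i) • e i + polar Q v (e i) • f i) := ⟨_, rfl⟩
    have hpl : ∀ w, polar Q s w = ∑ i ∈ Finset.range m, (polar Q v (f i) * polar Q (e i) w +
        polar Q v (e i) * polar Q (f i) w) := by
      intro w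
      rw [hs]
      have : ∀ x, polar Q x w = ((polarBilin Q).flip w) x := fun _ => rfl
      rw [this, map_sum]
      refine Finset.sum_congr rfl fun i _ => ?_
      rw [← this, pal, psl, psl]
    obtain ⟨c, hc⟩ := hnd (v - s) (by
      intro j hj
      rw [pdl, pdl, hpl, hpl]
      constructor
      · rw [Finset.sum_eq_single_of_mem j (Finset.mem_range.2 hj)]
        · rw [h.ee j hj j hj, h.fe1 hj]; ring
        · intro i hi hij
          rw [h.ee i (Finset.mem_range.1 hi) j hj, h.fe (Finset.mem_range.1 hi) hj hij]; ring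
      · rw [Finset.sum_eq_single_of_mem j (Finset.mem_range.2 hj)]
        · rw [h.ef j hj, h.ff j hj j hj]; ring
        · intro i hi hij
          rw [h.ef' i (Finset.mem_range.1 hi) j hj hij, h.ff i (Finset.mem_range.1 hi) j hj]; ring)
    have hv : v = s + c • z := by rw [← hc]; abel
    have hgs : (g0 : V ≃ₗ[F] V) ((k0 : V ≃ₗ[F] V) s) = (k0 : V ≃ₗ[F] V) ((g0 : V ≃ₗ[F] V) s) := by
      rw [hs]
      simp only [map_sum, map_add, map_smul]
      refine Finset.sum_congr rfl fun i hi => ?_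
      rw [he i (Finset.mem_range.1 hi), hf i (Finset.mem_range.1 hi)]
    rw [hv]
    simp only [map_add, map_smul, hgs, hz']
  rw [← QuotientGroup.eq_one_iff, commutatorElement_def]
  have e1 : ((g : OGrp Q) : OGrp Q ⧸ EA Q) = g0 := by
    rw [hg0, QuotientGroup.mk_mul, (QuotientGroup.eq_one_iff x).2 hx, one_mul]
  have e2 : ((k : OGrp Q) : OGrp Q ⧸ EA Q) = k0 := by
    rw [hk0, QuotientGroup.mk_mul, (QuotientGroup.eq_one_iff y).2 hy, one_mul]
  rw [QuotientGroup.mk_mul, QuotientGroup.mk_mul, QuotientGroup.mk_mul, QuotientGroup.mk_inv, QuotientGroup.mk_inv,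
    e1, e2, ← QuotientGroup.mk_mul, hcomm, QuotientGroup.mk_mul]
  group

end Cfsg.Agent.H71.OGen
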