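import Mathlib
import Cfsg.Agent.Solv.MinNormal

/-!
Primitive irreducible solvable linear groups: fixed point spaces (S5876).
-/

set_option autoImplicit false
set_option linter.style.haveILetI false
set_option linter.unusedSimpArgs false

namespace Cfsg.Agent.H71.PrimLin

open Subgroup Module
open scoped commutatorElement

section group

variable {G : Type*} [Group G]

/-- a normal subgroup of a nilpotent normal subgroup `C` not contained in `A` meets the second
centre modulo `A` outside `A`. -/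
theorem exists_central_mod {C D A : Subgroup G} [hD : D.Normal] [hA : A.Normal]
    (hC : Group.IsNilpotent C) (hDC : D ≤ C) (hDA : ¬ D ≤ A) :
    ∃ x ∈ D, x ∉ A ∧ ∀ c ∈ C, x * c * x⁻¹ * c⁻¹ ∈ A := by
  set π := QuotientGroup.mk' A with hπ
  haveI hCn : Group.IsNilpotent (C.map π) :=
    Group.nilpotent_of_surjective (π.subgroupMap C) (π.subgroupMap_surjective C)
  haveI hDn : (D.map π).Normal := hD.map π (QuotientGroup.mk'_surjective A)
  have hne : (D.map π).subgroupOf (C.map π) ≠ ⊥ := by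
    intro h
    apply hDA
    have h1 : D.map π ≤ C.map π := map_mono hDC
    have h2 : D.map π = ⊥ := by
      have := subgroupOf_eq_bot.mp h
      rwa [disjoint_iff, inf_eq_left.mpr h1] at this
    rw [Subgroup.map_eq_bot_iff, hπ, QuotientGroup.ker_mk'] at h2
    exact h2
  have h1 := Solv.inf_center_ne_bot_of_nilpotent ((D.map π).subgroupOf (C.map π)) hne
  obtain ⟨⟨y, hy⟩, hy1⟩ := Subgroup.ne_bot_iff_exists_ne_one.mp h1
  obtain ⟨hyD, hyZ⟩ := Subgroup.mem_inf.mp hy
  rw [mem_subgroupOf] at hyD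
  obtain ⟨x, hx, hxy⟩ := hyD
  refine ⟨x, hx, ?_, ?_⟩
  · intro hxA
    apply hy1
    apply Subtype.ext
    apply Subtype.ext
    change (y : G ⧸ A) = 1
    rw [← hxy]
    exact (QuotientGroup.eq_one_iff x).mpr hxA
  · intro c hc
    rw [mem_center_iff] at hyZ
    have h2 := congrArg Subtype.val (hyZ ⟨π c, mem_map_of_mem _ hc⟩)
    change π c * (y : G ⧸ A) = y * π c at h2
    rw [← hxy] at h2
    have h3 : π (x * c * x⁻¹ * c⁻¹) = 1 := by
      rw [map_mul, map_mul, map_mul, map_inv, map_inv, ← h2]; group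
    exact (QuotientGroup.eq_one_iff _).mp h3

end group

variable {F V G : Type*} [Field F] [AddCommGroup V] [Module F V] [Group G]
  (ρ : G →* Module.End F V)

/-- fixed space of a subgroup -/
def fixS (B : Subgroup G) : Submodule F V where
  carrier := {v | ∀ b ∈ B, ρ b v = v}
  zero_mem' := fun _ _ => map_zero _
  add_mem' := fun {a c} ha hc b hb => by rw [map_add, ha b hb, hc b hb]
  smul_mem' := fun c v hv b hb => by rw [map_smul, hv b hb]

/-- stabilizer of a vector -/
def stabV (v : V) : Subgroup G where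
  carrier := {g | ρ g v = v}
  one_mem' := by
    change ρ 1 v = v
    rw [map_one]; rfl
  mul_mem' := fun {a b} ha hb => by
    change ρ (a * b) v = v
    rw [map_mul]
    change ρ a (ρ b v) = v
    rw [show ρ b v = v from hb, show ρ a v = v from ha]
  inv_mem' := fun {a} ha => by
    change ρ a⁻¹ v = v
    have h1 : ρ a⁻¹ (ρ a v) = v := by
      change (ρ a⁻¹ * ρ a) v = v
      rw [← map_mul, inv_mul_cancel, map_one]; rfl
    rw [show ρ a v = v from ha] at h1
    exact h1

variable {ρ}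

theorem mem_fixS {B : Subgroup G} {v : V} : v ∈ fixS ρ B ↔ ∀ b ∈ B, ρ b v = v := Iff.rfl

theorem mem_fixS_iff_le {B : Subgroup G} {v : V} : v ∈ fixS ρ B ↔ B ≤ stabV ρ v := Iff.rfl

theorem rho_mul (a b : G) (v : V) : ρ a (ρ b v) = ρ (a * b) v := by rw [map_mul]; rfl

theorem rho_inv_self (a : G) (v : V) : ρ a⁻¹ (ρ a v) = v := by
  rw [rho_mul, inv_mul_cancel, map_one]; rfl

theorem rho_self_inv (a : G) (v : V) : ρ a (ρ a⁻¹ v) = v := by
  rw [rho_mul, mul_inv_cancel, map_one]; rfl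

theorem rho_injective (a : G) : Function.Injective (ρ a) := fun v w h => by
  rw [← rho_inv_self (ρ := ρ) a v, h, rho_inv_self]

theorem map_fixS (g : G) (B : Subgroup G) :
    (fixS ρ B).map (ρ g) = fixS ρ (B.map (MulAut.conj g).toMonoidHom) := by
  ext v
  constructor
  · rintro ⟨w, hw, rfl⟩
    rintro _ ⟨b, hb, rfl⟩
    change ρ (g * b * g⁻¹) (ρ g w) = ρ g w
    rw [rho_mul, inv_mul_cancel_right, ← rho_mul, hw b hb]
  · intro hv
    refine ⟨ρ g⁻¹ v, ?_, rho_self_inv g v⟩
    intro b hb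
    have h1 : ρ (g * b * g⁻¹) v = v := hv (g * b * g⁻¹) ⟨b, hb, rfl⟩
    have h2 := congrArg (ρ g⁻¹) h1
    rw [rho_mul] at h2
    have e : g⁻¹ * (g * b * g⁻¹) = b * g⁻¹ := by group
    rw [e] at h2
    rw [rho_mul, h2]

theorem fixS_sup (B C : Subgroup G) : fixS ρ (B ⊔ C) = fixS ρ B ⊓ fixS ρ C := by
  ext v
  rw [Submodule.mem_inf, mem_fixS_iff_le, mem_fixS_iff_le, mem_fixS_iff_le, sup_le_iff]

theorem fixS_zpowers (a : G) : fixS ρ (zpowers a) = Module.End.eigenspace (ρ a) 1 := by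
  ext v
  rw [mem_fixS_iff_le, zpowers_le, Module.End.mem_eigenspace_iff, one_smul]
  rfl

theorem eq_bot_of_fixS_top (hfaith : Function.Injective ρ) {B : Subgroup G}
    (h : fixS ρ B = ⊤) : B = ⊥ := by
  rw [eq_bot_iff]
  intro b hb
  rw [mem_bot]
  apply hfaith
  rw [map_one]
  ext v
  have hv : v ∈ fixS ρ B := by rw [h]; trivial
  exact hv b hb

/-- irreducibility -/
def IrrS (ρ : G →* Module.End F V) : Prop :=
  ∀ W : Submodule F V, (∀ g, W.map (ρ g) ≤ W) → W = ⊥ ∨ W = ⊤

/-- primitivity, in the form used here: a subspace whose distinct translates are independent -/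
def PrimS (ρ : G →* Module.End F V) : Prop :=
  ∀ W : Submodule F V, W ≠ ⊥ →
    iSupIndep (fun w : {U : Submodule F V // ∃ g : G, U = W.map (ρ g)} => (w : Submodule F V)) →
    W = ⊤

theorem fixS_normal (hirr : IrrS ρ) (B : Subgroup G) [hB : B.Normal] :
    fixS ρ B = ⊥ ∨ fixS ρ B = ⊤ := by
  apply hirr
  intro g
  rw [map_fixS]
  have : B.map (MulAut.conj g).toMonoidHom = B := by
    ext x
    constructor
    · rintro ⟨b, hb, rfl⟩
      exact hB.conj_mem b hb g
    · intro hx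
      refine ⟨g⁻¹ * x * g⁻¹⁻¹, hB.conj_mem x hx g⁻¹, ?_⟩
      change g * (g⁻¹ * x * g⁻¹⁻¹) * g⁻¹ = x
      group
  rw [this]

variable [Finite G] [Finite V]

omit [Finite G] in
/-- a normal `r`-subgroup acts trivially in characteristic `r` -/
theorem eq_bot_of_pgroup {r : ℕ} [hr : Fact r.Prime] [CharP F r] (hirr : IrrS ρ)
    (hfaith : Function.Injective ρ) [Nontrivial V] (B : Subgroup G) [hB : B.Normal]
    (hBp : IsPGroup r B) : B = ⊥ := by
  letI : MulAction B V :=
    { smul := fun b v => ρ (b : G) v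
      one_smul := fun v => by change ρ (1 : G) v = v; rw [map_one]; rfl
      mul_smul := fun a b v => by
        change ρ ((a * b : B) : G) v = ρ (a : G) (ρ (b : G) v)
        rw [rho_mul]; rfl }
  have hdvd : r ∣ Nat.card V := by
    obtain ⟨v, hv⟩ := exists_ne (0 : V)
    have h1 : addOrderOf v = r := by
      apply addOrderOf_eq_prime _ hv
      rw [← Nat.cast_smul_eq_nsmul F, CharP.cast_eq_zero, zero_smul]
    rw [← h1]
    exact addOrderOf_dvd_natCard v
  obtain ⟨b, hb, hb1⟩ := hBp.exists_fixed_point_of_prime_dvd_card_of_fixed_point (α := V) hdvd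
    (a := 0) (by
      rw [MulAction.mem_fixedPoints]
      intro g
      exact map_zero (ρ (g : G)))
  have h1 : b ∈ fixS ρ B := fun g hg => (MulAction.mem_fixedPoints.mp hb) ⟨g, hg⟩
  have h2 : fixS ρ B ≠ ⊥ := by
    intro h
    rw [h, Submodule.mem_bot] at h1
    exact hb1 h1.symm
  exact eq_bot_of_fixS_top hfaith ((fixS_normal hirr B).resolve_left h2)

/-- **abelian normal subgroups act fixed-point-freely** -/
theorem fixS_eq_bot_of_abelian {r : ℕ} [hr : Fact r.Prime] [CharP F r] (hirr : IrrS ρ)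
    (hfaith : Function.Injective ρ) (hprim : PrimS ρ) [Nontrivial V] (A : Subgroup G)
    [hA : A.Normal] (hcomm : ∀ a ∈ A, ∀ b ∈ A, a * b = b * a) {a : G} (ha : a ∈ A) (ha1 : a ≠ 1) :
    fixS ρ (zpowers a) = ⊥ := by
  classical
  -- `r` does not divide the order of `A`
  have hrA : ¬ r ∣ Nat.card A := by
    intro hdvd
    let T : Subgroup G :=
      { carrier := {x | x ∈ A ∧ x ^ r = 1}
        one_mem' := ⟨one_mem A, one_pow r⟩
        mul_mem' := fun {x y} hx hy => ⟨mul_mem hx.1 hy.1, by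
          have h1 : Commute x y := hcomm x hx.1 y hy.1
          rw [h1.mul_pow, hx.2, hy.2, one_mul]⟩
        inv_mem' := fun {x} hx => ⟨inv_mem hx.1, by rw [inv_pow, hx.2, inv_one]⟩ }
    haveI hT : T.Normal := by
      constructor
      rintro x ⟨hx, hx1⟩ g
      refine ⟨hA.conj_mem x hx g, ?_⟩
      rw [conj_pow, hx1, mul_one, mul_inv_cancel]
    have hTp : IsPGroup r T := by
      intro x
      refine ⟨1, ?_⟩
      rw [pow_one]
      exact Subtype.ext x.2.2
    have hTb := eq_bot_of_pgroup hirr hfaith T hTp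
    obtain ⟨x, hx⟩ := exists_prime_orderOf_dvd_card' r hdvd
    have h1 : (x : G) ∈ T := ⟨x.2, by
      have : x ^ r = 1 := by rw [← hx]; exact pow_orderOf_eq_one x
      exact congrArg Subtype.val this⟩
    rw [hTb, mem_bot] at h1
    have h2 : x = 1 := Subtype.ext h1
    rw [h2, orderOf_one] at hx
    exact hr.out.one_lt.ne hx
  -- choose `B` of maximal order
  obtain ⟨B, hB⟩ := Set.Finite.exists_maximalFor (fun B : Subgroup G => Nat.card B)
    {B : Subgroup G | B ≤ A ∧ fixS ρ B ≠ ⊥} (Set.toFinite _)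
    ⟨⊥, bot_le, by
      have h1 : fixS ρ (⊥ : Subgroup G) = ⊤ := by
        rw [eq_top_iff]
        intro v _ b hb
        rw [mem_bot.mp hb, map_one]; rfl
      rw [h1]
      exact top_ne_bot⟩
  obtain ⟨⟨hBA, hBne⟩, hmax⟩ := hB
  have hmax' : ∀ C : Subgroup G, C ≤ A → Nat.card B < Nat.card C → fixS ρ C = ⊥ := by
    intro C hC hlt
    by_contra hne
    exact absurd (hmax (j := C) ⟨hC, hne⟩ hlt.le) (not_le.mpr hlt)
  -- distinct conjugates
  have hdist : ∀ C D : Subgroup G, C ≤ A → D ≤ A → Nat.card C = Nat.card B →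
      Nat.card D = Nat.card B → C ≠ D → fixS ρ C ⊓ fixS ρ D = ⊥ := by
    intro C D hC hD hc hd hne
    rw [← fixS_sup]
    apply hmax' _ (sup_le hC hD)
    rw [← hc]
    apply Nat.lt_of_le_of_ne (Nat.card_le_card_of_injective (Subgroup.inclusion le_sup_left)
      (Subgroup.inclusion_injective le_sup_left))
    intro heq
    have h1 : C = C ⊔ D := Subgroup.eq_of_le_of_card_ge le_sup_left heq.ge
    have h2 : D ≤ C := by rw [h1]; exact le_sup_right
    have h3 : D = C := Subgroup.eq_of_le_of_card_ge h2 (by rw [hc, hd])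
    exact hne h3.symm
  -- the projection
  let e : Subgroup G → Module.End F V := fun C =>
    letI := Fintype.ofFinite C
    ∑ c : C, ρ (c : G)
  have he_apply : ∀ (C : Subgroup G) (v : V), letI := Fintype.ofFinite C
      e C v = ∑ c : C, ρ (c : G) v := by
    intro C v
    simp only [e]
    rw [LinearMap.sum_apply]
  have he_mem : ∀ (C : Subgroup G) (v : V), e C v ∈ fixS ρ C := by
    intro C v b hb
    letI := Fintype.ofFinite C
    rw [he_apply, map_sum]
    have : ∀ x : C, ρ b (ρ (x : G) v) = ρ (((⟨b, hb⟩ : C) * x : C) : G) v := by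
      intro x; rw [rho_mul]; rfl
    simp_rw [this]
    exact Fintype.sum_equiv (Equiv.mulLeft (⟨b, hb⟩ : C)) _ _ (fun b => rfl)
  have he_fix : ∀ (C : Subgroup G) (v : V), v ∈ fixS ρ C → e C v = (Nat.card C : F) • v := by
    intro C v hv
    letI := Fintype.ofFinite C
    rw [he_apply, Finset.sum_congr rfl (fun (b : C) _ => hv b b.2), Finset.sum_const,
      Finset.card_univ, ← Nat.card_eq_fintype_card, Nat.cast_smul_eq_nsmul]
  have he_comm : ∀ C D : Subgroup G, C ≤ A → D ≤ A → ∀ v ∈ fixS ρ D, e C v ∈ fixS ρ D := by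
    intro C D hC hD v hv b hb
    letI := Fintype.ofFinite C
    rw [he_apply, map_sum]
    apply Finset.sum_congr rfl
    intro c _
    rw [rho_mul, hcomm b (hD hb) c (hC c.2), ← rho_mul, hv b hb]
  have hindep : iSupIndep (fun w : {U : Submodule F V // ∃ g : G, U = (fixS ρ B).map (ρ g)} =>
      (w : Submodule F V)) := by
    intro w
    rw [disjoint_iff, eq_bot_iff]
    rintro v ⟨hv1, hv2⟩
    obtain ⟨U, g, rfl⟩ := w
    set C := B.map (MulAut.conj g).toMonoidHom with hC
    have hCA : ∀ g : G, B.map (MulAut.conj g).toMonoidHom ≤ A := by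
      rintro g _ ⟨b, hb, rfl⟩
      exact hA.conj_mem b (hBA hb) g
    have hCc : ∀ g : G, Nat.card (B.map (MulAut.conj g).toMonoidHom) = Nat.card B := fun g =>
      Nat.card_congr (B.equivMapOfInjective _ (MulAut.conj g).injective).toEquiv.symm
    change v ∈ (fixS ρ B).map (ρ g) at hv1
    rw [map_fixS, ← hC] at hv1
    have h1 : (⨆ (j : {U : Submodule F V // ∃ g : G, U = (fixS ρ B).map (ρ g)})
        (_ : j ≠ ⟨(fixS ρ B).map (ρ g), g, rfl⟩), (j : Submodule F V)) ≤ LinearMap.ker (e C) := by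
      apply iSup₂_le
      rintro ⟨_, g', rfl⟩ hne w hw
      change w ∈ (fixS ρ B).map (ρ g') at hw
      rw [map_fixS] at hw
      have hne' : C ≠ B.map (MulAut.conj g').toMonoidHom := by
        intro h2
        apply hne
        apply Subtype.ext
        change (fixS ρ B).map (ρ g') = (fixS ρ B).map (ρ g)
        rw [map_fixS, map_fixS, ← h2]
      rw [LinearMap.mem_ker]
      have h3 : e C w ∈ fixS ρ C ⊓ fixS ρ (B.map (MulAut.conj g').toMonoidHom) :=
        ⟨he_mem C w, he_comm _ _ (hCA g) (hCA g') w hw⟩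
      rwa [hdist _ _ (hCA g) (hCA g') (hCc g) (hCc g') hne', Submodule.mem_bot] at h3
    have h2 : e C v = 0 := h1 hv2
    rw [he_fix C v hv1] at h2
    have h3 : (Nat.card C : F) ≠ 0 := by
      intro h4
      rw [CharP.cast_eq_zero_iff F r] at h4
      exact hrA (h4.trans (card_dvd_of_le (hCA g)))
    exact (smul_eq_zero.mp h2).resolve_left h3
  have hBtop := hprim (fixS ρ B) hBne hindep
  have hB1 := eq_bot_of_fixS_top hfaith hBtop
  apply hmax' _ (zpowers_le.mpr ha)
  rw [hB1, Subgroup.card_bot]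
  rw [Subgroup.one_lt_card_iff_ne_bot]
  simpa using ha1

omit [Finite G] in
theorem finrank_comm (g x : G) : 2 * finrank F (fixS ρ (zpowers g)) ≤
    finrank F V + finrank F (fixS ρ (zpowers (g⁻¹ * (x⁻¹ * g * x)))) := by
  haveI : FiniteDimensional F V := inferInstance
  have h1 : fixS ρ (zpowers (x⁻¹ * g * x)) = (fixS ρ (zpowers g)).map (ρ x⁻¹) := by
    rw [map_fixS, MonoidHom.map_zpowers]
    congr 2
    change x⁻¹ * g * x = x⁻¹ * g * x⁻¹⁻¹
    rw [inv_inv]
  have h2 : finrank F (fixS ρ (zpowers (x⁻¹ * g * x))) = finrank F (fixS ρ (zpowers g)) := by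
    rw [h1]
    exact (Submodule.equivMapOfInjective (ρ x⁻¹) (rho_injective x⁻¹) _).finrank_eq.symm
  have h3 : fixS ρ (zpowers g) ⊓ fixS ρ (zpowers (x⁻¹ * g * x)) ≤
      fixS ρ (zpowers (g⁻¹ * (x⁻¹ * g * x))) := by
    rintro v ⟨hv1, hv2⟩
    have e1 : g ∈ stabV ρ v := zpowers_le.mp (mem_fixS_iff_le.mp hv1)
    have e2 : x⁻¹ * g * x ∈ stabV ρ v := zpowers_le.mp (mem_fixS_iff_le.mp hv2)
    rw [mem_fixS_iff_le, zpowers_le]
    exact mul_mem (inv_mem e1) e2
  have h4 := Submodule.finrank_sup_add_finrank_inf_eq (fixS ρ (zpowers g))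
    (fixS ρ (zpowers (x⁻¹ * g * x)))
  have h5 := Submodule.finrank_mono h3
  have h6 := Submodule.finrank_le (fixS ρ (zpowers g) ⊔ fixS ρ (zpowers (x⁻¹ * g * x)))
  omega

/-- elements of the Fitting subgroup -/
theorem two_mul_finrank_le {r : ℕ} [hr : Fact r.Prime] [CharP F r] (hirr : IrrS ρ)
    (hfaith : Function.Injective ρ) (hprim : PrimS ρ) [Nontrivial V] {y : G}
    (hy : y ∈ Cfsg.fittingSubgroup G) (hy1 : y ≠ 1) :
    2 * finrank F (fixS ρ (zpowers y)) ≤ finrank F V := by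
  set N := Cfsg.fittingSubgroup G with hN
  haveI hNn : N.Normal := inferInstance
  have hNnil : Group.IsNilpotent N := Solv.fitting_isNilpotent
  obtain ⟨A, hA⟩ := (Set.toFinite {A : Subgroup G | A.Normal ∧ ∀ a ∈ A, ∀ b ∈ A, a * b = b * a}).exists_maximal
    ⟨⊥, inferInstance, fun a ha b hb => by rw [mem_bot.mp ha, mem_bot.mp hb]⟩
  obtain ⟨hAn, hAc⟩ := hA.prop
  haveI := hAn
  have hfp : ∀ c ∈ A, c ≠ 1 → fixS ρ (zpowers c) = ⊥ := fun c hc hc1 =>
    fixS_eq_bot_of_abelian hirr hfaith hprim A hAc hc hc1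
  have key : ∀ x : G, y⁻¹ * (x⁻¹ * y * x) ∈ A → y⁻¹ * (x⁻¹ * y * x) ≠ 1 →
      2 * finrank F (fixS ρ (zpowers y)) ≤ finrank F V := by
    intro x h1 h2
    have h3 := finrank_comm (ρ := ρ) y x
    rw [hfp _ h1 h2, finrank_bot] at h3
    omega
  have hne : ∀ x : G, x * y ≠ y * x → y⁻¹ * (x⁻¹ * y * x) ≠ 1 := by
    intro x hx h
    apply hx
    have h1 : x⁻¹ * y * x = y := by
      have := congrArg (y * ·) h
      simpa [mul_assoc] using this
    calc x * y = x * (x⁻¹ * y * x) := by rw [h1]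
      _ = y * x := by group
  by_cases hyA : y ∈ A
  · rw [hfp y hyA hy1, finrank_bot]; omega
  -- `A ≤ F(G)`
  have hANle : A ≤ N := by
    apply Solv.le_fitting hAn
    haveI : IsMulCommutative A := ⟨⟨fun a b => Subtype.ext (hAc a a.2 b b.2)⟩⟩
    letI : CommGroup A := { (inferInstance : Group A) with
      mul_comm := fun a b => Subtype.ext (hAc a a.2 b b.2) }
    infer_instance
  by_cases hyC : y ∈ centralizer (A : Set G)
  swap
  · rw [mem_centralizer_iff] at hyC
    push Not at hyC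
    obtain ⟨a, ha, hne'⟩ := hyC
    apply key a _ (hne a hne')
    have h1 : y⁻¹ * a⁻¹ * y ∈ A := by
      have := hAn.conj_mem a⁻¹ (inv_mem ha) y⁻¹
      rwa [inv_inv] at this
    have h2 : y⁻¹ * (a⁻¹ * y * a) = (y⁻¹ * a⁻¹ * y) * a := by group
    rw [h2]
    exact mul_mem h1 ha
  -- the centralizer of `A` in `F(G)`
  set C : Subgroup G := N ⊓ centralizer (A : Set G) with hC
  haveI hCn : C.Normal := inferInstance
  have hCnil : Group.IsNilpotent C :=
    (Group.isNilpotent_congr (subgroupOfEquivOfLe (inf_le_left : C ≤ N))).mp inferInstance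
  have hyC' : y ∈ C := Subgroup.mem_inf.mpr ⟨hy, hyC⟩
  let Z2 : Subgroup G :=
    { carrier := {x | x ∈ C ∧ ∀ c ∈ C, x * c * x⁻¹ * c⁻¹ ∈ A}
      one_mem' := ⟨one_mem C, fun c _ => by simp⟩
      mul_mem' := by
        rintro a b ⟨ha, ha'⟩ ⟨hb, hb'⟩
        refine ⟨mul_mem ha hb, fun c hc => ?_⟩
        have h1 := hAn.conj_mem _ (hb' c hc) a
        have h2 : a * b * c * (a * b)⁻¹ * c⁻¹ = (a * (b * c * b⁻¹ * c⁻¹) * a⁻¹) * (a * c * a⁻¹ * c⁻¹) := by
          group
        rw [h2]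
        exact mul_mem h1 (ha' c hc)
      inv_mem' := by
        rintro a ⟨ha, ha'⟩
        refine ⟨inv_mem ha, fun c hc => ?_⟩
        have h1 := hAn.conj_mem _ (inv_mem (ha' c hc)) a⁻¹
        have h2 : a⁻¹ * c * a⁻¹⁻¹ * c⁻¹ = a⁻¹ * (a * c * a⁻¹ * c⁻¹)⁻¹ * a⁻¹⁻¹ := by group
        rw [h2]
        exact h1 }
  haveI hZ2n : Z2.Normal := by
    constructor
    rintro x ⟨hx, hx'⟩ g
    refine ⟨hCn.conj_mem x hx g, fun c hc => ?_⟩
    have h1 : g⁻¹ * c * g ∈ C := by
      have := hCn.conj_mem c hc g⁻¹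
      rwa [inv_inv] at this
    have h2 := hAn.conj_mem _ (hx' _ h1) g
    have h3 : g * x * g⁻¹ * c * (g * x * g⁻¹)⁻¹ * c⁻¹ =
        g * (x * (g⁻¹ * c * g) * x⁻¹ * (g⁻¹ * c * g)⁻¹) * g⁻¹ := by group
    rw [h3]
    exact h2
  have hACle : A ≤ C := le_inf hANle (fun a ha => mem_centralizer_iff.mpr fun b hb => hAc b hb a ha)
  have hZ2C : Z2 ≤ C := fun x hx => hx.1
  -- `y` does not centralize `Z2`
  have hex : ∃ x ∈ Z2, x * y ≠ y * x := by
    by_contra hcon
    push Not at hcon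
    set D : Subgroup G := C ⊓ centralizer (Z2 : Set G) with hD
    haveI hDn : D.Normal := inferInstance
    have hyD : y ∈ D := Subgroup.mem_inf.mpr ⟨hyC', mem_centralizer_iff.mpr hcon⟩
    obtain ⟨x, hxD, hxA, hx⟩ := exists_central_mod (D := D) (A := A) hCnil inf_le_left
      (fun h => hyA (h hyD))
    have hxZ : x ∈ Z2 := ⟨(Subgroup.mem_inf.mp hxD).1, hx⟩
    have h1 : A ≤ D ⊓ Z2 := by
      refine le_inf (le_inf hACle ?_) ?_
      · intro a ha
        rw [mem_centralizer_iff]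
        intro z hz
        have h2 := (Subgroup.mem_inf.mp (hZ2C hz)).2
        exact (mem_centralizer_iff.mp h2 a ha).symm
      · intro a ha
        refine ⟨hACle ha, fun c hc => ?_⟩
        have h2 : c * a⁻¹ * c⁻¹ ∈ A := hAn.conj_mem a⁻¹ (inv_mem ha) c
        have h3 : a * c * a⁻¹ * c⁻¹ = a * (c * a⁻¹ * c⁻¹) := by group
        rw [h3]
        exact mul_mem ha h2
    have h2 : D ⊓ Z2 ≤ A := hA.le_of_ge (y := D ⊓ Z2) (by
      refine ⟨inferInstance, fun a ha b hb => ?_⟩
      have h3 := (Subgroup.mem_inf.mp (Subgroup.mem_inf.mp ha).1).2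
      exact (mem_centralizer_iff.mp h3 b (Subgroup.mem_inf.mp hb).2).symm) h1
    exact hxA (h2 (Subgroup.mem_inf.mpr ⟨hxD, hxZ⟩))
  obtain ⟨x, hx, hxy⟩ := hex
  apply key x _ (hne x hxy)
  have h1 := hx.2 y hyC'
  have h2 := (inv_mem h1)
  have h3 := hAn.conj_mem _ h2 (y⁻¹ * x⁻¹)
  have h4 : y⁻¹ * x⁻¹ * (x * y * x⁻¹ * y⁻¹)⁻¹ * (y⁻¹ * x⁻¹)⁻¹ = y⁻¹ * (x⁻¹ * y * x) := by group
  rwa [h4] at h3

/-- **the bound** -/
theorem four_mul_finrank_le {r : ℕ} [hr : Fact r.Prime] [CharP F r] (hsol : Group.IsSolvable G)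
    (hirr : IrrS ρ) (hfaith : Function.Injective ρ) (hprim : PrimS ρ) [Nontrivial V] {g : G}
    (hg1 : g ≠ 1) : 4 * finrank F (fixS ρ (zpowers g)) ≤ 3 * finrank F V := by
  by_cases hg : g ∈ centralizer (Cfsg.fittingSubgroup G : Set G)
  · have h1 := two_mul_finrank_le hirr hfaith hprim (Solv.centralizer_fitting_le hg) hg1
    omega
  · rw [mem_centralizer_iff] at hg
    push Not at hg
    obtain ⟨x, hx, hxg⟩ := hg
    have hn : (Cfsg.fittingSubgroup G).Normal := inferInstance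
    have h1 : g⁻¹ * (x⁻¹ * g * x) ∈ Cfsg.fittingSubgroup G := by
      have h2 : g⁻¹ * x⁻¹ * g ∈ Cfsg.fittingSubgroup G := by
        have := hn.conj_mem x⁻¹ (inv_mem hx) g⁻¹
        rwa [inv_inv] at this
      have h3 : g⁻¹ * (x⁻¹ * g * x) = (g⁻¹ * x⁻¹ * g) * x := by group
      rw [h3]
      exact mul_mem h2 hx
    have h2 : g⁻¹ * (x⁻¹ * g * x) ≠ 1 := by
      intro h
      apply hxg
      have h1 : x⁻¹ * g * x = g := by
        have := congrArg (g * ·) h
        simpa [mul_assoc] using this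
      calc x * g = x * (x⁻¹ * g * x) := by rw [h1]
        _ = g * x := by group
    have h3 := two_mul_finrank_le hirr hfaith hprim h1 h2
    have h4 := finrank_comm (ρ := ρ) g x
    omega

end Cfsg.Agent.H71.PrimLin
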