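import Mathlib
import Cfsg.Agent.Cop.Basic

/-!
Coprime fixed-point-free action of `S₃` on solvable groups (S4305), part 1: the situation where an
involution of `S₃` acts trivially on a factor group.
-/

set_option autoImplicit false
set_option linter.style.haveILetI false
set_option linter.unusedSimpArgs false

namespace Cfsg.Agent.H71.SThree

open Subgroup
open scoped commutatorElement

/-- the basic configuration -/
structure Cfg {Γ : Type*} [Group Γ] (K : Subgroup Γ) (s t : Γ) : Prop where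
  hs : s ^ 3 = 1
  ht : t ^ 2 = 1
  hst : t * s * t⁻¹ = s⁻¹
  normal : K.Normal
  solv : Group.IsSolvable K
  cop : (Nat.card K).Coprime 6
  fpf : ∀ x ∈ K, s * x * s⁻¹ = x → t * x * t⁻¹ = x → x = 1

/-- the group generated by `s` and `t` -/
abbrev Acl {Γ : Type*} [Group Γ] (s t : Γ) : Subgroup Γ := closure {s, t}

section

variable {Γ : Type*} [Group Γ] [Finite Γ] {K : Subgroup Γ} {s t : Γ}

theorem card_Acl_dvd (hs : s ^ 3 = 1) (ht : t ^ 2 = 1) (hst : t * s * t⁻¹ = s⁻¹) :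
    Nat.card (Acl s t) ∣ 6 := by
  have h1 : Acl s t = zpowers t ⊔ zpowers s := by
    rw [Acl, Set.insert_eq, Subgroup.closure_union, ← Subgroup.zpowers_eq_closure,
      ← Subgroup.zpowers_eq_closure, sup_comm]
  have h2 : zpowers t ≤ normalizer (zpowers s : Set Γ) := by
    rw [zpowers_le, mem_normalizer_iff]
    have key : ∀ n : ℤ, t * s ^ n * t⁻¹ = (s⁻¹) ^ n := by
      intro n
      rw [← conj_zpow, hst]
    have ht' : t⁻¹ = t := by
      rw [inv_eq_iff_mul_eq_one, ← pow_two, ht]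
    intro x
    constructor
    · rintro ⟨n, rfl⟩
      change t * s ^ n * t⁻¹ ∈ zpowers s
      rw [key]
      exact ⟨-n, by simp⟩
    · rintro ⟨n, hn⟩
      have hn' : s ^ n = t * x * t⁻¹ := hn
      have h3 : x = t⁻¹ * s ^ n * t := by rw [hn']; group
      rw [h3]
      have h4 : t⁻¹ * s ^ n * t = t * s ^ n * t⁻¹ := by rw [ht']
      rw [h4, key]
      exact ⟨-n, by simp⟩
  have h3 : (zpowers s).relIndex (zpowers t ⊔ zpowers s) = (zpowers s).relIndex (zpowers t) :=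
    Cop.relIndex_sup_eq h2
  have h4 : Nat.card (Acl s t) = Nat.card (zpowers s) * (zpowers s).relIndex (Acl s t) := by
    rw [← relIndex_bot_left (Acl s t), ← relIndex_bot_left (zpowers s)]
    refine (relIndex_mul_relIndex _ _ _ bot_le ?_).symm
    rw [h1]; exact le_sup_right
  rw [h4, h1, h3]
  have h5 : Nat.card (zpowers s) ∣ 3 := by
    rw [Nat.card_zpowers]; exact orderOf_dvd_of_pow_eq_one hs
  have h6 : (zpowers s).relIndex (zpowers t) ∣ 2 := by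
    refine (relIndex_dvd_card _ _).trans ?_
    rw [Nat.card_zpowers]; exact orderOf_dvd_of_pow_eq_one ht
  exact mul_dvd_mul h5 h6

omit [Finite Γ] in
theorem mem_centralizer_Acl {x : Γ} (h1 : s * x * s⁻¹ = x) (h2 : t * x * t⁻¹ = x) :
    x ∈ centralizer (Acl s t : Set Γ) := by
  rw [Acl, centralizer_closure, mem_centralizer_iff]
  intro y hy
  rcases hy with rfl | rfl
  · exact mul_inv_eq_iff_eq_mul.mp h1
  · exact mul_inv_eq_iff_eq_mul.mp h2

omit [Finite Γ] in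
theorem Cfg.eq_one (h : Cfg K s t) {x : Γ} (hx : x ∈ K) (hc : x ∈ centralizer (Acl s t : Set Γ)) :
    x = 1 := by
  rw [mem_centralizer_iff] at hc
  refine h.fpf x hx ?_ ?_
  · rw [hc s (subset_closure (by simp)), mul_inv_cancel_right]
  · rw [hc t (subset_closure (by simp)), mul_inv_cancel_right]

theorem Cfg.cop_Acl (h : Cfg K s t) : (Nat.card (Acl s t)).Coprime (Nat.card K) :=
  (Nat.Coprime.coprime_dvd_right (card_Acl_dvd h.hs h.ht h.hst) h.cop).symm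

omit [Finite Γ] in
theorem le_normalizer_of_normal (h : K.Normal) (A : Subgroup Γ) : A ≤ normalizer (K : Set Γ) := by
  rw [normalizer_eq_top_iff.mpr h]; exact le_top

/-- fixed points modulo an invariant subgroup are trivial -/
theorem Cfg.mem_of_fix (h : Cfg K s t) {R : Subgroup Γ} (hRK : R ≤ K)
    (hKR : K ≤ normalizer (R : Set Γ)) (hsR : s ∈ normalizer (R : Set Γ))
    (htR : t ∈ normalizer (R : Set Γ)) {k : Γ} (hk : k ∈ K) (h1 : s * k * s⁻¹ * k⁻¹ ∈ R)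
    (h2 : t * k * t⁻¹ * k⁻¹ ∈ R) : k ∈ R := by
  have hA : Acl s t ≤ normalizer (R : Set Γ) := by
    rw [Acl, closure_le]
    rintro y (rfl | rfl)
    · exact hsR
    · exact htR
  have hall : ∀ a ∈ Acl s t, a ∈ normalizer (R : Set Γ) ∧ a * k * a⁻¹ * k⁻¹ ∈ R := by
    intro a ha
    refine ⟨hA ha, ?_⟩
    induction ha using closure_induction with
    | mem x hx =>
      rcases hx with rfl | rfl
      · exact h1
      · exact h2
    | one => simp
    | mul x y hx hy ihx ihy =>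
      have h3 := (mem_normalizer_iff.mp (hA hx) _).mp ihy
      have h4 : x * y * k * (x * y)⁻¹ * k⁻¹ =
          (x * (y * k * y⁻¹ * k⁻¹) * x⁻¹) * (x * k * x⁻¹ * k⁻¹) := by group
      rw [h4]
      exact mul_mem h3 ihx
    | inv x hx ihx =>
      have h3 := (mem_normalizer_iff.mp (inv_mem (hA hx)) _).mp (inv_mem ihx)
      have h4 : x⁻¹ * k * x⁻¹⁻¹ * k⁻¹ = x⁻¹ * (x * k * x⁻¹ * k⁻¹)⁻¹ * x⁻¹⁻¹ := by group
      rw [h4]
      exact h3
  obtain ⟨c, hc, hc'⟩ := Cop.fixed_points_quotient (Acl s t) K (le_normalizer_of_normal h.normal _)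
    h.cop_Acl (Or.inr h.solv) R hRK hKR hA k hk (fun a ha => (hall a ha).2)
  obtain ⟨hcK, hcA⟩ := Subgroup.mem_inf.mp hc
  rw [h.eq_one hcK hcA, mul_one] at hc'
  exact (inv_mem_iff).mp hc'

/-- lifting `t`-fixed points -/
theorem exists_t_fixed {X : Subgroup Γ} (hsol : Group.IsSolvable X) (hcop : (Nat.card X).Coprime 2)
    (ht : t ^ 2 = 1) (htX : t ∈ normalizer (X : Set Γ)) {N : Subgroup Γ} (hNX : N ≤ X)
    (hXN : X ≤ normalizer (N : Set Γ)) (htN : t ∈ normalizer (N : Set Γ))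
    (hT : ∀ x ∈ X, t * x * t⁻¹ * x⁻¹ ∈ N) {a : Γ} (ha : a ∈ X) :
    ∃ x ∈ X, t * x * t⁻¹ = x ∧ a⁻¹ * x ∈ N := by
  have hzN : zpowers t ≤ normalizer (N : Set Γ) := zpowers_le.mpr htN
  have hcard : Nat.card (zpowers t) ∣ 2 := by
    rw [Nat.card_zpowers]; exact orderOf_dvd_of_pow_eq_one ht
  obtain ⟨c, hc, hc'⟩ := Cop.fixed_points_quotient (zpowers t) X (zpowers_le.mpr htX)
    (Nat.Coprime.coprime_dvd_left hcard hcop.symm) (Or.inr hsol) N hNX hXN hzN a ha (by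
      intro b hb
      classical
      rw [mem_zpowers_iff_mem_range_orderOf, Finset.mem_image] at hb
      obtain ⟨i, hi, rfl⟩ := hb
      have hi2 : i < 2 := (Finset.mem_range.mp hi).trans_le
        (Nat.le_of_dvd (by norm_num) (orderOf_dvd_of_pow_eq_one ht))
      interval_cases i
      · simp
      · simpa using hT a ha)
  obtain ⟨hcX, hct⟩ := Subgroup.mem_inf.mp hc
  refine ⟨c, hcX, ?_, hc'⟩
  rw [mem_centralizer_iff.mp hct t (mem_zpowers t), mul_inv_cancel_right]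

end

/-- the class two computation -/
theorem core_one {L : Type*} [Group L] {a b c d w e z z' : L} (hz : ∀ x, z * x = x * z)
    (hz' : ∀ x, z' * x = x * z') (he : ∀ x, e * x = x * e) (ha : a = z * (b * b)⁻¹)
    (hc : c = z' * (d * d)⁻¹) (hw : a * c = w * (c * a)) (hbd : b * d = e * (d * b))
    (hrel : w * e * e = 1) : e ^ 6 = 1 := by
  have h1 : (b * b) * (d * d) = e ^ 4 * ((d * d) * (b * b)) := by
    calc (b * b) * (d * d) = b * (b * d) * d := by group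
      _ = b * (e * (d * b)) * d := by rw [hbd]
      _ = (b * e) * d * (b * d) := by group
      _ = e * (b * d) * (b * d) := by rw [← he b]; group
      _ = e * (e * (d * b)) * (e * (d * b)) := by rw [hbd]
      _ = e * e * d * (b * e) * (d * b) := by group
      _ = e * e * d * (e * b) * (d * b) := by rw [← he b]
      _ = e * e * (d * e) * (b * d) * b := by group
      _ = e * e * (e * d) * (e * (d * b)) * b := by rw [← he d, hbd]
      _ = e * e * e * (d * e) * (d * b * b) := by group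
      _ = e * e * e * (e * d) * (d * b * b) := by rw [← he d]
      _ = e ^ 4 * ((d * d) * (b * b)) := by rw [pow_succ, pow_succ, pow_two]; group
  have he4 : ∀ x, e ^ 4 * x = x * e ^ 4 := fun x =>
    ((show Commute e x from he x).pow_left 4).eq
  have h2 : a * c = e ^ 4 * (c * a) := by
    have h3 : c * a = z * z' * ((b * b) * (d * d))⁻¹ := by
      rw [ha, hc]
      calc z' * (d * d)⁻¹ * (z * (b * b)⁻¹) = z' * ((d * d)⁻¹ * z) * (b * b)⁻¹ := by group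
        _ = z' * (z * (d * d)⁻¹) * (b * b)⁻¹ := by rw [← hz]
        _ = z' * z * ((b * b) * (d * d))⁻¹ := by group
        _ = _ := by rw [hz']
    have h4 : a * c = z * z' * ((d * d) * (b * b))⁻¹ := by
      rw [ha, hc]
      calc z * (b * b)⁻¹ * (z' * (d * d)⁻¹) = z * ((b * b)⁻¹ * z') * (d * d)⁻¹ := by group
        _ = z * (z' * (b * b)⁻¹) * (d * d)⁻¹ := by rw [← hz']
        _ = z * z' * ((d * d) * (b * b))⁻¹ := by group
    rw [h3, h4, h1, mul_inv_rev (e ^ 4)]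
    have h5 : (e ^ 4) * (z * z' * (((d * d) * (b * b))⁻¹ * (e ^ 4)⁻¹)) =
        (e ^ 4 * (z * z' * ((d * d) * (b * b))⁻¹)) * (e ^ 4)⁻¹ := by group
    rw [h5, he4, mul_inv_cancel_right]
  rw [hw] at h2
  have h3 : w = e ^ 4 := mul_right_cancel h2
  rw [h3] at hrel
  rw [← hrel, pow_succ, pow_succ]

/-- the module computation: `b` acts on the abelian group containing `d`, `c`, as in the text -/
theorem core_two {L : Type*} [Group L] (M : Subgroup L) [M.Normal]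
    (hM : ∀ x ∈ M, ∀ y ∈ M, x * y = y * x) {a b c d m : L} (hm : m ∈ M) (hd : d ∈ M)
    (ha : a = m * (b * b)⁻¹) (hc : c = (d * d)⁻¹)
    (hrel : (a * c * a⁻¹ * c⁻¹) * (b * d * b⁻¹ * d⁻¹) * (b * d * b⁻¹ * d⁻¹) = 1)
    {n : ℕ} (hL : ∀ x : L, x ^ n = 1) (hn : n.Coprime 6) : b * d = d * b ∧ a * c = c * a := by
  have hn2 : n.Coprime 2 := Nat.Coprime.coprime_dvd_right (by norm_num) hn
  have hn3 : n.Coprime 3 := Nat.Coprime.coprime_dvd_right (by norm_num) hn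
  have hcop : ∀ (x : L) (k : ℕ), n.Coprime k → x ∈ zpowers (x ^ k) := by
    intro x k hk
    have h1 : (orderOf x).Coprime k :=
      Nat.Coprime.coprime_dvd_left (orderOf_dvd_of_pow_eq_one (hL x)) hk
    obtain ⟨m, hm⟩ := exists_pow_eq_self_of_coprime h1.symm
    exact ⟨m, by simpa using hm⟩
  set u := (b * b)⁻¹ * d * (b * b) with hu
  set v := b * d * b⁻¹ with hv
  have huM : u ∈ M := by
    have := (inferInstance : M.Normal).conj_mem d hd (b * b)⁻¹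
    rwa [inv_inv] at this
  have hvM : v ∈ M := (inferInstance : M.Normal).conj_mem d hd b
  have h1 : a * c * a⁻¹ = (u * u)⁻¹ := by
    have h2 : a * c * a⁻¹ = m * (u * u)⁻¹ * m⁻¹ := by rw [ha, hc, hu]; group
    rw [h2, hM m hm _ (inv_mem (mul_mem huM huM)), mul_inv_cancel_right]
  have h2 : v * v = u * u := by
    rw [h1, hc, inv_inv] at hrel
    have h3 : (u * u)⁻¹ * (d * d) * (v * d⁻¹) * (v * d⁻¹) = (u * u)⁻¹ * (v * v) := by
      have h4 : v * d⁻¹ = d⁻¹ * v := hM v hvM _ (inv_mem hd)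
      have h5 : d * v = v * d := hM d hd v hvM
      calc (u * u)⁻¹ * (d * d) * (v * d⁻¹) * (v * d⁻¹)
          = (u * u)⁻¹ * (d * d) * (d⁻¹ * v) * (d⁻¹ * v) := by rw [h4]
        _ = (u * u)⁻¹ * (d * v) * d⁻¹ * v := by group
        _ = (u * u)⁻¹ * (v * v) := by rw [h5]; group
    rw [h3] at hrel
    exact (inv_mul_eq_one.mp hrel).symm
  have h3 : (v * u⁻¹) ^ 2 = 1 := by
    have h4 : v * u⁻¹ = u⁻¹ * v := hM v hvM _ (inv_mem huM)
    rw [pow_two]
    calc v * u⁻¹ * (v * u⁻¹) = v * (u⁻¹ * v) * u⁻¹ := by group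
      _ = (v * v) * (u * u)⁻¹ := by rw [← h4]; group
      _ = 1 := by rw [h2, mul_inv_cancel]
  have h4 : v * u⁻¹ = 1 := by
    have := hcop (v * u⁻¹) 2 hn2
    rw [h3, zpowers_one_eq_bot, mem_bot] at this
    exact this
  have h5 : v = u := mul_inv_eq_one.mp h4
  have h6 : b ^ 3 * d = d * b ^ 3 := by
    have h7 : b * b * v * (b * b)⁻¹ = d := by rw [h5, hu]; group
    rw [hv] at h7
    calc b ^ 3 * d = (b * b * (b * d * b⁻¹) * (b * b)⁻¹) * b ^ 3 := by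
          rw [pow_succ, pow_two]; group
      _ = d * b ^ 3 := by rw [h7]
  have h7 : b * d = d * b := by
    obtain ⟨k, hk⟩ := hcop b 3 hn3
    have h8 : Commute (b ^ 3) d := h6
    have h9 := h8.zpow_left k
    have hk' : (b ^ 3) ^ k = b := hk
    rw [hk'] at h9
    exact h9
  refine ⟨h7, ?_⟩
  have h8 : b * d * b⁻¹ * d⁻¹ = 1 := by rw [h7]; group
  rw [h8, mul_one, mul_one] at hrel
  calc a * c = (a * c * a⁻¹ * c⁻¹) * (c * a) := by group
    _ = c * a := by rw [hrel, one_mul]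

section

variable {Γ : Type*} [Group Γ] {K : Subgroup Γ} {s t : Γ}

theorem Cfg.mono (h : Cfg K s t) {X : Subgroup Γ} (hX : X.Normal) (hXK : X ≤ K) [Finite Γ] :
    Cfg X s t where
  hs := h.hs
  ht := h.ht
  hst := h.hst
  normal := hX
  solv := Cop.isSolvable_of_le hXK h.solv
  cop := Nat.Coprime.coprime_dvd_left (card_dvd_of_le hXK) h.cop
  fpf := fun x hx => h.fpf x (hXK hx)

theorem Cfg.t_conj (h : Cfg K s t) {x : Γ} (hx : t * x * t⁻¹ = x) :
    t * (s * x * s⁻¹) * t⁻¹ = s⁻¹ * x * s := by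
  calc t * (s * x * s⁻¹) * t⁻¹ = (t * s * t⁻¹) * (t * x * t⁻¹) * (t * s * t⁻¹)⁻¹ := by group
    _ = s⁻¹ * x * s := by rw [h.hst, hx, inv_inv]

theorem Cfg.t_conj' (h : Cfg K s t) {x : Γ} (hx : t * x * t⁻¹ = x) :
    t * (s⁻¹ * x * s) * t⁻¹ = s * x * s⁻¹ := by
  calc t * (s⁻¹ * x * s) * t⁻¹ = (t * s * t⁻¹)⁻¹ * (t * x * t⁻¹) * (t * s * t⁻¹) := by group
    _ = s * x * s⁻¹ := by rw [h.hst, hx, inv_inv]

theorem Cfg.s_conj (h : Cfg K s t) (x : Γ) : s * (s * x * s⁻¹) * s⁻¹ = s⁻¹ * x * s := by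
  have h1 : s * s = s⁻¹ := by
    rw [eq_inv_iff_mul_eq_one, ← pow_two, ← pow_succ, h.hs]
  calc s * (s * x * s⁻¹) * s⁻¹ = (s * s) * x * (s * s)⁻¹ := by group
    _ = s⁻¹ * x * s := by rw [h1, inv_inv]

theorem Cfg.prod_mem [Finite Γ] (h : Cfg K s t) {R : Subgroup Γ} (hRK : R ≤ K)
    (hKR : K ≤ normalizer (R : Set Γ)) (hsR : s ∈ normalizer (R : Set Γ))
    (htR : t ∈ normalizer (R : Set Γ)) (hcomm : ∀ a ∈ K, ∀ b ∈ K, a * b * a⁻¹ * b⁻¹ ∈ R)
    {x : Γ} (hx : x ∈ K) (htx : t * x * t⁻¹ = x) :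
    x * (s * x * s⁻¹) * (s⁻¹ * x * s) ∈ R := by
  have h1 : s * x * s⁻¹ ∈ K := h.normal.conj_mem x hx s
  have h2 : s⁻¹ * x * s ∈ K := by
    have := h.normal.conj_mem x hx s⁻¹
    rwa [inv_inv] at this
  apply h.mem_of_fix hRK hKR hsR htR (mul_mem (mul_mem hx h1) h2)
  · have h3 : s * (x * (s * x * s⁻¹) * (s⁻¹ * x * s)) * s⁻¹ =
        (s * x * s⁻¹) * (s⁻¹ * x * s) * x := by
      calc s * (x * (s * x * s⁻¹) * (s⁻¹ * x * s)) * s⁻¹ =
          (s * x * s⁻¹) * (s * (s * x * s⁻¹) * s⁻¹) * x := by group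
        _ = _ := by rw [h.s_conj]
    rw [h3]
    have h4 := hcomm _ (mul_mem h1 h2) x hx
    have h5 : (s * x * s⁻¹) * (s⁻¹ * x * s) * x * (x * (s * x * s⁻¹) * (s⁻¹ * x * s))⁻¹ =
        (s * x * s⁻¹) * (s⁻¹ * x * s) * x * ((s * x * s⁻¹) * (s⁻¹ * x * s))⁻¹ * x⁻¹ := by group
    rw [h5]
    exact h4
  · have h3 : t * (x * (s * x * s⁻¹) * (s⁻¹ * x * s)) * t⁻¹ =
        x * (s⁻¹ * x * s) * (s * x * s⁻¹) := by
      calc t * (x * (s * x * s⁻¹) * (s⁻¹ * x * s)) * t⁻¹ =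
          (t * x * t⁻¹) * (t * (s * x * s⁻¹) * t⁻¹) * (t * (s⁻¹ * x * s) * t⁻¹) := by group
        _ = _ := by rw [htx, h.t_conj htx, h.t_conj' htx]
    rw [h3]
    have h4 := (mem_normalizer_iff.mp (hKR hx) _).mp (hcomm _ h2 _ h1)
    have h5 : ∀ x1 x2 : Γ, x * x2 * x1 * (x * x1 * x2)⁻¹ =
        x * (x2 * x1 * x2⁻¹ * x1⁻¹) * x⁻¹ := by intro x1 x2; group
    rw [h5]
    exact h4

/-- class two case -/
theorem claim_one [Finite Γ] (h : Cfg K s t) {N : Subgroup Γ} (hNK : N ≤ K)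
    (hKN : K ≤ normalizer (N : Set Γ)) (htN : t ∈ normalizer (N : Set Γ))
    (hT : ∀ x ∈ K, t * x * t⁻¹ * x⁻¹ ∈ N) (hcl : ∀ c ∈ ⁅K, K⁆, ∀ x ∈ K, c * x = x * c) :
    ⁅K, K⁆ ≤ N := by
  haveI hKn := h.normal
  have hDn : (⁅K, K⁆).Normal := inferInstance
  have hDK : ⁅K, K⁆ ≤ K := commutator_le_left K K
  have hD := h.mono hDn hDK
  haveI hNn : (N.subgroupOf K).Normal := normal_subgroupOf_of_le_normalizer hKN
  set q : K →* K ⧸ N.subgroupOf K := QuotientGroup.mk' _ with hq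
  have hq1 : ∀ x : K, q x = 1 ↔ (x : Γ) ∈ N := fun x => by
    rw [hq, QuotientGroup.mk'_apply, QuotientGroup.eq_one_iff]; rfl
  have hqe : ∀ x y : K, q x = q y ↔ (x : Γ)⁻¹ * y ∈ N := fun x y => by
    rw [hq]
    exact QuotientGroup.eq
  have hcs : ∀ x ∈ K, s * x * s⁻¹ ∈ K := fun x hx => hKn.conj_mem x hx s
  have hcs' : ∀ x ∈ K, s⁻¹ * x * s ∈ K := fun x hx => by
    have := hKn.conj_mem x hx s⁻¹
    rwa [inv_inv] at this
  have hsame : ∀ (x : Γ) (hx : x ∈ K), t * x * t⁻¹ = x →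
      q ⟨s * x * s⁻¹, hcs x hx⟩ = q ⟨s⁻¹ * x * s, hcs' x hx⟩ := by
    intro x hx htx
    rw [eq_comm, hqe]
    have h1 := hT _ (hcs x hx)
    rw [h.t_conj htx] at h1
    -- `x2 x1⁻¹ ∈ N`, want `x2⁻¹ x1 ∈ N`
    have h2 := (mem_normalizer_iff.mp (hKN (inv_mem (hcs x hx))) _).mp (inv_mem h1)
    change (s⁻¹ * x * s)⁻¹ * (s * x * s⁻¹) ∈ N
    have h3 : (s * x * s⁻¹)⁻¹ * ((s⁻¹ * x * s) * (s * x * s⁻¹)⁻¹)⁻¹ * (s * x * s⁻¹)⁻¹⁻¹ =
        (s⁻¹ * x * s)⁻¹ * (s * x * s⁻¹) := by group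
    rw [h3] at h2
    exact h2
  have hcomm : ∀ a ∈ K, ∀ b ∈ K, a * b * a⁻¹ * b⁻¹ ∈ ⁅K, K⁆ := fun a ha b hb =>
    commutator_mem_commutator ha hb
  -- the main computation
  have key : ∀ x ∈ K, t * x * t⁻¹ = x → ∀ y ∈ K, t * y * t⁻¹ = y → x * y * x⁻¹ * y⁻¹ ∈ N := by
    intro x hx htx y hy hty
    have hDs := le_normalizer_of_normal hDn ⊤
    have hxp := h.prod_mem hDK (le_normalizer_of_normal hDn K) (hDs (mem_top s)) (hDs (mem_top t))
      hcomm hx htx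
    have hyp := h.prod_mem hDK (le_normalizer_of_normal hDn K) (hDs (mem_top s)) (hDs (mem_top t))
      hcomm hy hty
    set w := x * y * x⁻¹ * y⁻¹ with hw
    have hwD : w ∈ ⁅K, K⁆ := hcomm x hx y hy
    have htw : t * w * t⁻¹ = w := by
      calc t * w * t⁻¹ = (t * x * t⁻¹) * (t * y * t⁻¹) * (t * x * t⁻¹)⁻¹ * (t * y * t⁻¹)⁻¹ := by
            rw [hw]; group
        _ = w := by rw [htx, hty]
    have hwp := hD.prod_mem (R := ⊥) bot_le (le_normalizer_of_normal inferInstance _)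
      (le_normalizer_of_normal inferInstance ⊤ (mem_top s))
      (le_normalizer_of_normal inferInstance ⊤ (mem_top t)) (by
        intro a ha b hb
        rw [mem_bot, hcl a ha b (hDK hb)]
        group) hwD htw
    rw [mem_bot] at hwp
    -- pass to the quotient
    set x1 : K := ⟨s * x * s⁻¹, hcs x hx⟩ with hx1
    set x2 : K := ⟨s⁻¹ * x * s, hcs' x hx⟩ with hx2
    set y1 : K := ⟨s * y * s⁻¹, hcs y hy⟩ with hy1
    set y2 : K := ⟨s⁻¹ * y * s, hcs' y hy⟩ with hy2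
    have e1 : q x1 = q x2 := hsame x hx htx
    have e2 : q y1 = q y2 := hsame y hy hty
    have hcent : ∀ c : K, (c : Γ) ∈ ⁅K, K⁆ → ∀ l, q c * l = l * q c := by
      intro c hc l
      obtain ⟨l, rfl⟩ := QuotientGroup.mk'_surjective _ l
      change q c * q l = q l * q c
      rw [← map_mul, ← map_mul]
      congr 1
      exact Subtype.ext (hcl c hc l l.2)
    set X : K := ⟨x, hx⟩
    set Y : K := ⟨y, hy⟩
    set w1 : K := x1 * y1 * x1⁻¹ * y1⁻¹ with hw1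
    have hw1D : (w1 : Γ) ∈ ⁅K, K⁆ := hcomm _ x1.2 _ y1.2
    have hrel : q (X * Y * X⁻¹ * Y⁻¹) * q w1 * q w1 = 1 := by
      have h2 : q w1 = q (x2 * y2 * x2⁻¹ * y2⁻¹) := by
        rw [hw1]; simp only [map_mul, map_inv, e1, e2]
      conv_lhs => rw [h2]
      conv_lhs => arg 1; arg 2; rw [← h2]
      rw [← map_mul, ← map_mul, hq1]
      have h3 : ((X * Y * X⁻¹ * Y⁻¹ * w1 * (x2 * y2 * x2⁻¹ * y2⁻¹) : K) : Γ) =
          w * (s * w * s⁻¹) * (s⁻¹ * w * s) := by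
        rw [hw1, hx1, hx2, hy1, hy2, hw]
        change x * y * x⁻¹ * y⁻¹ * ((s * x * s⁻¹) * (s * y * s⁻¹) * (s * x * s⁻¹)⁻¹ * (s * y * s⁻¹)⁻¹) *
          ((s⁻¹ * x * s) * (s⁻¹ * y * s) * (s⁻¹ * x * s)⁻¹ * (s⁻¹ * y * s)⁻¹) = _
        group
      rw [h3, hwp]
      exact one_mem N
    have he6 := core_one (a := q X) (b := q x1) (c := q Y) (d := q y1)
      (w := q (X * Y * X⁻¹ * Y⁻¹)) (e := q w1) (z := q (X * x1 * x2)) (z' := q (Y * y1 * y2))
      (hcent _ hxp) (hcent _ hyp) (hcent _ hw1D)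
      (by rw [map_mul, map_mul, ← e1]; group)
      (by rw [map_mul, map_mul, ← e2]; group)
      (by simp only [← map_mul]; congr 1; group)
      (by rw [hw1]; simp only [← map_mul]; congr 1; group) hrel
    -- orders
    have he : q w1 = 1 := by
      rw [← map_pow, hq1] at he6
      have h1 : ((w1 : K) : Γ) ∈ N := by
        have h2 : (orderOf w1).Coprime 6 :=
          Nat.Coprime.coprime_dvd_left (orderOf_dvd_natCard w1) h.cop
        obtain ⟨m, hm⟩ := exists_pow_eq_self_of_coprime h2.symm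
        rw [← hm]
        exact pow_mem he6 m
      rwa [hq1]
    rw [he, mul_one, mul_one, hq1] at hrel
    exact hrel
  rw [commutator_le]
  intro a ha b hb
  have hc2 : (Nat.card K).Coprime 2 := Nat.Coprime.coprime_dvd_right (by norm_num) h.cop
  obtain ⟨x, hx, htx, hax⟩ := exists_t_fixed h.solv hc2 h.ht
    (le_normalizer_of_normal hKn ⊤ (mem_top t)) hNK hKN htN hT ha
  obtain ⟨y, hy, hty, hby⟩ := exists_t_fixed h.solv hc2 h.ht
    (le_normalizer_of_normal hKn ⊤ (mem_top t)) hNK hKN htN hT hb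
  have h1 := key x hx htx y hy hty
  have ea : q ⟨a, ha⟩ = q ⟨x, hx⟩ := (hqe _ _).mpr hax
  have eb : q ⟨b, hb⟩ = q ⟨y, hy⟩ := (hqe _ _).mpr hby
  have h2 : q (⟨a, ha⟩ * ⟨b, hb⟩ * ⟨a, ha⟩⁻¹ * ⟨b, hb⟩⁻¹) = 1 := by
    have h3 : q (⟨x, hx⟩ * ⟨y, hy⟩ * ⟨x, hx⟩⁻¹ * ⟨y, hy⟩⁻¹) = 1 := (hq1 _).mpr h1
    rw [← h3]
    simp only [map_mul, map_inv, ea, eb]
  exact (hq1 _).mp h2

/-- metabelian case -/
theorem claim_two [Finite Γ] (h : Cfg K s t) {N : Subgroup Γ} (hNK : N ≤ K)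
    (hKN : K ≤ normalizer (N : Set Γ)) (htN : t ∈ normalizer (N : Set Γ))
    (hT : ∀ x ∈ K, t * x * t⁻¹ * x⁻¹ ∈ N) (hcl : ∀ c ∈ ⁅K, K⁆, ∀ x ∈ ⁅K, K⁆, c * x = x * c) :
    ⁅K, ⁅K, K⁆⁆ ≤ N := by
  haveI hKn := h.normal
  have hDn : (⁅K, K⁆).Normal := inferInstance
  have hDK : ⁅K, K⁆ ≤ K := commutator_le_left K K
  have hD := h.mono hDn hDK
  haveI hNn : (N.subgroupOf K).Normal := normal_subgroupOf_of_le_normalizer hKN
  set q : K →* K ⧸ N.subgroupOf K := QuotientGroup.mk' _ with hq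
  have hq1 : ∀ x : K, q x = 1 ↔ (x : Γ) ∈ N := fun x => by
    rw [hq, QuotientGroup.mk'_apply, QuotientGroup.eq_one_iff]; rfl
  have hqe : ∀ x y : K, q x = q y ↔ (x : Γ)⁻¹ * y ∈ N := fun x y => by
    rw [hq]
    exact QuotientGroup.eq
  have hcs : ∀ x ∈ K, s * x * s⁻¹ ∈ K := fun x hx => hKn.conj_mem x hx s
  have hcs' : ∀ x ∈ K, s⁻¹ * x * s ∈ K := fun x hx => by
    have := hKn.conj_mem x hx s⁻¹
    rwa [inv_inv] at this
  have hsame : ∀ (x : Γ) (hx : x ∈ K), t * x * t⁻¹ = x →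
      q ⟨s * x * s⁻¹, hcs x hx⟩ = q ⟨s⁻¹ * x * s, hcs' x hx⟩ := by
    intro x hx htx
    rw [eq_comm, hqe]
    have h1 := hT _ (hcs x hx)
    rw [h.t_conj htx] at h1
    -- `x2 x1⁻¹ ∈ N`, want `x2⁻¹ x1 ∈ N`
    have h2 := (mem_normalizer_iff.mp (hKN (inv_mem (hcs x hx))) _).mp (inv_mem h1)
    change (s⁻¹ * x * s)⁻¹ * (s * x * s⁻¹) ∈ N
    have h3 : (s * x * s⁻¹)⁻¹ * ((s⁻¹ * x * s) * (s * x * s⁻¹)⁻¹)⁻¹ * (s * x * s⁻¹)⁻¹⁻¹ =
        (s⁻¹ * x * s)⁻¹ * (s * x * s⁻¹) := by group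
    rw [h3] at h2
    exact h2
  have hcomm : ∀ a ∈ K, ∀ b ∈ K, a * b * a⁻¹ * b⁻¹ ∈ ⁅K, K⁆ := fun a ha b hb =>
    commutator_mem_commutator ha hb
  -- the main computation
  have key : ∀ x ∈ K, t * x * t⁻¹ = x → ∀ y ∈ ⁅K, K⁆, t * y * t⁻¹ = y →
      x * y * x⁻¹ * y⁻¹ ∈ N := by
    intro x hx htx y hyD hty
    have hy := hDK hyD
    have hDs := le_normalizer_of_normal hDn ⊤
    have hxp := h.prod_mem hDK (le_normalizer_of_normal hDn K) (hDs (mem_top s)) (hDs (mem_top t))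
      hcomm hx htx
    have hyp := hD.prod_mem (R := ⊥) bot_le (le_normalizer_of_normal inferInstance _)
      (le_normalizer_of_normal inferInstance ⊤ (mem_top s))
      (le_normalizer_of_normal inferInstance ⊤ (mem_top t)) (by
        intro a ha b hb
        rw [mem_bot, hcl a ha b hb]
        group) hyD hty
    rw [mem_bot] at hyp
    set w := x * y * x⁻¹ * y⁻¹ with hw
    have hwD : w ∈ ⁅K, K⁆ := hcomm x hx y hy
    have htw : t * w * t⁻¹ = w := by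
      calc t * w * t⁻¹ = (t * x * t⁻¹) * (t * y * t⁻¹) * (t * x * t⁻¹)⁻¹ * (t * y * t⁻¹)⁻¹ := by
            rw [hw]; group
        _ = w := by rw [htx, hty]
    have hwp := hD.prod_mem (R := ⊥) bot_le (le_normalizer_of_normal inferInstance _)
      (le_normalizer_of_normal inferInstance ⊤ (mem_top s))
      (le_normalizer_of_normal inferInstance ⊤ (mem_top t)) (by
        intro a ha b hb
        rw [mem_bot, hcl a ha b hb]
        group) hwD htw
    rw [mem_bot] at hwp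
    -- pass to the quotient
    set x1 : K := ⟨s * x * s⁻¹, hcs x hx⟩ with hx1
    set x2 : K := ⟨s⁻¹ * x * s, hcs' x hx⟩ with hx2
    set y1 : K := ⟨s * y * s⁻¹, hcs y hy⟩ with hy1
    set y2 : K := ⟨s⁻¹ * y * s, hcs' y hy⟩ with hy2
    have e1 : q x1 = q x2 := hsame x hx htx
    have e2 : q y1 = q y2 := hsame y hy hty
    set X : K := ⟨x, hx⟩
    set Y : K := ⟨y, hy⟩
    set w1 : K := x1 * y1 * x1⁻¹ * y1⁻¹ with hw1
    have hw1D : (w1 : Γ) ∈ ⁅K, K⁆ := hcomm _ x1.2 _ y1.2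
    have hrel : q (X * Y * X⁻¹ * Y⁻¹) * q w1 * q w1 = 1 := by
      have h2 : q w1 = q (x2 * y2 * x2⁻¹ * y2⁻¹) := by
        rw [hw1]; simp only [map_mul, map_inv, e1, e2]
      conv_lhs => rw [h2]
      conv_lhs => arg 1; arg 2; rw [← h2]
      rw [← map_mul, ← map_mul, hq1]
      have h3 : ((X * Y * X⁻¹ * Y⁻¹ * w1 * (x2 * y2 * x2⁻¹ * y2⁻¹) : K) : Γ) =
          w * (s * w * s⁻¹) * (s⁻¹ * w * s) := by
        rw [hw1, hx1, hx2, hy1, hy2, hw]
        change x * y * x⁻¹ * y⁻¹ * ((s * x * s⁻¹) * (s * y * s⁻¹) * (s * x * s⁻¹)⁻¹ * (s * y * s⁻¹)⁻¹) *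
          ((s⁻¹ * x * s) * (s⁻¹ * y * s) * (s⁻¹ * x * s)⁻¹ * (s⁻¹ * y * s)⁻¹) = _
        group
      rw [h3, hwp]
      exact one_mem N
    haveI hMn : ((⁅K, K⁆.subgroupOf K).map q).Normal :=
      (inferInstance : (⁅K, K⁆.subgroupOf K).Normal).map q (QuotientGroup.mk'_surjective _)
    have hMc : ∀ u ∈ (⁅K, K⁆.subgroupOf K).map q, ∀ v ∈ (⁅K, K⁆.subgroupOf K).map q,
        u * v = v * u := by
      rintro _ ⟨u, hu, rfl⟩ _ ⟨v, hv, rfl⟩
      rw [← map_mul, ← map_mul]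
      congr 1
      exact Subtype.ext (hcl u hu v hv)
    have hLn : ∀ l : K ⧸ N.subgroupOf K, l ^ Nat.card K = 1 := by
      intro l
      obtain ⟨l, rfl⟩ := QuotientGroup.mk'_surjective _ l
      rw [← map_pow, pow_card_eq_one', map_one]
    have hY1 : ((Y * y1 * y2 : K) : Γ) = 1 := hyp
    have hY1' : q (Y * y1 * y2) = 1 := by
      have : Y * y1 * y2 = 1 := Subtype.ext hY1
      rw [this, map_one]
    have hfin := core_two ((⁅K, K⁆.subgroupOf K).map q) hMc (a := q X) (b := q x1) (c := q Y)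
      (d := q y1) (m := q (X * x1 * x2)) (mem_map_of_mem q hxp)
      (mem_map_of_mem q (show (y1 : Γ) ∈ ⁅K, K⁆ from hDn.conj_mem y hyD s))
      (by rw [map_mul, map_mul, ← e1]; group)
      (by
        rw [map_mul, map_mul, ← e2] at hY1'
        rw [mul_assoc] at hY1'
        exact eq_inv_of_mul_eq_one_left hY1')
      (by
        rw [hw1] at hrel
        simp only [map_mul, map_inv] at hrel
        exact hrel) hLn h.cop
    have h1 : q (X * Y * X⁻¹ * Y⁻¹) = 1 := by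
      simp only [map_mul, map_inv]
      rw [hfin.2]; group
    exact (hq1 _).mp h1
  rw [commutator_le]
  intro a ha b hb
  have hc2 : (Nat.card K).Coprime 2 := Nat.Coprime.coprime_dvd_right (by norm_num) h.cop
  obtain ⟨x, hx, htx, hax⟩ := exists_t_fixed h.solv hc2 h.ht
    (le_normalizer_of_normal hKn ⊤ (mem_top t)) hNK hKN htN hT ha
  obtain ⟨y, hyD, hty, hby⟩ := exists_t_fixed (N := N ⊓ ⁅K, K⁆) hD.solv
    (Nat.Coprime.coprime_dvd_left (card_dvd_of_le hDK) hc2) h.ht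
    (le_normalizer_of_normal hDn ⊤ (mem_top t)) inf_le_right
    ((le_inf (hDK.trans hKN) (le_normalizer_of_normal hDn _)).trans
      Subgroup.inf_normalizer_le_normalizer_inf)
    (Subgroup.inf_normalizer_le_normalizer_inf
      (Subgroup.mem_inf.mpr ⟨htN, le_normalizer_of_normal hDn ⊤ (mem_top t)⟩))
    (by
      intro x hx
      refine Subgroup.mem_inf.mpr ⟨hT x (hDK hx), mul_mem (hDn.conj_mem x hx t) (inv_mem hx)⟩) hb
  have hy := hDK hyD
  have h1 := key x hx htx y hyD hty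
  have ea : q ⟨a, ha⟩ = q ⟨x, hx⟩ := (hqe _ _).mpr hax
  have eb : q ⟨b, hDK hb⟩ = q ⟨y, hy⟩ := (hqe _ _).mpr (Subgroup.mem_inf.mp hby).1
  have h2 : q (⟨a, ha⟩ * ⟨b, hDK hb⟩ * ⟨a, ha⟩⁻¹ * ⟨b, hDK hb⟩⁻¹) = 1 := by
    have h3 : q (⟨x, hx⟩ * ⟨y, hy⟩ * ⟨x, hx⟩⁻¹ * ⟨y, hy⟩⁻¹) = 1 := (hq1 _).mpr h1
    rw [← h3]
    simp only [map_mul, map_inv, ea, eb]
  exact (hq1 _).mp h2

theorem Cfg.quot [Finite Γ] (h : Cfg K s t) (R : Subgroup Γ) [hR : R.Normal] (hRK : R ≤ K) :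
    Cfg (K.map (QuotientGroup.mk' R)) (QuotientGroup.mk' R s) (QuotientGroup.mk' R t) where
  hs := by rw [← map_pow, h.hs, map_one]
  ht := by rw [← map_pow, h.ht, map_one]
  hst := by rw [← map_mul, ← map_inv, ← map_mul, h.hst, map_inv]
  normal := h.normal.map _ (QuotientGroup.mk'_surjective R)
  solv := by
    haveI := h.solv
    exact Group.isSolvable_of_surjective ((QuotientGroup.mk' R).subgroupMap_surjective K)
  cop := Nat.Coprime.coprime_dvd_left (card_map_dvd _ _) h.cop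
  fpf := by
    rintro _ ⟨x, hx, rfl⟩ h1 h2
    have e : ∀ g : Γ, QuotientGroup.mk' R g * QuotientGroup.mk' R x * (QuotientGroup.mk' R g)⁻¹ =
        QuotientGroup.mk' R x → g * x * g⁻¹ * x⁻¹ ∈ R := by
      intro g hg
      rw [← QuotientGroup.eq_one_iff]
      change QuotientGroup.mk' R (g * x * g⁻¹ * x⁻¹) = 1
      rw [map_mul, map_mul, map_mul, map_inv, map_inv, hg, mul_inv_cancel]
    have h3 := h.mem_of_fix hRK (le_normalizer_of_normal hR K)
      (le_normalizer_of_normal hR ⊤ (mem_top s)) (le_normalizer_of_normal hR ⊤ (mem_top t)) hx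
      (e s h1) (e t h2)
    exact (QuotientGroup.eq_one_iff x).mpr h3

/-- the transfer of the hypotheses to quotients -/
theorem hyp_quot (R : Subgroup Γ) [hR : R.Normal] {N : Subgroup Γ} (hNK : N ≤ K)
    (hKN : K ≤ normalizer (N : Set Γ)) (htN : t ∈ normalizer (N : Set Γ))
    (hT : ∀ x ∈ K, t * x * t⁻¹ * x⁻¹ ∈ N) :
    N.map (QuotientGroup.mk' R) ≤ K.map (QuotientGroup.mk' R) ∧
    K.map (QuotientGroup.mk' R) ≤ normalizer (N.map (QuotientGroup.mk' R) : Set (Γ ⧸ R)) ∧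
    QuotientGroup.mk' R t ∈ normalizer (N.map (QuotientGroup.mk' R) : Set (Γ ⧸ R)) ∧
    ∀ x ∈ K.map (QuotientGroup.mk' R), QuotientGroup.mk' R t * x * (QuotientGroup.mk' R t)⁻¹ * x⁻¹ ∈
      N.map (QuotientGroup.mk' R) := by
  refine ⟨map_mono hNK, ?_, ?_, ?_⟩
  · exact (map_mono hKN).trans (le_normalizer_map _)
  · exact (le_normalizer_map _) (mem_map_of_mem _ htN)
  · rintro _ ⟨x, hx, rfl⟩
    rw [← map_mul, ← map_inv, ← map_mul, ← map_inv, ← map_mul]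
    exact mem_map_of_mem _ (hT x hx)

/-- **Claim C**: if `t` acts trivially on `K / N` then `K / N` is abelian. -/
theorem commutator_le_of_trivial [Finite Γ] (h : Cfg K s t) {N : Subgroup Γ} (hNK : N ≤ K)
    (hKN : K ≤ normalizer (N : Set Γ)) (htN : t ∈ normalizer (N : Set Γ))
    (hT : ∀ x ∈ K, t * x * t⁻¹ * x⁻¹ ∈ N) : ⁅K, K⁆ ≤ N := by
  haveI hKn := h.normal
  have hDn : (⁅K, K⁆).Normal := inferInstance
  have hDK : ⁅K, K⁆ ≤ K := commutator_le_left K K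
  -- the two steps
  have step : ∀ (R : Subgroup Γ) [R.Normal] (X : Subgroup Γ),
      X.map (QuotientGroup.mk' R) ≤ N.map (QuotientGroup.mk' R) → X ≤ N ⊔ R := by
    intro R _ X hX
    have h1 := comap_mono (f := QuotientGroup.mk' R) hX
    rw [comap_map_eq, comap_map_eq, QuotientGroup.ker_mk'] at h1
    exact le_sup_left.trans h1
  have h1 : ⁅K, K⁆ ≤ N ⊔ ⁅⁅K, K⁆, K⁆ := by
    apply step
    have hR : ⁅⁅K, K⁆, K⁆ ≤ K := (commutator_mono hDK le_rfl).trans hDK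
    obtain ⟨a1, a2, a3, a4⟩ := hyp_quot (t := t) ⁅⁅K, K⁆, K⁆ hNK hKN htN hT
    rw [map_commutator]
    refine claim_one (h.quot _ hR) a1 a2 a3 a4 ?_
    rw [← map_commutator]
    rintro _ ⟨c, hc, rfl⟩ _ ⟨x, hx, rfl⟩
    rw [← map_mul, ← map_mul]
    refine (QuotientGroup.eq).mpr ?_
    have h3 : (c * x)⁻¹ * (x * c) = ⁅x⁻¹, c⁻¹⁆ := by
      rw [commutatorElement_def]; group
    rw [h3, commutator_comm]
    exact commutator_mem_commutator (inv_mem hx) (inv_mem hc)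
  have h2 : ⁅K, ⁅K, K⁆⁆ ≤ N ⊔ ⁅⁅K, K⁆, ⁅K, K⁆⁆ := by
    apply step
    have hR : ⁅⁅K, K⁆, ⁅K, K⁆⁆ ≤ K := (commutator_mono hDK hDK).trans hDK
    obtain ⟨a1, a2, a3, a4⟩ := hyp_quot (t := t) ⁅⁅K, K⁆, ⁅K, K⁆⁆ hNK hKN htN hT
    rw [map_commutator, map_commutator]
    refine claim_two (h.quot _ hR) a1 a2 a3 a4 ?_
    rw [← map_commutator]
    rintro _ ⟨c, hc, rfl⟩ _ ⟨x, hx, rfl⟩
    rw [← map_mul, ← map_mul]
    refine (QuotientGroup.eq).mpr ?_
    have h3 : (c * x)⁻¹ * (x * c) = ⁅x⁻¹, c⁻¹⁆ := by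
      rw [commutatorElement_def]; group
    rw [h3]
    exact commutator_mem_commutator (inv_mem hx) (inv_mem hc)
  have h3 : ⁅K, K⁆ ≤ N ⊔ ⁅⁅K, K⁆, ⁅K, K⁆⁆ := by
    refine h1.trans (sup_le le_sup_left ?_)
    rw [commutator_comm]
    exact h2
  haveI hNn : (N.subgroupOf K).Normal := normal_subgroupOf_of_le_normalizer hKN
  set q : K →* K ⧸ N.subgroupOf K := QuotientGroup.mk' _ with hq
  set D' : Subgroup K := (⁅K, K⁆).subgroupOf K with hD'
  have e1 : D'.map K.subtype = ⁅K, K⁆ := by rw [hD', subgroupOf_map_subtype, inf_eq_left.mpr hDK]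
  have e2 : (N.subgroupOf K).map K.subtype = N := by
    rw [subgroupOf_map_subtype, inf_eq_left.mpr hNK]
  have h4 : D' ≤ N.subgroupOf K ⊔ ⁅D', D'⁆ := by
    rw [← map_le_map_iff_of_injective K.subtype_injective, Subgroup.map_sup, map_commutator, e1, e2]
    exact h3
  have h5 : D'.map q ≤ ⁅D'.map q, D'.map q⁆ := by
    have h6 := map_mono (f := q) h4
    rw [Subgroup.map_sup, map_commutator] at h6
    have h7 : (N.subgroupOf K).map q = ⊥ := by
      rw [Subgroup.map_eq_bot_iff, hq, QuotientGroup.ker_mk']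
    rwa [h7, bot_sup_eq] at h6
  haveI := h.solv
  have h6 : D'.map q = ⊥ := by
    by_contra hne
    exact (Group.IsSolvable.commutator_lt_of_ne_bot hne).not_ge h5
  rw [Subgroup.map_eq_bot_iff, hq, QuotientGroup.ker_mk'] at h6
  intro x hx
  exact h6 (show (⟨x, hDK hx⟩ : K) ∈ D' from hx)

end

end Cfsg.Agent.H71.SThree
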