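import Mathlib
import Cfsg.Agent.H71.SThree
import Cfsg.Agent.H71.Split
import Cfsg.Agent.H71.Pronormal
import Cfsg.Agent.BG.Core

/-!
Part 2 of S4305: if `1 + s + s²` vanishes on `V` for an element `s` of order 3 and all its
conjugates under the `q`-group `Q` then `s` centralizes `Q`.
-/

set_option autoImplicit false
set_option linter.style.haveILetI false
set_option linter.unusedSimpArgs false

namespace Cfsg.Agent.H71.SThree

open Subgroup
open scoped commutatorElement

theorem pow_comm_eq {G : Type*} [Group G] {x y c : G} (h : x * y = c * (y * x))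
    (hcx : Commute c x) (n : ℕ) : x ^ n * y = c ^ n * (y * x ^ n) := by
  induction n with
  | zero => simp
  | succ n ih =>
    have h2 : Commute (c ^ n) x := hcx.pow_left n
    calc x ^ (n + 1) * y = x * (x ^ n * y) := by rw [pow_succ', mul_assoc]
      _ = x * (c ^ n * (y * x ^ n)) := by rw [ih]
      _ = c ^ n * (x * y) * x ^ n := by rw [← mul_assoc, ← h2.eq]; group
      _ = c ^ n * (c * (y * x)) * x ^ n := by rw [h]
      _ = c ^ (n + 1) * (y * x ^ (n + 1)) := by rw [pow_succ, pow_succ']; group

theorem class_two_pow {G : Type*} [Group G] {x y c : G} (h : x * y = c * (y * x))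
    (hcx : Commute c x) (hcy : Commute c y) (n : ℕ) :
    (y * x) ^ n = c ^ (n.choose 2) * (y ^ n * x ^ n) := by
  have h1 : ∀ n : ℕ, x ^ n * y = c ^ n * (y * x ^ n) := by
    intro n
    induction n with
    | zero => simp
    | succ n ih =>
      have h2 : Commute (c ^ n) x := hcx.pow_left n
      calc x ^ (n + 1) * y = x * (x ^ n * y) := by rw [pow_succ', mul_assoc]
        _ = x * (c ^ n * (y * x ^ n)) := by rw [ih]
        _ = c ^ n * (x * y) * x ^ n := by rw [← mul_assoc, ← h2.eq]; group
        _ = c ^ n * (c * (y * x)) * x ^ n := by rw [h]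
        _ = c ^ (n + 1) * (y * x ^ (n + 1)) := by rw [pow_succ, pow_succ']; group
  induction n with
  | zero => simp
  | succ n ih =>
    have h3 : (n + 1).choose 2 = n.choose 2 + n := by
      rw [Nat.choose_succ_succ' n 1, Nat.choose_one_right, add_comm]
    have h4 : Commute (c ^ n) (y ^ n) := (hcy.pow_left n).pow_right n
    calc (y * x) ^ (n + 1) = c ^ (n.choose 2) * (y ^ n * x ^ n) * (y * x) := by rw [pow_succ, ih]
      _ = c ^ (n.choose 2) * y ^ n * (x ^ n * y) * x := by group
      _ = c ^ (n.choose 2) * y ^ n * (c ^ n * (y * x ^ n)) * x := by rw [h1]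
      _ = c ^ (n.choose 2) * (y ^ n * c ^ n) * (y * x ^ n) * x := by group
      _ = c ^ (n.choose 2) * (c ^ n * y ^ n) * (y * x ^ n) * x := by rw [h4.eq]
      _ = c ^ (n.choose 2 + n) * (y ^ n * y * (x ^ n * x)) := by rw [pow_add]; group
      _ = _ := by rw [h3, ← pow_succ, ← pow_succ]

section

variable {Γ V : Type*} [Group Γ] [CommGroup V] (ρ : Γ →* MulAut V)

/-- the norm of an element of order `3` -/
def N3 (s : Γ) (v : V) : V := v * ρ s v * ρ s (ρ s v)

variable {ρ}

theorem fix_of_fix {s u : Γ} (h1 : ∀ v, N3 ρ s v = 1) (h2 : ∀ v, N3 ρ (s * u) v = 1) {v : V}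
    (hv : ρ (s⁻¹ * u * s) v = v) : ρ u v = v := by
  have h3 := h2 (ρ u⁻¹ v)
  have e1 : ρ (s * u) (ρ u⁻¹ v) = ρ s v := by
    rw [← MulAut.mul_apply, ← map_mul]
    congr 2
    group
  have e2 : ρ (s * u) (ρ s v) = ρ s (ρ s v) := by
    have h4 : s * u * s = s * s * (s⁻¹ * u * s) := by group
    have h5 : ρ (s * u) (ρ s v) = ρ (s * u * s) v := by
      rw [map_mul ρ (s * u) s]; rfl
    rw [h5, h4, map_mul ρ (s * s)]
    change ρ (s * s) (ρ (s⁻¹ * u * s) v) = _
    rw [hv, map_mul]
    rfl
  unfold N3 at h3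
  rw [e1, e2] at h3
  have h4 := h1 v
  unfold N3 at h4
  have h5 : ρ u⁻¹ v = v := by
    rw [mul_assoc] at h3 h4
    exact mul_right_cancel (h3.trans h4.symm)
  calc ρ u v = ρ u (ρ u⁻¹ v) := by rw [h5]
    _ = v := by rw [← MulAut.mul_apply, ← map_mul, mul_inv_cancel, map_one]; rfl

theorem norm_fixed {q : ℕ} {g : Γ} (hg : g ^ q = 1) (v : V) :
    ρ g (∏ i ∈ Finset.range q, ρ (g ^ i) v) = ∏ i ∈ Finset.range q, ρ (g ^ i) v := by
  rw [map_prod]
  have h1 : ∀ j, ρ g (ρ (g ^ j) v) = ρ (g ^ (j + 1)) v := by
    intro j; rw [pow_succ', map_mul]; rfl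
  simp_rw [h1]
  rcases q with _ | q
  · simp
  · rw [Finset.prod_range_succ, hg, Finset.prod_range_succ']
    simp

theorem final_step [Finite V] {q : ℕ} [hq : Fact q.Prime] (hV : (Nat.card V).Coprime q)
    {z u b : Γ} (hzq : z ^ q = 1) (huq : u ^ q = 1) (hb : b * u * b⁻¹ = z * u)
    (hzu : Commute z u) (hzb : Commute z b) (h : ∀ v, ρ u v = v → ρ z v = v) (v : V) :
    ρ z v = v := by
  have hcomp : ∀ (a c : Γ) (x : V), ρ a (ρ c x) = ρ (a * c) x := by
    intro a c x; rw [map_mul]; rfl
  have hinj : ∀ x y : V, x ^ q = y ^ q → x = y := by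
    intro x y hxy
    exact (powCoprime (G := V) (n := q) hV).injective hxy
  set w : V := v⁻¹ * ρ z v with hw
  have hz1 : ∀ i, 0 < i → i < q → ∏ j ∈ Finset.range q, ρ ((z ^ i) ^ j) w = 1 := by
    intro i hi0 hiq
    have h1 : (z ^ i) ^ q = 1 := by rw [← pow_mul, mul_comm, pow_mul, hzq, one_pow]
    have h2 := norm_fixed (ρ := ρ) h1 v
    set P := ∏ j ∈ Finset.range q, ρ ((z ^ i) ^ j) v with hP
    -- `z` is a power of `z ^ i`
    have h3 : ρ z P = P := by
      have hcop : Nat.Coprime i q := (Nat.coprime_of_lt_prime hi0.ne' hiq hq.out).symm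
      have h4 : (orderOf z).Coprime i :=
        Nat.Coprime.coprime_dvd_left (orderOf_dvd_of_pow_eq_one hzq) hcop.symm
      obtain ⟨m, hm⟩ := exists_pow_eq_self_of_coprime h4.symm
      have h5 := Split.zpow_apply_eq h2 m
      rw [zpow_natCast, ← map_pow, hm] at h5
      exact h5
    have h4 : ∏ j ∈ Finset.range q, ρ ((z ^ i) ^ j) w = P⁻¹ * ρ z P := by
      rw [hP, map_prod, ← Finset.prod_inv_distrib, ← Finset.prod_mul_distrib]
      apply Finset.prod_congr rfl
      intro j _
      rw [hw, map_mul, map_inv, hcomp, hcomp]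
      congr 3
      rw [← pow_mul, ← pow_succ, ← pow_succ']
    rw [h4, h3, inv_mul_cancel]
  -- the norms along the conjugates of `u`
  have hn : ∀ j : ℕ, ρ z (∏ i ∈ Finset.range q, ρ ((u * z ^ j) ^ i) w) =
      ∏ i ∈ Finset.range q, ρ ((u * z ^ j) ^ i) w := by
    intro j
    have h1 : (u * z ^ j) ^ q = 1 := by
      rw [(hzu.symm.pow_right j).mul_pow, huq, one_mul, ← pow_mul, mul_comm, pow_mul, hzq, one_pow]
    have h2 := norm_fixed (ρ := ρ) h1 w
    set P := ∏ i ∈ Finset.range q, ρ ((u * z ^ j) ^ i) w with hP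
    have hbj : ∀ j : ℕ, b ^ j * u * (b ^ j)⁻¹ = u * z ^ j := by
      intro j
      induction j with
      | zero => simp
      | succ j ih =>
        calc b ^ (j + 1) * u * (b ^ (j + 1))⁻¹ = b * (b ^ j * u * (b ^ j)⁻¹) * b⁻¹ := by
              rw [pow_succ']; group
          _ = b * u * (z ^ j * b⁻¹) := by rw [ih]; group
          _ = b * u * (b⁻¹ * z ^ j) := by rw [((hzb.pow_left j).inv_right).eq]
          _ = (b * u * b⁻¹) * z ^ j := by group
          _ = (z * u) * z ^ j := by rw [hb]
          _ = u * z ^ (j + 1) := by rw [hzu.eq, pow_succ']; group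
    have h3 : ρ u (ρ (b ^ j)⁻¹ P) = ρ (b ^ j)⁻¹ P := by
      have h4 : u * (b ^ j)⁻¹ = (b ^ j)⁻¹ * (u * z ^ j) := by rw [← hbj j]; group
      rw [hcomp, h4, ← hcomp, h2]
    have h4 := h _ h3
    have h5 : z * (b ^ j)⁻¹ = (b ^ j)⁻¹ * z := ((hzb.pow_right j).inv_right).eq
    rw [hcomp, h5, ← hcomp] at h4
    exact (ρ (b ^ j)⁻¹).injective h4
  have hprod : ∏ j ∈ Finset.range q, ∏ i ∈ Finset.range q, ρ ((u * z ^ j) ^ i) w = w ^ q := by
    rw [Finset.prod_comm]
    have hp0 : Finset.range q = insert 0 (Finset.Ico 1 q) := by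
      ext j
      simp only [Finset.mem_range, Finset.mem_insert, Finset.mem_Ico]
      have := hq.out.pos
      omega
    conv_lhs => rw [hp0]
    rw [Finset.prod_insert (by simp)]
    have h1 : ∀ i ∈ Finset.Ico 1 q, ∏ j ∈ insert 0 (Finset.Ico 1 q), ρ ((u * z ^ j) ^ i) w = 1 := by
      intro i hi
      rw [Finset.mem_Ico] at hi
      rw [← hp0]
      have h2 : ∀ j, ρ ((u * z ^ j) ^ i) w = ρ (u ^ i) (ρ ((z ^ i) ^ j) w) := by
        intro j
        rw [hcomp, (hzu.symm.pow_right j).mul_pow, ← pow_mul, ← pow_mul, mul_comm j i]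
      simp_rw [h2]
      rw [← map_prod, hz1 i (by omega) hi.2, map_one]
    rw [Finset.prod_congr rfl h1, Finset.prod_const_one, mul_one, ← hp0]
    simp
  have h1 : ρ z (w ^ q) = w ^ q := by
    rw [← hprod, map_prod]
    exact Finset.prod_congr rfl (fun j _ => hn j)
  rw [map_pow] at h1
  have h2 : ρ z w = w := hinj _ _ h1
  have h3 : w = 1 := by
    apply hinj
    rw [one_pow]
    have h4 := hz1 1 one_pos hq.out.one_lt
    have h5 : ∀ j, ρ ((z ^ 1) ^ j) w = w := by
      intro j
      have h6 := Split.zpow_apply_eq h2 j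
      rw [zpow_natCast, ← map_pow] at h6
      rwa [pow_one]
    simp_rw [h5] at h4
    rwa [Finset.prod_const, Finset.card_range] at h4
  rw [hw, inv_mul_eq_one] at h3
  exact h3.symm

/-- **Lemma S** for `q`-groups. -/
theorem s_trivial [Finite Γ] [Finite V] {s : Γ} (hs : s ^ 3 = 1) {q : ℕ} [hq : Fact q.Prime]
    (hq2 : q ≠ 2) (hq3 : q ≠ 3) (hV : (Nat.card V).Coprime q) :
    ∀ (n : ℕ) (Q : Subgroup Γ), Nat.card Q = n → IsPGroup q Q → s ∈ normalizer (Q : Set Γ) →
      (∀ x ∈ Q, ρ x = 1 → x = 1) → (∀ g ∈ Q, ∀ v : V, N3 ρ (g * s * g⁻¹) v = 1) →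
      ∀ x ∈ Q, s * x = x * s := by
  intro n
  induction n using Nat.strong_induction_on with
  | _ n ih =>
    intro Q hcard hQ hsQ hfaith hN
    by_contra hcon
    set D : Subgroup Γ := Q ⊓ centralizer ({s} : Set Γ) with hD
    have hDQ : D ≤ Q := inf_le_left
    have hDs : ∀ d ∈ D, s * d = d * s := fun d hd => by
      have := (Subgroup.mem_inf.mp hd).2
      rw [mem_centralizer_singleton_iff] at this
      exact this.symm
    have hmemD : ∀ x ∈ Q, s * x = x * s → x ∈ D := fun x hx h =>
      Subgroup.mem_inf.mpr ⟨hx, by rw [mem_centralizer_singleton_iff]; exact h.symm⟩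
    have hDne : D ≠ Q := by
      intro h
      apply hcon
      intro x hx
      exact hDs x (by rw [h]; exact hx)
    -- proper invariant subgroups are centralized
    have hprop : ∀ R : Subgroup Γ, R ≤ Q → R ≠ Q → s ∈ normalizer (R : Set Γ) → R ≤ D := by
      intro R hR hne hsR x hx
      refine hmemD x (hR hx) ?_
      refine ih (Nat.card R) ?_ R rfl (hQ.to_le hR) hsR (fun y hy => hfaith y (hR hy))
        (fun g hg => hN g (hR hg)) x hx
      rw [← hcard]
      exact lt_of_le_of_ne (card_le_of_le hR) (fun h => hne (eq_of_le_of_card_ge hR h.ge))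
    have hQQ : ⁅Q, Q⁆ ≤ Q := commutator_le_self Q
    have hQbot : Q ≠ ⊥ := by
      rintro rfl
      apply hDne
      exact le_antisymm hDQ bot_le
    have hsQ1 : s ∈ normalizer ((⁅Q, Q⁆ : Subgroup Γ) : Set Γ) := by
      rw [← map_conj_eq_self_iff, map_commutator, map_conj_eq_self_iff.mpr hsQ]
    have hQQD : ⁅Q, Q⁆ ≤ D := by
      refine hprop _ hQQ ?_ hsQ1
      intro h
      haveI : Group.IsNilpotent Q := hQ.isNilpotent
      haveI : Group.IsSolvable Q := inferInstance
      haveI : Nontrivial Q := (Subgroup.nontrivial_iff_ne_bot Q).mpr hQbot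
      have h1 := Group.IsSolvable.commutator_lt_top_of_nontrivial Q
      apply h1.ne
      apply map_injective Q.subtype_injective
      rw [commutator_def, map_commutator, ← MonoidHom.range_eq_map, Subgroup.range_subtype, h]
    have hcQ : ∀ x ∈ Q, s * x * s⁻¹ ∈ Q := fun x hx => (mem_normalizer_iff.mp hsQ x).mp hx
    have hcQ' : ∀ x ∈ Q, s⁻¹ * x * s ∈ Q := fun x hx => by
      have := (mem_normalizer_iff.mp (inv_mem hsQ) x).mp hx
      rwa [inv_inv] at this
    have hcomm : ∀ x ∈ Q, ∀ y ∈ Q, x * y * x⁻¹ * y⁻¹ ∈ D := fun x hx y hy =>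
      hQQD (commutator_mem_commutator hx hy)
    have hDconj : ∀ x ∈ Q, ∀ d ∈ D, x * d * x⁻¹ ∈ D := by
      intro x hx d hd
      have h1 := mul_mem (hcomm x hx d (hDQ hd)) hd
      have h2 : x * d * x⁻¹ * d⁻¹ * d = x * d * x⁻¹ := by group
      rwa [h2] at h1
    -- `[Q, s] = Q`
    have hzcard : (Nat.card (zpowers s)).Coprime (Nat.card Q) := by
      obtain ⟨k, hk⟩ := IsPGroup.iff_card.mp hQ
      rw [hk]
      apply Nat.Coprime.pow_right
      rw [Nat.card_zpowers]
      exact Nat.Coprime.coprime_dvd_left (orderOf_dvd_of_pow_eq_one hs)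
        ((Nat.coprime_primes Nat.prime_three hq.out).mpr hq3.symm)
    have hzQ : zpowers s ≤ normalizer (Q : Set Γ) := zpowers_le.mpr hsQ
    have hQsol : Group.IsSolvable Q := by
      haveI : Group.IsNilpotent Q := hQ.isNilpotent
      infer_instance
    have hQs : ⁅Q, zpowers s⁆ = Q := by
      by_contra hne
      have h1 : ⁅Q, zpowers s⁆ ≤ Q := le_normalizer_iff_commutator_le_left.1 hzQ
      have h2 : s ∈ normalizer ((⁅Q, zpowers s⁆ : Subgroup Γ) : Set Γ) := by
        apply normalizer_commutator_ge_right Q (zpowers s)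
        exact mem_zpowers s
      have h3 := hprop _ h1 hne h2
      apply hDne
      apply le_antisymm hDQ
      rw [← Cop.commutator_sup_centralizer hzQ hzcard (Or.inr hQsol)]
      refine sup_le h3 ?_
      intro x hx
      obtain ⟨hx1, hx2⟩ := Subgroup.mem_inf.mp hx
      exact hmemD x hx1 (mem_centralizer_iff.mp hx2 s (mem_zpowers s))
    have hDcent : ∀ d ∈ D, ∀ x ∈ Q, d * x = x * d := by
      intro d hd
      have h1 : Q ≤ centralizer ({d} : Set Γ) := by
        rw [← hQs, commutator_le]
        rintro x hx _ ⟨i, rfl⟩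
        change ⁅x, s ^ i⁆ ∈ _
        rw [mem_centralizer_singleton_iff, commutatorElement_def]
        have h2 : Commute (s ^ i) d := (show Commute s d from hDs d hd).zpow_left i
        have h3 : x⁻¹ * d * x ∈ D := by
          have := hDconj x⁻¹ (inv_mem hx) d hd
          rwa [inv_inv] at this
        have h4 : Commute (s ^ i) (x⁻¹ * d * x) := (show Commute s _ from hDs _ h3).zpow_left i
        calc x * s ^ i * x⁻¹ * (s ^ i)⁻¹ * d = x * s ^ i * x⁻¹ * ((s ^ i)⁻¹ * d) := by group
          _ = x * s ^ i * x⁻¹ * (d * (s ^ i)⁻¹) := by rw [(h2.inv_left).eq]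
          _ = x * (s ^ i * (x⁻¹ * d * x)) * x⁻¹ * (s ^ i)⁻¹ := by group
          _ = x * ((x⁻¹ * d * x) * s ^ i) * x⁻¹ * (s ^ i)⁻¹ := by rw [h4.eq]
          _ = d * (x * s ^ i * x⁻¹ * (s ^ i)⁻¹) := by group
      intro x hx
      have := h1 hx
      rw [mem_centralizer_singleton_iff] at this
      exact this.symm
    -- fixed points modulo `D`
    have hfixD : ∀ x ∈ Q, s * x * s⁻¹ * x⁻¹ ∈ D → x ∈ D := by
      intro x hx hd
      set d := s * x * s⁻¹ * x⁻¹ with hd'
      have h1 : s * x * s⁻¹ = d * x := by rw [hd']; group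
      have h2 : s * d * s⁻¹ = d := by rw [hDs d hd]; group
      have h3 : ∀ n : ℕ, s ^ n * x * (s ^ n)⁻¹ = d ^ n * x := by
        intro n
        induction n with
        | zero => simp
        | succ n ih =>
          have h4 : s * d ^ n * s⁻¹ = d ^ n := by rw [← conj_pow, h2]
          calc s ^ (n + 1) * x * (s ^ (n + 1))⁻¹ = s * (s ^ n * x * (s ^ n)⁻¹) * s⁻¹ := by
                rw [pow_succ']; group
            _ = (s * d ^ n * s⁻¹) * (s * x * s⁻¹) := by rw [ih]; group
            _ = d ^ (n + 1) * x := by rw [h4, h1, pow_succ]; group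
      have h4 := h3 3
      rw [hs, one_mul, inv_one, mul_one] at h4
      have h5 : d ^ 3 = 1 := by
        have : 1 * x = d ^ 3 * x := by rw [one_mul]; exact h4
        exact (mul_right_cancel this).symm
      have h6 : d = 1 := by
        obtain ⟨k, hk⟩ := hQ.exists_orderOf_eq_pow (⟨d, hDQ hd⟩ : Q)
        rw [Subgroup.orderOf_mk] at hk
        have h7 : orderOf d ∣ 3 := orderOf_dvd_of_pow_eq_one h5
        rw [← orderOf_eq_one_iff]
        apply Nat.Coprime.eq_one_of_dvd _ h7
        rw [hk]
        exact Nat.Coprime.pow_left _ ((Nat.coprime_primes hq.out Nat.prime_three).mpr hq3)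
      rw [h6, one_mul] at h1
      exact hmemD x hx (mul_inv_eq_iff_eq_mul.mp h1)
    have hs2 : ∀ x : Γ, s * (s * x * s⁻¹) * s⁻¹ = s⁻¹ * x * s := by
      intro x
      have h1 : s * s = s⁻¹ := by
        rw [eq_inv_iff_mul_eq_one, ← pow_two, ← pow_succ, hs]
      calc s * (s * x * s⁻¹) * s⁻¹ = (s * s) * x * (s * s)⁻¹ := by group
        _ = s⁻¹ * x * s := by rw [h1, inv_inv]
    have hs2' : ∀ x : Γ, s⁻¹ * (s⁻¹ * x * s) * s = s * x * s⁻¹ := by
      intro x
      rw [← hs2]; group
    by_cases hab : ∀ x ∈ Q, ∀ y ∈ Q, x * y = y * x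
    · -- the abelian case
      have hNmul : ∀ x ∈ Q, ∀ y ∈ Q, (x * y) * (s * (x * y) * s⁻¹) * (s⁻¹ * (x * y) * s) =
          (x * (s * x * s⁻¹) * (s⁻¹ * x * s)) * (y * (s * y * s⁻¹) * (s⁻¹ * y * s)) := by
        intro x hx y hy
        have e1 := hcQ x hx
        have e2 := hcQ' x hx
        have e3 := hcQ y hy
        have e4 := hcQ' y hy
        have g1 : s * (x * y) * s⁻¹ = (s * x * s⁻¹) * (s * y * s⁻¹) := by group
        have g2 : s⁻¹ * (x * y) * s = (s⁻¹ * x * s) * (s⁻¹ * y * s) := by group
        rw [g1, g2]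
        generalize s * x * s⁻¹ = x1 at *
        generalize s⁻¹ * x * s = x2 at *
        generalize s * y * s⁻¹ = y1 at *
        generalize s⁻¹ * y * s = y2 at *
        have c1 := hab y hy x1 e1
        have c2 := hab (y * y1) (mul_mem hy e3) x2 e2
        calc x * y * (x1 * y1) * (x2 * y2) = x * (y * x1) * y1 * (x2 * y2) := by group
          _ = x * x1 * ((y * y1) * x2) * y2 := by rw [c1]; group
          _ = _ := by rw [c2]; group
      have hNs : ∀ y ∈ Q, (s * y * s⁻¹) * (s * (s * y * s⁻¹) * s⁻¹) * (s⁻¹ * (s * y * s⁻¹) * s) =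
          y * (s * y * s⁻¹) * (s⁻¹ * y * s) := by
        intro y hy
        have g1 : s⁻¹ * (s * y * s⁻¹) * s = y := by group
        rw [hs2, g1, hab _ (mul_mem (hcQ y hy) (hcQ' y hy)) y hy]
        exact (mul_assoc _ _ _).symm
      let X : Subgroup Γ :=
        { carrier := {x | x ∈ Q ∧ x * (s * x * s⁻¹) * (s⁻¹ * x * s) = 1}
          one_mem' := ⟨one_mem Q, by group⟩
          mul_mem' := fun {a b} ha hb => ⟨mul_mem ha.1 hb.1, by
            rw [hNmul a ha.1 b hb.1, ha.2, hb.2, one_mul]⟩
          inv_mem' := fun {a} ha => ⟨inv_mem ha.1, by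
            have h1 := hNmul a ha.1 a⁻¹ (inv_mem ha.1)
            rw [ha.2, one_mul, mul_inv_cancel] at h1
            rw [← h1]; group⟩ }
      have hQX : Q ≤ X := by
        conv_lhs => rw [← hQs]
        rw [commutator_le]
        intro x hx g hg
        have h1 : ∀ k : ℕ, ∀ y ∈ Q, (s ^ k * y * (s ^ k)⁻¹) ∈ Q ∧
            (s ^ k * y * (s ^ k)⁻¹) * (s * (s ^ k * y * (s ^ k)⁻¹) * s⁻¹) *
              (s⁻¹ * (s ^ k * y * (s ^ k)⁻¹) * s) = y * (s * y * s⁻¹) * (s⁻¹ * y * s) := by
          intro k
          induction k with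
          | zero => intro y hy; simp [hy]
          | succ k ihk =>
            intro y hy
            have h2 : s ^ (k + 1) * y * (s ^ (k + 1))⁻¹ = s ^ k * (s * y * s⁻¹) * (s ^ k)⁻¹ := by
              rw [pow_succ]; group
            rw [h2]
            obtain ⟨h3, h4⟩ := ihk (s * y * s⁻¹) (hcQ y hy)
            exact ⟨h3, h4.trans (hNs y hy)⟩
        obtain ⟨k, hk⟩ := (mem_powers_iff_mem_zpowers.mpr hg)
        have hk' : s ^ k = g := hk
        rw [commutatorElement_def, ← hk']
        obtain ⟨h3, h4⟩ := h1 k x⁻¹ (inv_mem hx)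
        have h5 : x * s ^ k * x⁻¹ * (s ^ k)⁻¹ = x * (s ^ k * x⁻¹ * (s ^ k)⁻¹) := by group
        rw [h5]
        refine ⟨mul_mem hx h3, ?_⟩
        rw [hNmul x hx _ h3, h4, ← hNmul x hx _ (inv_mem hx)]
        group
      have hDbot : D = ⊥ := by
        rw [eq_bot_iff]
        intro d hd
        have h1 := (hQX (hDQ hd)).2
        have h2 : s * d * s⁻¹ = d := by rw [hDs d hd]; group
        have h3 : s⁻¹ * d * s = d := by
          calc s⁻¹ * d * s = s⁻¹ * (s * d * s⁻¹) * s := by rw [h2]
            _ = d := by group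
        rw [h2, h3, ← pow_two, ← pow_succ] at h1
        obtain ⟨k, hk⟩ := hQ.exists_orderOf_eq_pow (⟨d, hDQ hd⟩ : Q)
        rw [Subgroup.orderOf_mk] at hk
        have h7 : orderOf d ∣ 3 := orderOf_dvd_of_pow_eq_one h1
        rw [mem_bot, ← orderOf_eq_one_iff]
        apply Nat.Coprime.eq_one_of_dvd _ h7
        rw [hk]
        exact Nat.Coprime.pow_left _ ((Nat.coprime_primes hq.out Nat.prime_three).mpr hq3)
      -- the action is trivial
      have hcopQV : (Nat.card Q).Coprime (Nat.card V) := by
        obtain ⟨k, hk⟩ := IsPGroup.iff_card.mp hQ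
        rw [hk]
        exact Nat.Coprime.pow_left _ hV.symm
      have htriv := Split.trivial_action_of_norm (p := 3) (ρ.comp Q.subtype) (ρ s)
        (Q.normalizerMonoidHom ⟨s, hsQ⟩)
        (by
          intro x v
          change ρ s (ρ x v) = ρ (s * x * s⁻¹) (ρ s v)
          rw [← MulAut.mul_apply, ← MulAut.mul_apply, ← map_mul, ← map_mul]
          congr 2; group)
        Nat.prime_three
        (by
          intro v
          have h1 := hN 1 (one_mem Q) v
          rw [one_mul, inv_one, mul_one] at h1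
          rw [Finset.prod_range_succ, Finset.prod_range_succ, Finset.prod_range_one]
          exact h1)
        (by
          intro x
          rw [← map_pow]
          have : (⟨s, hsQ⟩ : normalizer (Q : Set Γ)) ^ 3 = 1 := Subtype.ext hs
          rw [this, map_one]
          rfl)
        (by
          intro x hx
          have h3 : s * (x : Γ) * s⁻¹ = x := congrArg Subtype.val hx
          have h4 := hmemD x x.2 (mul_inv_eq_iff_eq_mul.mp h3)
          rw [hDbot, mem_bot] at h4
          exact Subtype.ext h4)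
        hcopQV
      apply hQbot
      rw [eq_bot_iff]
      intro x hx
      rw [mem_bot]
      apply hfaith x hx
      ext v
      exact htriv ⟨x, hx⟩ v
    · -- the nonabelian case
      have hclass : ∀ x ∈ Q, ∀ y ∈ Q, ∃ c ∈ D, x * y = c * (y * x) := by
        intro x hx y hy
        exact ⟨x * y * x⁻¹ * y⁻¹, hcomm x hx y hy, by group⟩
      have hDc : ∀ d ∈ D, ∀ x ∈ Q, Commute d x := fun d hd x hx => hDcent d hd x hx
      have hsd : ∀ d ∈ D, s * d * s⁻¹ = d := fun d hd => by rw [hDs d hd]; group
      have hsd' : ∀ d ∈ D, s⁻¹ * d * s = d := fun d hd => by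
        rw [mul_assoc, ← hDs d hd]; group
      -- `q`-th powers lie in `D`
      have hpow : ∀ x ∈ Q, x ^ q ∈ D := by
        let R : Subgroup Γ :=
          { carrier := {x | x ∈ Q ∧ x ^ q ∈ D}
            one_mem' := ⟨one_mem Q, by rw [one_pow]; exact one_mem D⟩
            mul_mem' := fun {a b} ha hb => ⟨mul_mem ha.1 hb.1, by
              obtain ⟨c, hc, hbac⟩ := hclass b hb.1 a ha.1
              rw [class_two_pow hbac (hDc c hc b hb.1) (hDc c hc a ha.1)]
              exact mul_mem (pow_mem hc _) (mul_mem ha.2 hb.2)⟩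
            inv_mem' := fun {a} ha => ⟨inv_mem ha.1, by rw [inv_pow]; exact inv_mem ha.2⟩ }
        have hRQ : R ≤ Q := fun x hx => hx.1
        by_contra hne
        have hRne : R ≠ Q := by
          intro h
          apply hne
          intro x hx
          rw [← h] at hx
          exact hx.2
        have hsR : s ∈ normalizer (R : Set Γ) := by
          rw [mem_normalizer_iff]
          intro x
          constructor
          · intro hx
            refine ⟨hcQ x hx.1, ?_⟩
            rw [conj_pow, hsd _ hx.2]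
            exact hx.2
          · intro hx
            have h1 : x ∈ Q := (mem_normalizer_iff.mp hsQ x).mpr hx.1
            refine ⟨h1, ?_⟩
            have h2 := hx.2
            rw [conj_pow] at h2
            have h3 : x ^ q = s⁻¹ * (s * x ^ q * s⁻¹) * s := by group
            rw [h3, hsd' _ h2]
            exact h2
        have hRD := hprop R hRQ hRne hsR
        apply hDne
        apply le_antisymm hDQ
        intro x hx
        have h1 : ∀ k : ℕ, x ^ q ^ k ∈ D → x ∈ D := by
          intro k
          induction k with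
          | zero => intro h; simpa using h
          | succ k ihk =>
            intro h
            apply ihk
            apply hRD
            refine ⟨pow_mem hx _, ?_⟩
            rw [← pow_mul, ← pow_succ]
            exact h
        obtain ⟨k, hk⟩ := hQ ⟨x, hx⟩
        apply h1 k
        have h2 : x ^ q ^ k = 1 := congrArg Subtype.val hk
        rw [h2]
        exact one_mem D
      obtain ⟨x, hxQ, hxD⟩ : ∃ x ∈ Q, x ∉ D := by
        by_contra h
        push Not at h
        exact hDne (le_antisymm hDQ h)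
      set y := s⁻¹ * x⁻¹ * s with hy
      have hyQ : y ∈ Q := hcQ' _ (inv_mem hxQ)
      set u := y * x with hu
      have huQ : u ∈ Q := mul_mem hyQ hxQ
      have huD : u ∉ D := by
        intro h
        apply hxD
        apply hfixD x hxQ
        have h1 : s * u * s⁻¹ = u := hsd u h
        have h2 : s * u * s⁻¹ = x⁻¹ * (s * x * s⁻¹) := by rw [hu, hy]; group
        have h3 := hDconj x hxQ u h
        rw [← h1, h2] at h3
        have h4 : x * (x⁻¹ * (s * x * s⁻¹)) * x⁻¹ = s * x * s⁻¹ * x⁻¹ := by group
        rwa [h4] at h3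
      have hu1 : u ^ q = 1 := by
        obtain ⟨c, hc, hxy⟩ := hclass x hxQ y hyQ
        have hcc := hDc c hc
        rw [hu, class_two_pow hxy (hcc x hxQ) (hcc y hyQ)]
        have h1 : y ^ q = (x ^ q)⁻¹ := by
          have h2 : y = s⁻¹ * x⁻¹ * (s⁻¹)⁻¹ := by rw [inv_inv]
          rw [h2, conj_pow, inv_inv, inv_pow, hsd' _ (inv_mem (hpow x hxQ))]
        have h2 : c ^ q = 1 := by
          have h3 := pow_comm_eq hxy (hcc x hxQ) q
          rw [hDcent _ (hpow x hxQ) y hyQ] at h3
          have h4 : 1 * (y * x ^ q) = c ^ q * (y * x ^ q) := by rw [one_mul]; exact h3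
          exact (mul_right_cancel h4).symm
        have h3 : c ^ q.choose 2 = 1 := by
          have h4 : q ∣ q.choose 2 := hq.out.dvd_choose_self (by norm_num) (by
            have := hq.out.two_le
            omega)
          obtain ⟨m, hm⟩ := h4
          rw [hm, pow_mul, h2, one_pow]
        rw [h1, h3, inv_mul_cancel, mul_one]
      set u' := s⁻¹ * u * s with hu'
      have hu'Q : u' ∈ Q := hcQ' u huQ
      have hu'1 : u' ^ q = 1 := by
        have h2 : u' = s⁻¹ * u * (s⁻¹)⁻¹ := by rw [inv_inv]
        rw [h2, conj_pow, hu1]; group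
      have hfix : ∀ v, ρ u' v = v → ρ u v = v := by
        intro v hv
        refine fix_of_fix (s := s) (fun v => ?_) (fun v => ?_) hv
        · have := hN 1 (one_mem Q) v
          rwa [one_mul, inv_one, mul_one] at this
        · have h1 := hN x⁻¹ (inv_mem hxQ) v
          have h2 : x⁻¹ * s * x⁻¹⁻¹ = s * u := by rw [hu, hy]; group
          rwa [h2] at h1
      set z := u * u' * u⁻¹ * u'⁻¹ with hz
      have hzD : z ∈ D := hcomm u huQ u' hu'Q
      have hzu : u * u' = z * (u' * u) := by rw [hz]; group
      have hzq : z ^ q = 1 := by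
        have h3 := pow_comm_eq hzu (hDc z hzD u huQ) q
        rw [hu1, one_mul, mul_one] at h3
        have h4 : 1 * u' = z ^ q * u' := by rw [one_mul]; exact h3
        exact (mul_right_cancel h4).symm
      have hz1 : z ≠ 1 := by
        intro h
        rw [h, one_mul] at hzu
        -- the abelian group generated by `u`, `u'` and `D`
        apply hab
        set W : Subgroup Γ := closure (({u, u'} : Set Γ) ∪ (D : Set Γ)) with hW
        have huW : u ∈ W := subset_closure (by simp)
        have hu'W : u' ∈ W := subset_closure (by simp)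
        have hDW : D ≤ W := fun d hd => subset_closure (Or.inr hd)
        have hWQ : W ≤ Q := by
          rw [hW, closure_le]
          rintro a ((rfl | rfl) | ha)
          · exact huQ
          · exact hu'Q
          · exact hDQ ha
        have hu'' : s⁻¹ * u' * s ∈ W := by
          set u'' := s⁻¹ * u' * s with hu''
          have hu''Q : u'' ∈ Q := hcQ' _ hu'Q
          have h1 : u * u' * u'' ∈ D := by
            apply hfixD _ (mul_mem (mul_mem huQ hu'Q) hu''Q)
            have e1 : s * u * s⁻¹ = u'' := by rw [hu'', hu', hs2']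
            have e2 : s * u' * s⁻¹ = u := by rw [hu']; group
            have e3 : s * u'' * s⁻¹ = u' := by rw [hu'']; group
            have e4 : s * (u * u' * u'') * s⁻¹ = u'' * u * u' := by
              calc s * (u * u' * u'') * s⁻¹ = (s * u * s⁻¹) * (s * u' * s⁻¹) * (s * u'' * s⁻¹) := by
                    group
                _ = _ := by rw [e1, e2, e3]
            rw [e4]
            have h2 := hcomm u'' hu''Q (u * u') (mul_mem huQ hu'Q)
            have e5 : u'' * u * u' * (u * u' * u'')⁻¹ = u'' * (u * u') * u''⁻¹ * (u * u')⁻¹ := by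
              group
            rw [e5]; exact h2
          have h2 : u'' = (u * u')⁻¹ * (u * u' * u'') := by group
          rw [h2]
          exact mul_mem (inv_mem (mul_mem huW hu'W)) (hDW h1)
        have hsW : ∀ w ∈ W, s⁻¹ * w * s ∈ W := by
          intro w hw
          induction hw using closure_induction with
          | mem w hw =>
            rcases hw with (rfl | rfl) | hw
            · exact hu'W
            · exact hu''
            · rw [hsd' w hw]; exact hDW hw
          | one => simp
          | mul a b _ _ ha hb =>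
            have : s⁻¹ * (a * b) * s = (s⁻¹ * a * s) * (s⁻¹ * b * s) := by group
            rw [this]; exact mul_mem ha hb
          | inv a _ ha =>
            have : s⁻¹ * a⁻¹ * s = (s⁻¹ * a * s)⁻¹ := by group
            rw [this]; exact inv_mem ha
        have hsW' : s ∈ normalizer (W : Set Γ) := by
          rw [mem_normalizer_iff]
          intro w
          constructor
          · intro hw
            rw [← hs2']
            exact hsW _ (hsW _ hw)
          · intro hw
            have := hsW _ hw
            have h2 : s⁻¹ * (s * w * s⁻¹) * s = w := by group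
            rwa [h2] at this
        have hWeq : W = Q := by
          by_contra hne
          exact huD (hprop W hWQ hne hsW' huW)
        have hcommW : ∀ a ∈ W, ∀ b ∈ W, a * b = b * a := by
          have hgen : ∀ a ∈ (({u, u'} : Set Γ) ∪ (D : Set Γ)),
              ∀ b ∈ (({u, u'} : Set Γ) ∪ (D : Set Γ)), a * b = b * a := by
            rintro a ((rfl | rfl) | ha) b ((rfl | rfl) | hb)
            · rfl
            · exact hzu
            · exact (hDcent b hb _ huQ).symm
            · exact hzu.symm
            · rfl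
            · exact (hDcent b hb _ hu'Q).symm
            · exact hDcent a ha _ huQ
            · exact hDcent a ha _ hu'Q
            · exact hDcent a ha _ (hDQ hb)
          have hle : W ≤ centralizer (W : Set Γ) := by
            rw [hW, centralizer_closure, closure_le]
            intro a ha
            rw [SetLike.mem_coe, mem_centralizer_iff]
            intro b hb
            exact hgen b hb a ha
          intro a ha b hb
          exact mem_centralizer_iff.mp (hle hb) a ha
        rw [← hWeq]
        exact hcommW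
      apply hz1
      apply hfaith z (hDQ hzD)
      ext v
      refine final_step hV hzq hu'1 (b := u) (by rw [hzu]; group) (hDc z hzD _ hu'Q)
        (hDc z hzD _ huQ) ?_ v
      intro v hv
      have h1 := hfix v hv
      have inv_fix : ∀ g : Γ, ρ g v = v → ρ g⁻¹ v = v := by
        intro g hg
        have := Split.zpow_apply_eq hg (-1)
        rwa [zpow_neg_one, ← map_inv] at this
      have hcomp : ∀ (a c : Γ) (x : V), ρ (a * c) x = ρ a (ρ c x) := by
        intro a c x; rw [map_mul]; rfl
      rw [hz, hcomp, hcomp, hcomp, inv_fix _ hv, inv_fix _ h1, hv, h1]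

end

end Cfsg.Agent.H71.SThree
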