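import Mathlib
import Cfsg.Agent.H71.SThree2

/-!
Part 3 of S4305: the case that `1 + s + s²` vanishes on the irreducible module `V`.
-/

set_option autoImplicit false
set_option linter.style.haveILetI false
set_option linter.unusedSimpArgs false

namespace Cfsg.Agent.H71.SThree

open Subgroup
open scoped commutatorElement

section

variable {Γ V : Type*} [Group Γ] [CommGroup V]

/-- fixed points of a subgroup -/
def fixV (ρ : Γ →* MulAut V) (B : Subgroup Γ) : Subgroup V where
  carrier := {v | ∀ b ∈ B, ρ b v = v}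
  one_mem' := fun _ _ => map_one _
  mul_mem' := fun {a c} ha hc b hb => by rw [map_mul, ha b hb, hc b hb]
  inv_mem' := fun {a} ha b hb => by rw [map_inv, ha b hb]

variable {ρ : Γ →* MulAut V}

theorem rho_comp (a b : Γ) (v : V) : ρ a (ρ b v) = ρ (a * b) v := by rw [map_mul]; rfl

theorem rho_inv_cancel (a : Γ) (v : V) : ρ a⁻¹ (ρ a v) = v := by
  rw [rho_comp, inv_mul_cancel, map_one]; rfl

theorem rho_cancel_inv (a : Γ) (v : V) : ρ a (ρ a⁻¹ v) = v := by
  rw [rho_comp, mul_inv_cancel, map_one]; rfl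

theorem rho_mem_fixV {B C : Subgroup Γ} {g : Γ} (h : ∀ b ∈ C, g⁻¹ * b * g ∈ B) {v : V}
    (hv : v ∈ fixV ρ B) : ρ g v ∈ fixV ρ C := by
  intro b hb
  rw [rho_comp]
  have h1 : b * g = g * (g⁻¹ * b * g) := by group
  rw [h1, ← rho_comp, hv _ (h b hb)]

/-- irreducibility -/
def Irr (ρ : Γ →* MulAut V) : Prop :=
  ∀ W : Subgroup V, (∀ γ, ∀ w ∈ W, ρ γ w ∈ W) → W = ⊥ ∨ W = ⊤

theorem Irr.fixV_eq (h : Irr ρ) (B : Subgroup Γ) [hB : B.Normal] : fixV ρ B = ⊥ ∨ fixV ρ B = ⊤ := by
  apply h
  intro γ w hw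
  refine rho_mem_fixV (fun b hb => ?_) hw
  have := hB.conj_mem b hb γ⁻¹
  rwa [inv_inv] at this

theorem eq_bot_of_fixV {B K : Subgroup Γ} (hBK : B ≤ K) (hfaith : ∀ x ∈ K, ρ x = 1 → x = 1)
    (h : fixV ρ B = ⊤) : B = ⊥ := by
  rw [eq_bot_iff]
  intro b hb
  rw [mem_bot]
  apply hfaith b (hBK hb)
  ext v
  have hv : v ∈ fixV ρ B := by rw [h]; trivial
  exact hv b hb

/-- a `p`-group acting on a nontrivial `p`-group has nontrivial fixed points -/
theorem fixV_ne_bot_of_isPGroup [Finite V] [Nontrivial V] {r : ℕ} [hr : Fact r.Prime]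
    (hV : IsPGroup r V) {R : Subgroup Γ} (hR : IsPGroup r R) : fixV ρ R ≠ ⊥ := by
  letI : MulAction R V := MulAction.compHom V (ρ.comp R.subtype)
  have hdvd : r ∣ Nat.card V := by
    obtain ⟨n, hn0, hn⟩ := hV.nontrivial_iff_card.mp inferInstance
    rw [hn]
    exact dvd_pow_self _ (ne_of_gt hn0)
  obtain ⟨b, hb, hb1⟩ := hR.exists_fixed_point_of_prime_dvd_card_of_fixed_point (α := V) hdvd
    (a := 1) (by
      rw [MulAction.mem_fixedPoints]
      intro g
      exact map_one (ρ (g : Γ)))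
  intro h
  apply hb1
  have h1 : b ∈ fixV ρ R := by
    intro g hg
    exact (MulAction.mem_fixedPoints.mp hb) ⟨g, hg⟩
  rw [h, mem_bot] at h1
  exact h1.symm

theorem N3_conj (g x : Γ) (v : V) : N3 ρ (g * x * g⁻¹) v = ρ g (N3 ρ x (ρ g⁻¹ v)) := by
  have e : ∀ v, ρ (g * x * g⁻¹) v = ρ g (ρ x (ρ g⁻¹ v)) := by
    intro v; rw [rho_comp, rho_comp, mul_assoc]
  unfold N3
  rw [map_mul (ρ g), map_mul (ρ g), rho_cancel_inv, e, e, rho_inv_cancel]

end

section

variable {Γ V : Type*} [Group Γ] [CommGroup V] [Finite Γ] [Finite V] [Nontrivial V]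
  {ρ : Γ →* MulAut V} {K : Subgroup Γ}

theorem s_trivial_solvable (hK : K.Normal) (hsol : Group.IsSolvable K) (hcop : (Nat.card K).Coprime 6)
    {s : Γ} (hs : s ^ 3 = 1) {r : ℕ} [hr : Fact r.Prime] (hV : IsPGroup r V) (hirr : Irr ρ)
    (hfaith : ∀ x ∈ K, ρ x = 1 → x = 1) (hN : ∀ v, N3 ρ s v = 1) : ∀ x ∈ K, s * x = x * s := by
  have hN' : ∀ g : Γ, ∀ v : V, N3 ρ (g * s * g⁻¹) v = 1 := by
    intro g v
    rw [N3_conj, hN, map_one]
  set F := Cfsg.fittingOf K with hF
  have hFK : F ≤ K := BG.fittingOf_le K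
  haveI hKn := hK
  haveI hFn : F.Normal := by
    rw [← normalizer_eq_top_iff, eq_top_iff]
    exact (le_normalizer_of_normal hK ⊤).trans (BG.normalizer_le_normalizer_fittingOf K)
  have hFnil : Group.IsNilpotent F := BG.fittingOf_isNilpotent K
  -- `s` centralizes `F`
  have hsF : ∀ x ∈ F, s * x = x * s := by
    have h1 : (centralizer ({s} : Set Γ)).subgroupOf F = ⊤ := by
      apply Frob.eq_top_of_sylow_le
      intro q hq
      obtain ⟨Q⟩ : Nonempty (Sylow q F) := inferInstance
      refine ⟨Q, ?_⟩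
      have hall := (Group.isNilpotent_of_finite_tfae (G := F)).out 0 3 |>.mp hFnil
      have hQn : (Q : Subgroup F).Normal := hall q hq Q
      haveI hQc : (Q : Subgroup F).Characteristic := Q.characteristic_of_normal hQn
      haveI hQΓ : ((Q : Subgroup F).map F.subtype).Normal := inferInstance
      have hQK : (Q : Subgroup F).map F.subtype ≤ K := (map_subtype_le _).trans hFK
      have hQp : IsPGroup q ((Q : Subgroup F).map F.subtype) := Q.2.map F.subtype
      have hcent : ∀ x ∈ (Q : Subgroup F).map F.subtype, s * x = x * s := by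
        by_cases hqr : q = r
        · subst hqr
          have h2 := fixV_ne_bot_of_isPGroup (ρ := ρ) hV hQp
          have h3 := (hirr.fixV_eq ((Q : Subgroup F).map F.subtype)).resolve_left h2
          have h4 := eq_bot_of_fixV hQK hfaith h3
          intro x hx
          rw [h4, mem_bot] at hx
          rw [hx, one_mul, mul_one]
        · by_cases hQb : (Q : Subgroup F).map F.subtype = ⊥
          · intro x hx
            rw [hQb, mem_bot] at hx
            rw [hx, one_mul, mul_one]
          have hqK : q ∣ Nat.card K := by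
            have h5 : q ∣ Nat.card ((Q : Subgroup F).map F.subtype) := by
              rcases hQp.card_eq_or_dvd with h | h
              · exact absurd (Subgroup.card_eq_one.1 h) hQb
              · exact h
            exact h5.trans (card_dvd_of_le hQK)
          have hq6 : ¬ q ∣ 6 := fun h =>
            hq.out.one_lt.ne' (Nat.dvd_one.mp (hcop ▸ Nat.dvd_gcd hqK h))
          have hq2 : q ≠ 2 := by rintro rfl; exact hq6 (by norm_num)
          have hq3 : q ≠ 3 := by rintro rfl; exact hq6 (by norm_num)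
          have hVq : (Nat.card V).Coprime q := by
            obtain ⟨n, hn⟩ := IsPGroup.iff_card.mp hV
            rw [hn]
            exact Nat.Coprime.pow_left _ ((Nat.coprime_primes hr.out hq.out).mpr (Ne.symm hqr))
          exact s_trivial hs hq2 hq3 hVq _ _ rfl hQp (le_normalizer_of_normal hQΓ ⊤ (mem_top s))
            (fun x hx => hfaith x (hQK hx)) (fun g _ => hN' g)
      intro x hx
      rw [mem_subgroupOf, mem_centralizer_singleton_iff]
      exact (hcent x ⟨x, hx, rfl⟩).symm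
    intro x hx
    have h2 : (⟨x, hx⟩ : F) ∈ (centralizer ({s} : Set Γ)).subgroupOf F := by rw [h1]; trivial
    rw [mem_subgroupOf, mem_centralizer_singleton_iff] at h2
    exact h2.symm
  have hsF' : ∀ x ∈ F, s * x * s⁻¹ = x := fun x hx => by rw [hsF x hx]; group
  have hsF'' : ∀ x ∈ F, s⁻¹ * x * s = x := fun x hx => by
    rw [mul_assoc, ← hsF x hx]; group
  intro x hx
  set d := s * x * s⁻¹ * x⁻¹ with hd
  have hdK : d ∈ K := mul_mem (hK.conj_mem x hx s) (inv_mem hx)
  have hdF : d ∈ F := by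
    apply BG.inf_centralizer_fittingOf_le hsol
    refine Subgroup.mem_inf.mpr ⟨hdK, ?_⟩
    rw [mem_centralizer_iff]
    intro f hf
    have h1 : x⁻¹ * f * x ∈ F := by
      have := hFn.conj_mem f hf x⁻¹
      rwa [inv_inv] at this
    have h2 : d * f * d⁻¹ = f := by
      calc d * f * d⁻¹ = s * (x * (s⁻¹ * (x⁻¹ * f * x) * s) * x⁻¹) * s⁻¹ := by rw [hd]; group
        _ = s * (x * (x⁻¹ * f * x) * x⁻¹) * s⁻¹ := by rw [hsF'' _ h1]
        _ = s * f * s⁻¹ := by group
        _ = f := hsF' f hf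
    calc f * d = (d * f * d⁻¹) * d := by rw [h2]
      _ = d * f := by group
  have h1 : s * x * s⁻¹ = d * x := by rw [hd]; group
  have h3 : ∀ n : ℕ, s ^ n * x * (s ^ n)⁻¹ = d ^ n * x := by
    intro n
    induction n with
    | zero => simp
    | succ n ih =>
      have h4 : s * d ^ n * s⁻¹ = d ^ n := hsF' _ (pow_mem hdF n)
      calc s ^ (n + 1) * x * (s ^ (n + 1))⁻¹ = s * (s ^ n * x * (s ^ n)⁻¹) * s⁻¹ := by
            rw [pow_succ']; group
        _ = (s * d ^ n * s⁻¹) * (s * x * s⁻¹) := by rw [ih]; group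
        _ = d ^ (n + 1) * x := by rw [h4, h1, pow_succ]; group
  have h4 := h3 3
  rw [hs, one_mul, inv_one, mul_one] at h4
  have h5 : d ^ 3 = 1 := by
    have : 1 * x = d ^ 3 * x := by rw [one_mul]; exact h4
    exact (mul_right_cancel this).symm
  have h6 : d = 1 := by
    have h7 : orderOf d ∣ 3 := orderOf_dvd_of_pow_eq_one h5
    rw [← orderOf_eq_one_iff]
    apply Nat.Coprime.eq_one_of_dvd _ h7
    exact Nat.Coprime.coprime_dvd_left (K.orderOf_dvd_natCard hdK)
      (Nat.Coprime.coprime_dvd_right (by norm_num) hcop)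
  rw [h6, one_mul] at h1
  exact mul_inv_eq_iff_eq_mul.mp h1

end

end Cfsg.Agent.H71.SThree
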