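import Mathlib
import Cfsg.Agent.H71.SThree3

/-!
Part 4 of S4305: hyperplanes of an elementary abelian normal subgroup and their fixed points.
-/

set_option autoImplicit false
set_option linter.style.haveILetI false
set_option linter.unusedSimpArgs false

namespace Cfsg.Agent.H71.SThree

open Subgroup
open scoped commutatorElement

section

variable {Γ V : Type*} [Group Γ] [CommGroup V] {ρ : Γ →* MulAut V} {K : Subgroup Γ} {s t : Γ}

theorem N3_fix (hs : s ^ 3 = 1) (v : V) : ρ s (N3 ρ s v) = N3 ρ s v := by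
  unfold N3
  rw [map_mul, map_mul]
  have h1 : ρ s (ρ s (ρ s v)) = v := by
    rw [rho_comp, rho_comp, ← pow_two, ← pow_succ, hs, map_one]; rfl
  rw [h1, mul_comm, mul_assoc]

theorem N3_fix_inv (hs : s ^ 3 = 1) (v : V) : ρ s⁻¹ (N3 ρ s v) = N3 ρ s v := by
  conv_lhs => rw [← N3_fix hs v]
  exact rho_inv_cancel s _

theorem N3_t (h : Cfg K s t) (hVf : ∀ v : V, ρ s v = v → ρ t v = v → v = 1) (v : V) :
    ρ t (N3 ρ s v) = (N3 ρ s v)⁻¹ := by
  set w := N3 ρ s v with hw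
  have h1 : s * t = t * s⁻¹ := by
    have h2 : t * s⁻¹ * t⁻¹ = s := by
      have := congrArg (·⁻¹) h.hst
      simp only [mul_inv_rev, inv_inv] at this
      calc t * s⁻¹ * t⁻¹ = t * (s⁻¹ * t⁻¹) := by group
        _ = s := this
    calc s * t = (t * s⁻¹ * t⁻¹) * t := by rw [h2]
      _ = t * s⁻¹ := by group
  have h2 : w * ρ t w = 1 := by
    apply hVf
    · rw [map_mul, rho_comp, h1, ← rho_comp, hw, N3_fix h.hs, N3_fix_inv h.hs]
    · rw [map_mul, rho_comp, ← pow_two, h.ht, map_one, mul_comm]; rfl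
  exact eq_inv_of_mul_eq_one_right h2

/-- hyperplanes with nontrivial fixed points -/
structure HPl (ρ : Γ →* MulAut V) (E : Subgroup Γ) (q : ℕ) (B : Subgroup Γ) : Prop where
  le : B ≤ E
  ne : fixV ρ B ≠ ⊥
  idx : B.relIndex E = q

/-- conjugate -/
abbrev cj (g : Γ) (B : Subgroup Γ) : Subgroup Γ := B.map (MulAut.conj g).toMonoidHom

theorem cj_eq_iff {g : Γ} {B : Subgroup Γ} : cj g B = B ↔ g ∈ normalizer (B : Set Γ) :=
  map_conj_eq_self_iff

theorem rho_mem_cj {B : Subgroup Γ} (g : Γ) {v : V} (hv : v ∈ fixV ρ B) : ρ g v ∈ fixV ρ (cj g B) :=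
  rho_mem_fixV (fun _ hb => mem_map_conj.mp hb) hv

theorem rho_mem_of_normalizer {B : Subgroup Γ} {g : Γ} (hg : g ∈ normalizer (B : Set Γ)) {v : V}
    (hv : v ∈ fixV ρ B) : ρ g v ∈ fixV ρ B := by
  have := rho_mem_cj g hv
  rwa [cj_eq_iff.mpr hg] at this

variable {E B B' : Subgroup Γ} {q : ℕ} [hq : Fact q.Prime]

theorem HPl.sup (h : HPl ρ E q B) {e : Γ} (he : e ∈ E) (heB : e ∉ B) : B ⊔ zpowers e = E := by
  have hle : B ⊔ zpowers e ≤ E := sup_le h.le (zpowers_le.mpr he)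
  have h1 := relIndex_mul_relIndex B (B ⊔ zpowers e) E le_sup_left hle
  rw [h.idx] at h1
  rcases (Nat.dvd_prime hq.out).mp (Dvd.intro _ h1) with h2 | h2
  · exfalso
    apply heB
    exact (relIndex_eq_one.mp h2) (mem_sup_right (mem_zpowers e))
  · rw [h2] at h1
    have h3 : (B ⊔ zpowers e).relIndex E = 1 := by
      have := hq.out.pos
      nlinarith
    exact le_antisymm hle (relIndex_eq_one.mp h3)

theorem HPl.fpf (h : HPl ρ E q B) (hE0 : fixV ρ E = ⊥) {e : Γ} (he : e ∈ E) (heB : e ∉ B) {v : V}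
    (hv : v ∈ fixV ρ B) (hev : ρ e v = v) : v = 1 := by
  have h1 : v ∈ fixV ρ E := by
    rw [← h.sup he heB]
    have h2 : B ⊔ zpowers e ≤ (MulAction.stabilizer (MulAut V) v).comap ρ := by
      apply sup_le
      · intro b hb; exact hv b hb
      · rw [zpowers_le]; exact hev
    intro b hb
    exact h2 hb
  rwa [hE0, mem_bot] at h1

omit hq in
theorem HPl.conj (h : HPl ρ E q B) (hEn : E.Normal) (g : Γ) : HPl ρ E q (cj g B) where
  le := by
    intro x hx
    have h1 := hEn.conj_mem _ (h.le (mem_map_conj.mp hx)) g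
    have h2 : g * (g⁻¹ * x * g) * g⁻¹ = x := by group
    rwa [h2] at h1
  ne := by
    intro h1
    apply h.ne
    rw [eq_bot_iff]
    intro v hv
    have h2 := rho_mem_cj g hv
    rw [h1, mem_bot] at h2
    rw [mem_bot]
    exact (ρ g).injective (by rw [h2, map_one])
  idx := by
    have h1 : (cj g B).relIndex (cj g E) = B.relIndex E :=
      relIndex_map_map_of_injective _ _ (MulAut.conj g).injective
    have hE : cj g E = E := cj_eq_iff.mpr (by rw [normalizer_eq_top_iff.mpr hEn]; trivial)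
    rwa [hE, h.idx] at h1

theorem HPl.sep [Finite Γ] (h : HPl ρ E q B) (h' : HPl ρ E q B') (hE0 : fixV ρ E = ⊥) (hne : B ≠ B') {v : V}
    (hv : v ∈ fixV ρ B) (hv' : v ∈ fixV ρ B') : v = 1 := by
  obtain ⟨e, he, heB⟩ : ∃ e ∈ B', e ∉ B := by
    by_contra hcon
    push Not at hcon
    apply hne
    have hle : B' ≤ B := hcon
    have h1 := relIndex_mul_relIndex B' B E hle h.le
    rw [h.idx, h'.idx] at h1
    have h2 : B'.relIndex B = 1 := by
      have := hq.out.pos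
      exact Nat.eq_of_mul_eq_mul_right this (by rw [h1, one_mul])
    exact le_antisymm (relIndex_eq_one.mp h2) hle
  exact h.fpf hE0 (h'.le he) heB hv (hv' e he)

open Classical in
/-- the norm of a finite subgroup -/
noncomputable def normHom [Finite Γ] (ρ : Γ →* MulAut V) (B : Subgroup Γ) : V →* V :=
  letI := Fintype.ofFinite B
  ∏ b : B, (ρ (b : Γ)).toMonoidHom

open Classical in
theorem normHom_apply [Finite Γ] (ρ : Γ →* MulAut V) (B : Subgroup Γ) (v : V) :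
    letI := Fintype.ofFinite B
    normHom ρ B v = ∏ b : B, ρ (b : Γ) v := by
  rw [normHom, MonoidHom.finsetProd_apply]
  rfl

theorem normHom_mem [Finite Γ] (ρ : Γ →* MulAut V) (B : Subgroup Γ) (v : V) :
    normHom ρ B v ∈ fixV ρ B := by
  classical
  letI := Fintype.ofFinite B
  intro b hb
  rw [normHom_apply, map_prod]
  have : ∀ x : B, ρ b (ρ (x : Γ) v) = ρ (((⟨b, hb⟩ : B) * x : B) : Γ) v := by
    intro x; rw [rho_comp]; rfl
  simp_rw [this]
  exact Fintype.prod_equiv (Equiv.mulLeft (⟨b, hb⟩ : B)) _ _ (fun b => rfl)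

variable (hE0 : fixV ρ E = ⊥) (hEc : ∀ a ∈ E, ∀ b ∈ E, a * b = b * a)

include hE0 hEc in
theorem HPl.mem_ker [Finite Γ] (h : HPl ρ E q B) (h' : HPl ρ E q B') (hne : B ≠ B') {v : V}
    (hv : v ∈ fixV ρ B') : v ∈ (normHom ρ B).ker := by
  classical
  letI := Fintype.ofFinite B
  rw [MonoidHom.mem_ker]
  refine h.sep h' hE0 hne (normHom_mem ρ B v) ?_
  intro b' hb'
  rw [normHom_apply, map_prod]
  apply Finset.prod_congr rfl
  intro b _
  rw [rho_comp, hEc b' (h'.le hb') b (h.le b.2), ← rho_comp, hv b' hb']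

theorem HPl.eq_one_of_ker [Finite Γ] [Finite V] (h : HPl ρ E q B) (hEq : IsPGroup q E)
    (hqV : (Nat.card V).Coprime q) {v : V} (hv : v ∈ fixV ρ B) (hk : v ∈ (normHom ρ B).ker) :
    v = 1 := by
  classical
  letI := Fintype.ofFinite B
  rw [MonoidHom.mem_ker, normHom_apply] at hk
  have h1 : ∏ b : B, ρ (b : Γ) v = v ^ Fintype.card B := by
    rw [Finset.prod_congr rfl (fun (b : B) _ => hv b b.2), Finset.prod_const, Finset.card_univ]
  rw [h1, ← Nat.card_eq_fintype_card] at hk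
  have h2 : (Nat.card V).Coprime (Nat.card B) := by
    obtain ⟨n, hn⟩ := IsPGroup.iff_card.mp (hEq.to_le h.le)
    rw [hn]
    exact Nat.Coprime.pow_right _ hqV
  apply (powCoprime (G := V) (n := Nat.card B) h2).injective
  change v ^ Nat.card B = 1 ^ Nat.card B
  rw [hk, one_pow]

include hE0 hEc in
/-- images under elements not normalizing `B` -/
theorem HPl.rho_mem_ker [Finite Γ] (h : HPl ρ E q B) (hEn : E.Normal) {g : Γ}
    (hg : g ∉ normalizer (B : Set Γ)) {v : V} (hv : v ∈ fixV ρ B) :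
    ρ g v ∈ (normHom ρ B).ker :=
  h.mem_ker hE0 hEc (h.conj hEn g) (fun h1 => hg (cj_eq_iff.mp h1.symm)) (rho_mem_cj g hv)

/-- exponents of the action on `E / B` -/
theorem HPl.exists_exp (h : HPl ρ E q B) (hEc : ∀ a ∈ E, ∀ b ∈ E, a * b = b * a)
    (hEn : E.Normal) {g : Γ} (hg : g ∈ normalizer (B : Set Γ)) :
    ∃ k : ℤ, ∀ e ∈ E, (g * e * g⁻¹) * (e ^ k)⁻¹ ∈ B := by
  obtain ⟨e₀, he₀, heB⟩ : ∃ e ∈ E, e ∉ B := by
    by_contra hcon
    push Not at hcon
    have h1 : B.relIndex E = 1 := relIndex_eq_one.mpr hcon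
    rw [h.idx] at h1
    exact hq.out.one_lt.ne' h1
  have hsup := h.sup he₀ heB
  have hdec : ∀ e ∈ E, ∃ b ∈ B, ∃ m : ℤ, e = b * e₀ ^ m := by
    let S : Subgroup Γ :=
      { carrier := {x | ∃ b ∈ B, ∃ m : ℤ, x = b * e₀ ^ m}
        one_mem' := ⟨1, one_mem B, 0, by simp⟩
        mul_mem' := by
          rintro _ _ ⟨b, hb, m, rfl⟩ ⟨c, hc, n, rfl⟩
          refine ⟨b * c, mul_mem hb hc, m + n, ?_⟩
          have h1 := hEc (e₀ ^ m) (zpow_mem he₀ m) c (h.le hc)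
          calc b * e₀ ^ m * (c * e₀ ^ n) = b * (e₀ ^ m * c) * e₀ ^ n := by group
            _ = b * c * e₀ ^ (m + n) := by rw [h1, zpow_add]; group
        inv_mem' := by
          rintro _ ⟨b, hb, m, rfl⟩
          refine ⟨b⁻¹, inv_mem hb, -m, ?_⟩
          have h1 := hEc (e₀ ^ (-m)) (zpow_mem he₀ _) b⁻¹ (h.le (inv_mem hb))
          rw [mul_inv_rev, ← zpow_neg, h1] }
    have hle : B ⊔ zpowers e₀ ≤ S := by
      apply sup_le
      · intro b hb; exact ⟨b, hb, 0, by simp⟩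
      · rw [zpowers_le]; exact ⟨1, one_mem B, 1, by simp⟩
    intro e he
    rw [← hsup] at he
    exact hle he
  obtain ⟨b₁, hb₁, k, hk⟩ := hdec _ (hEn.conj_mem e₀ he₀ g)
  refine ⟨k, fun e he => ?_⟩
  obtain ⟨b, hb, m, rfl⟩ := hdec e he
  have hgb : g * b * g⁻¹ ∈ B := (mem_normalizer_iff.mp hg b).mp hb
  have cb1 : Commute b₁ e₀ := hEc _ (h.le hb₁) _ he₀
  have cb : Commute b e₀ := hEc _ (h.le hb) _ he₀
  have h1 : g * (b * e₀ ^ m) * g⁻¹ = (g * b * g⁻¹) * (b₁ ^ m * e₀ ^ (k * m)) := by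
    calc g * (b * e₀ ^ m) * g⁻¹ = (g * b * g⁻¹) * (g * e₀ ^ m * g⁻¹) := by group
      _ = (g * b * g⁻¹) * (b₁ * e₀ ^ k) ^ m := by rw [← conj_zpow, hk]
      _ = _ := by rw [(cb1.zpow_right k).mul_zpow, ← zpow_mul]
  have h2 : (b * e₀ ^ m) ^ k = b ^ k * e₀ ^ (k * m) := by
    rw [(cb.zpow_right m).mul_zpow, ← zpow_mul, mul_comm k m]
  rw [h1, h2]
  have h3 : (g * b * g⁻¹) * (b₁ ^ m * e₀ ^ (k * m)) * (b ^ k * e₀ ^ (k * m))⁻¹ =
      (g * b * g⁻¹) * (b₁ ^ m * (b ^ k)⁻¹) := by group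
  rw [h3]
  exact mul_mem hgb (mul_mem (zpow_mem hb₁ _) (inv_mem (zpow_mem hb _)))

/-- if `s, t` normalize `B` then `s` acts trivially on `E / B` -/
theorem HPl.s_trivial_mod (h : HPl ρ E q B) (hEc : ∀ a ∈ E, ∀ b ∈ E, a * b = b * a)
    (hEn : E.Normal) (hst : t * s * t⁻¹ = s⁻¹) (hs3 : s ^ 3 = 1)
    (hs : s ∈ normalizer (B : Set Γ)) (ht : t ∈ normalizer (B : Set Γ)) :
    ∀ e ∈ E, s * e * s⁻¹ * e⁻¹ ∈ B := by
  obtain ⟨k, hk⟩ := h.exists_exp hEc hEn hs
  have hinv : ∀ x ∈ B, x⁻¹ ∈ B := fun x hx => inv_mem hx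
  have hcE : ∀ g : Γ, ∀ e ∈ E, g * e * g⁻¹ ∈ E := fun g e he => hEn.conj_mem e he g
  have hcE' : ∀ g : Γ, ∀ e ∈ E, g⁻¹ * e * g ∈ E := fun g e he => by
    have := hEn.conj_mem e he g⁻¹
    rwa [inv_inv] at this
  have hcB : ∀ g ∈ normalizer (B : Set Γ), ∀ b ∈ B, g * b * g⁻¹ ∈ B := fun g hg b hb =>
    (mem_normalizer_iff.mp hg b).mp hb
  -- `s⁻¹ e s ≡ e ^ k`
  have h1 : ∀ e ∈ E, (s⁻¹ * e * s) * (e ^ k)⁻¹ ∈ B := by
    intro e he
    have h2 := hk _ (hcE' t e he)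
    have h3 := hcB t ht _ h2
    have h4 : t * (s * (t⁻¹ * e * t) * s⁻¹ * ((t⁻¹ * e * t) ^ k)⁻¹) * t⁻¹ =
        (s⁻¹ * e * s) * (e ^ k)⁻¹ := by
      have h5 : (t⁻¹ * e * t) ^ k = t⁻¹ * e ^ k * t := by
        have := conj_zpow (i := k) (a := t⁻¹) (b := e)
        rwa [inv_inv] at this
      rw [h5]
      calc t * (s * (t⁻¹ * e * t) * s⁻¹ * (t⁻¹ * e ^ k * t)⁻¹) * t⁻¹ =
          (t * s * t⁻¹) * e * (t * s * t⁻¹)⁻¹ * (e ^ k)⁻¹ := by group
        _ = _ := by rw [hst, inv_inv]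
    rwa [h4] at h3
  -- hence `s e s⁻¹ ≡ s⁻¹ e s`
  have h2 : ∀ e ∈ E, (s * e * s⁻¹) * (s⁻¹ * e * s)⁻¹ ∈ B := by
    intro e he
    have h3 := mul_mem (hk e he) (inv_mem (h1 e he))
    have h4 : s * e * s⁻¹ * (e ^ k)⁻¹ * (s⁻¹ * e * s * (e ^ k)⁻¹)⁻¹ =
        (s * e * s⁻¹) * (s⁻¹ * e * s)⁻¹ := by group
    rwa [h4] at h3
  intro e he
  -- `s⁻¹ e s = s (s e s⁻¹) s⁻¹`
  have h3 := hcB s⁻¹ (inv_mem hs) _ (h2 e he)
  have h4 : s⁻¹ * (s * e * s⁻¹ * (s⁻¹ * e * s)⁻¹) * s⁻¹⁻¹ = e * (s * e * s⁻¹)⁻¹ := by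
    have h5 : s * s = s⁻¹ := by
      rw [eq_inv_iff_mul_eq_one, ← pow_two, ← pow_succ, hs3]
    have h6 : s⁻¹ * s⁻¹ = s := by rw [← mul_inv_rev, h5, inv_inv]
    have h7 : s * e * s⁻¹ = s⁻¹ * (s⁻¹ * e * s) * s := by
      rw [show s⁻¹ * (s⁻¹ * e * s) * s = (s⁻¹ * s⁻¹) * e * (s * s) by simp only [mul_assoc], h6, h5]
    conv_rhs => rw [h7]
    simp only [mul_assoc, mul_inv_rev, inv_inv, inv_mul_cancel_left, mul_inv_cancel_left,
      mul_inv_cancel, mul_one]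
  rw [h4] at h3
  have h5 := inv_mem h3
  have h6 : (e * (s * e * s⁻¹)⁻¹)⁻¹ = s * e * s⁻¹ * e⁻¹ := by group
  rwa [h6] at h5

variable [Finite Γ] [Finite V] (h : Cfg K s t) (hEn : E.Normal) (hEK : E ≤ K)
  (hEq : IsPGroup q E) (hqV : (Nat.card V).Coprime q) (hq2 : q ≠ 2)
  (hVf : ∀ v : V, ρ s v = v → ρ t v = v → v = 1)

omit [Finite V] in
include h hEn hEK hEc in
/-- elements of `E ∖ B` centralized by `s` and inverted by `t` -/
theorem exists_z (hB : HPl ρ E q B) (hs : s ∈ normalizer (B : Set Γ))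
    (ht : t ∈ normalizer (B : Set Γ)) : ∃ z ∈ E, z ∉ B ∧ s * z = z * s ∧ t * z * t⁻¹ = z⁻¹ ∧
      ∀ e ∈ E, s * e * s⁻¹ * e⁻¹ ∈ B := by
  have h1 := hB.s_trivial_mod hEc hEn h.hst h.hs hs ht
  obtain ⟨e₀, he₀, heB⟩ : ∃ e ∈ E, e ∉ B := by
    by_contra hcon
    push Not at hcon
    have h1 : B.relIndex E = 1 := relIndex_eq_one.mpr hcon
    rw [hB.idx] at h1
    exact hq.out.one_lt.ne' h1
  have hcop : (Nat.card (zpowers s)).Coprime (Nat.card E) := by
    rw [Nat.card_zpowers]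
    refine Nat.Coprime.coprime_dvd_left (orderOf_dvd_of_pow_eq_one h.hs)
      (Nat.Coprime.coprime_dvd_right (card_dvd_of_le hEK) ?_)
    exact (Nat.Coprime.coprime_dvd_right (by norm_num) h.cop).symm
  have hEB : E ≤ normalizer (B : Set Γ) := by
    intro e he
    rw [mem_normalizer_iff]
    intro x
    constructor
    · intro hx
      rw [hEc e he x (hB.le hx), mul_inv_cancel_right]; exact hx
    · intro hx
      have h2 : x = e⁻¹ * (e * x * e⁻¹) * e := by group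
      rw [h2, hEc e⁻¹ (inv_mem he) _ (hB.le hx), inv_mul_cancel_right]
      exact hx
  obtain ⟨z, hz, hzB⟩ := Cop.fixed_points_quotient (zpowers s) E
    (le_normalizer_of_normal hEn _) hcop (Or.inr (Cop.isSolvable_of_le hEK h.solv)) B hB.le hEB
    (zpowers_le.mpr hs) e₀ he₀ (by
      intro a ha
      obtain ⟨k, hk⟩ := (mem_powers_iff_mem_zpowers.mpr ha)
      have hk' : s ^ k = a := hk
      rw [← hk']
      clear hk hk' ha
      induction k with
      | zero => simp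
      | succ k ih =>
        have h2 := (mem_normalizer_iff.mp hs _).mp ih
        have h3 : s ^ (k + 1) * e₀ * (s ^ (k + 1))⁻¹ * e₀⁻¹ =
            (s * (s ^ k * e₀ * (s ^ k)⁻¹ * e₀⁻¹) * s⁻¹) * (s * e₀ * s⁻¹ * e₀⁻¹) := by
          rw [pow_succ']; group
        rw [h3]
        exact mul_mem h2 (h1 e₀ he₀))
  obtain ⟨hzE, hzs⟩ := Subgroup.mem_inf.mp hz
  have hsz : s * z = z * s := mem_centralizer_iff.mp hzs s (mem_zpowers s)
  have hsz' : s⁻¹ * z * s = z := by rw [mul_assoc, ← hsz]; group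
  refine ⟨z, hzE, ?_, hsz, ?_, h1⟩
  · intro h2
    apply heB
    have h3 : e₀ = z * (e₀⁻¹ * z)⁻¹ := by group
    rw [h3]
    exact mul_mem h2 (inv_mem hzB)
  · have htz : t * z * t⁻¹ ∈ E := hEn.conj_mem z hzE t
    have h2 : z * (t * z * t⁻¹) = 1 := by
      apply h.fpf _ (hEK (mul_mem hzE htz))
      · have e1 : s * (t * z * t⁻¹) * s⁻¹ = t * z * t⁻¹ := by
          have h3 : t * s⁻¹ * t⁻¹ = s := by
            have := congrArg (·⁻¹) h.hst
            simp only [mul_inv_rev, inv_inv] at this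
            calc t * s⁻¹ * t⁻¹ = t * (s⁻¹ * t⁻¹) := by group
              _ = s := this
          calc s * (t * z * t⁻¹) * s⁻¹ =
              (t * s⁻¹ * t⁻¹) * (t * z * t⁻¹) * (t * s⁻¹ * t⁻¹)⁻¹ := by rw [h3]
            _ = t * (s⁻¹ * z * s) * t⁻¹ := by group
            _ = _ := by rw [hsz']
        calc s * (z * (t * z * t⁻¹)) * s⁻¹ = (s * z * s⁻¹) * (s * (t * z * t⁻¹) * s⁻¹) := by group
          _ = _ := by rw [e1, hsz]; group
      · have ht2 : t * t = 1 := by rw [← pow_two, h.ht]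
        calc t * (z * (t * z * t⁻¹)) * t⁻¹ = (t * z * t⁻¹) * ((t * t) * z * (t * t)⁻¹) := by group
          _ = (t * z * t⁻¹) * z := by rw [ht2]; group
          _ = z * (t * z * t⁻¹) := hEc _ htz _ hzE
    exact eq_inv_of_mul_eq_one_right h2

omit [Finite V] in
include h hEn hEK hEc hEq hE0 hq2 hVf in
/-- **T1** -/
theorem N3_eq_one (hB : HPl ρ E q B) (hs : s ∈ normalizer (B : Set Γ)) {v : V}
    (hv : v ∈ fixV ρ B) : N3 ρ s v = 1 := by
  have hw : N3 ρ s v ∈ fixV ρ B := by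
    have h1 := rho_mem_of_normalizer hs hv
    exact mul_mem (mul_mem hv h1) (rho_mem_of_normalizer hs h1)
  have hwt := N3_t h hVf v
  set w := N3 ρ s v with hwdef
  by_cases ht : t ∈ normalizer (B : Set Γ)
  · obtain ⟨z, hzE, hzB, hsz, htz, -⟩ := exists_z hEc h hEn hEK hB hs ht
    have h1 : N3 ρ s (ρ z v) = ρ z w := by
      rw [hwdef]
      unfold N3
      rw [map_mul, map_mul, rho_comp, hsz, ← rho_comp, rho_comp s z, hsz, ← rho_comp]
    have h2 := N3_t h hVf (ρ z v)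
    rw [h1, rho_comp] at h2
    have h3 : t * z = z⁻¹ * t := by rw [← htz]; group
    rw [h3, ← rho_comp, hwt, ← map_inv] at h2
    -- `ρ z⁻¹ y = ρ z y`
    set y := w⁻¹ with hy
    have h4 : ρ (z * z) y = y := by
      rw [← rho_comp, ← h2, rho_comp, mul_inv_cancel, map_one]; rfl
    have h5 : ρ z y = y := by
      have h6 : (orderOf z).Coprime 2 := by
        obtain ⟨k, hk⟩ := hEq.exists_orderOf_eq_pow (⟨z, hzE⟩ : E)
        rw [Subgroup.orderOf_mk] at hk
        rw [hk]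
        exact Nat.Coprime.pow_left _ ((Nat.coprime_primes hq.out Nat.prime_two).mpr hq2)
      obtain ⟨m, hm⟩ := exists_pow_eq_self_of_coprime h6.symm
      have h7 := Split.zpow_apply_eq h4 m
      rw [zpow_natCast, ← map_pow, ← pow_two, hm] at h7
      exact h7
    have h6 := hB.fpf hE0 hzE hzB (inv_mem hw) h5
    exact inv_eq_one.mp h6
  · have h1 := rho_mem_cj t hw
    rw [hwt] at h1
    have h2 := hB.sep (hB.conj hEn t) hE0 (fun h3 => ht (cj_eq_iff.mp h3.symm)) (inv_mem hw) h1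
    exact inv_eq_one.mp h2

include h hEn hEc hEq hE0 hqV hVf in
/-- **T2a** -/
theorem t_inverts (hB : HPl ρ E q B) (hs : s ∉ normalizer (B : Set Γ))
    (ht : t ∈ normalizer (B : Set Γ)) {v : V} (hv : v ∈ fixV ρ B) : ρ t v = v⁻¹ := by
  have h0 := N3_t h hVf v
  have h1 : N3 ρ s v * ρ t (N3 ρ s v) = 1 := by rw [h0, mul_inv_cancel]
  have hs2 : s * s ∉ normalizer (B : Set Γ) := by
    intro h2
    apply hs
    have h3 : s = (s * s) * (s * s) := by
      have : s ^ 4 = s := by rw [pow_succ, h.hs, one_mul]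
      calc s = s ^ 4 := this.symm
        _ = (s * s) * (s * s) := by rw [pow_succ, pow_succ, pow_two]; group
    rw [h3]
    exact mul_mem h2 h2
  have hmem : ∀ g : Γ, g ∉ normalizer (B : Set Γ) → ρ g v ∈ (normHom ρ B).ker := fun g hg =>
    hB.rho_mem_ker hE0 hEc hEn hg hv
  have m1 := hmem s hs
  have m2 := hmem (s * s) hs2
  have m3 := hmem (t * s) (fun h2 => hs ((mul_mem_cancel_left ht).mp h2))
  have m4 := hmem (t * (s * s)) (fun h2 => hs2 ((mul_mem_cancel_left ht).mp h2))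
  unfold N3 at h1
  rw [map_mul, map_mul, rho_comp s s, rho_comp t s, rho_comp t (s * s)] at h1
  have h2 : v * ρ t v = (ρ s v * ρ (s * s) v * ρ (t * s) v * ρ (t * (s * s)) v)⁻¹ := by
    apply eq_inv_of_mul_eq_one_left
    rw [← h1]
    simp only [mul_assoc, mul_left_comm, mul_comm]
  have h3 : v * ρ t v ∈ (normHom ρ B).ker := by
    rw [h2]
    exact inv_mem (mul_mem (mul_mem (mul_mem m1 m2) m3) m4)
  have h4 := hB.eq_one_of_ker hEq hqV (mul_mem hv (rho_mem_of_normalizer ht hv)) h3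
  exact eq_inv_of_mul_eq_one_right h4

include h hEn hEc hEq hE0 hqV hVf in
/-- **T2b** -/
theorem exists_normalizes_t (hB : HPl ρ E q B) (hs : s ∉ normalizer (B : Set Γ)) :
    t ∈ normalizer (B : Set Γ) ∨ t * s ∈ normalizer (B : Set Γ) ∨
      t * (s * s) ∈ normalizer (B : Set Γ) := by
  by_contra hcon
  push Not at hcon
  obtain ⟨c1, c2, c3⟩ := hcon
  apply hB.ne
  rw [eq_bot_iff]
  intro v hv
  rw [mem_bot]
  have h0 := N3_t h hVf v
  have h1 : N3 ρ s v * ρ t (N3 ρ s v) = 1 := by rw [h0, mul_inv_cancel]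
  have hs2 : s * s ∉ normalizer (B : Set Γ) := by
    intro h2
    apply hs
    have h3 : s = (s * s) * (s * s) := by
      have : s ^ 4 = s := by rw [pow_succ, h.hs, one_mul]
      calc s = s ^ 4 := this.symm
        _ = (s * s) * (s * s) := by rw [pow_succ, pow_succ, pow_two]; group
    rw [h3]
    exact mul_mem h2 h2
  have hmem : ∀ g : Γ, g ∉ normalizer (B : Set Γ) → ρ g v ∈ (normHom ρ B).ker := fun g hg =>
    hB.rho_mem_ker hE0 hEc hEn hg hv
  have m1 := hmem s hs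
  have m2 := hmem (s * s) hs2
  have m3 := hmem (t * s) c2
  have m4 := hmem (t * (s * s)) c3
  have m5 := hmem t c1
  unfold N3 at h1
  rw [map_mul, map_mul, rho_comp s s, rho_comp t s, rho_comp t (s * s)] at h1
  have h2 : v = (ρ t v * ρ s v * ρ (s * s) v * ρ (t * s) v * ρ (t * (s * s)) v)⁻¹ := by
    apply eq_inv_of_mul_eq_one_left
    rw [← h1]
    simp only [mul_assoc, mul_left_comm, mul_comm]
  have h3 : v ∈ (normHom ρ B).ker := by
    rw [h2]
    exact inv_mem (mul_mem (mul_mem (mul_mem (mul_mem m5 m1) m2) m3) m4)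
  exact hB.eq_one_of_ker hEq hqV hv h3

end

end Cfsg.Agent.H71.SThree
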