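import Mathlib
import Cfsg.Agent.H71.SThree4
import Cfsg.Agent.Frob.Aut

/-!
Part 5 of S4305: hyperplanes with fixed points and the orbit dichotomy; `K` is abelian if it acts
faithfully on an irreducible module.
-/

set_option autoImplicit false
set_option linter.style.haveILetI false
set_option linter.unusedSimpArgs false

namespace Cfsg.Agent.H71.SThree

open Subgroup
open scoped commutatorElement Pointwise

section

variable {Γ V : Type*} [Group Γ] [CommGroup V] [Finite Γ] [Finite V] {ρ : Γ →* MulAut V}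
  {K : Subgroup Γ} {s t : Γ}

/-- an elementary abelian normal subgroup without fixed points -/
theorem exists_E [Nontrivial V] (h : Cfg K s t) {r : ℕ} [hr : Fact r.Prime] (hV : IsPGroup r V)
    (hirr : Irr ρ) (hfaith : ∀ x ∈ K, ρ x = 1 → x = 1) (hK1 : K ≠ ⊥) :
    ∃ (q : ℕ) (E : Subgroup Γ), q.Prime ∧ q ≠ 2 ∧ (Nat.card V).Coprime q ∧ E.Normal ∧ E ≤ K ∧
      (∀ a ∈ E, ∀ b ∈ E, a * b = b * a) ∧ IsPGroup q E ∧ (∀ e ∈ E, e ^ q = 1) ∧
      fixV ρ E = ⊥ := by
  haveI : Nontrivial K := nontrivial_iff_ne_bot K |>.mpr hK1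
  haveI := h.normal
  obtain ⟨q, E0, hqp, hchar, hcomm, hpg, hne, hexp⟩ := Frob.exists_characteristic_abelian h.solv
  haveI : Fact q.Prime := ⟨hqp⟩
  set E := E0.map K.subtype with hE
  have hEK : E ≤ K := map_subtype_le _
  have hEp : IsPGroup q E := hpg.map K.subtype
  have hEn : E.Normal := inferInstance
  have hEne : E ≠ ⊥ := by
    intro h1
    exact hne ((map_eq_bot_iff_of_injective _ K.subtype_injective).mp h1)
  have hEc : ∀ a ∈ E, ∀ b ∈ E, a * b = b * a := by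
    rintro _ ⟨a, ha, rfl⟩ _ ⟨b, hb, rfl⟩
    rw [← map_mul, ← map_mul]
    congr 1
    exact setLike_mul_comm ha hb
  have hEe : ∀ e ∈ E, e ^ q = 1 := by
    rintro _ ⟨a, ha, rfl⟩
    rw [← map_pow, hexp a ha, map_one]
  have hqE : q ∣ Nat.card E := by
    rcases hEp.card_eq_or_dvd with h | h
    · exact absurd (Subgroup.card_eq_one.1 h) hEne
    · exact h
  have hqK : q ∣ Nat.card K := hqE.trans (card_dvd_of_le hEK)
  have hq2 : q ≠ 2 := by
    rintro rfl
    have h1 : 2 ∣ Nat.gcd (Nat.card K) 6 := Nat.dvd_gcd hqK (by norm_num)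
    rw [h.cop] at h1
    norm_num at h1
  have hnt : fixV ρ E ≠ ⊤ := fun h1 => hEne (eq_bot_of_fixV hEK hfaith h1)
  have hE0 : fixV ρ E = ⊥ := (hirr.fixV_eq E).resolve_right hnt
  have hqr : q ≠ r := by
    rintro rfl
    exact fixV_ne_bot_of_isPGroup (ρ := ρ) hV hEp hE0
  refine ⟨q, E, hqp, hq2, ?_, hEn, hEK, hEc, hEp, hEe, hE0⟩
  obtain ⟨n, hn⟩ := IsPGroup.iff_card.mp hV
  rw [hn]
  exact Nat.Coprime.pow_left _ ((Nat.coprime_primes hr.out hqp).mpr (Ne.symm hqr))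

/-- a hyperplane with fixed points -/
theorem exists_HPl [Nontrivial V] {q : ℕ} [hq : Fact q.Prime] {E : Subgroup Γ}
    (hEc : ∀ a ∈ E, ∀ b ∈ E, a * b = b * a) (hEe : ∀ e ∈ E, e ^ q = 1) (hE0 : fixV ρ E = ⊥) :
    ∃ B : Subgroup Γ, HPl ρ E q B := by
  obtain ⟨B, hB⟩ := (Set.toFinite {B : Subgroup Γ | B ≤ E ∧ fixV ρ B ≠ ⊥}).exists_maximal
    ⟨⊥, bot_le, by
      intro h1
      obtain ⟨v, hv⟩ := exists_ne (1 : V)
      apply hv
      rw [← mem_bot, ← h1]
      intro b hb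
      rw [mem_bot.mp hb, map_one]; rfl⟩
  obtain ⟨hBE, hBne⟩ := hB.prop
  refine ⟨B, hBE, hBne, ?_⟩
  set W := fixV ρ B with hW
  have hWinv : ∀ e ∈ E, ∀ w ∈ W, ρ e w ∈ W := by
    intro e he w hw
    refine rho_mem_fixV (fun b hb => ?_) hw
    rw [mul_assoc, ← hEc e he b (hBE hb), inv_mul_cancel_left]
    exact hb
  let f0 : E →* MulAut W :=
    { toFun := fun e => Frob.autRestrict (ρ (e : Γ)) W (hWinv e e.2)
      map_one' := by
        ext w
        rw [Frob.autRestrict_coe]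
        simp
      map_mul' := by
        intro a b
        ext w
        rw [Frob.autRestrict_coe, MulAut.mul_apply, Frob.autRestrict_coe, Frob.autRestrict_coe,
          Subgroup.coe_mul, map_mul]
        rfl }
  have hf0 : ∀ (e : E) (w : W), ((f0 e w : W) : V) = ρ (e : Γ) w := fun e w => rfl
  -- the kernel
  have hker : ∀ e : E, ∀ w : W, f0 e w = w → w ≠ 1 → (e : Γ) ∈ B := by
    intro e w hw hw1
    by_contra heB
    have h1 : B ⊔ zpowers (e : Γ) ∈ {B : Subgroup Γ | B ≤ E ∧ fixV ρ B ≠ ⊥} := by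
      refine ⟨sup_le hBE (zpowers_le.mpr e.2), ?_⟩
      intro h2
      apply hw1
      have h3 : (w : V) ∈ fixV ρ (B ⊔ zpowers (e : Γ)) := by
        have h4 : B ⊔ zpowers (e : Γ) ≤ (MulAction.stabilizer (MulAut V) (w : V)).comap ρ := by
          apply sup_le
          · intro b hb; exact w.2 b hb
          · rw [zpowers_le]
            have := congrArg Subtype.val hw
            rw [hf0] at this
            exact this
        intro b hb
        exact h4 hb
      rw [h2, mem_bot] at h3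
      exact Subtype.ext h3
    have h2 := hB.le_of_ge h1 le_sup_left
    exact heB (h2 (mem_sup_right (mem_zpowers _)))
  have hWnt : Nontrivial W := nontrivial_iff_ne_bot W |>.mpr hBne
  have hkerf : f0.ker = B.subgroupOf E := by
    ext e
    rw [MonoidHom.mem_ker, mem_subgroupOf]
    constructor
    · intro h1
      obtain ⟨w, hw⟩ := exists_ne (1 : W)
      exact hker e w (by rw [h1]; rfl) hw
    · intro h1
      ext w
      rw [hf0]
      exact w.2 _ h1
  have hcomm : ∀ a b : f0.range, a * b = b * a := by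
    rintro ⟨_, a, rfl⟩ ⟨_, b, rfl⟩
    apply Subtype.ext
    change f0 a * f0 b = f0 b * f0 a
    rw [← map_mul, ← map_mul]
    congr 1
    exact Subtype.ext (hEc _ a.2 _ b.2)
  letI : CommGroup f0.range := { (inferInstance : Group f0.range) with mul_comm := hcomm }
  let cc : f0.range →* MulAut W := f0.range.subtype
  have hfpf : Frob.IsFPF cc := by
    rintro ⟨_, e, rfl⟩ hne w hw
    by_contra hw1
    apply hne
    apply Subtype.ext
    change f0 e = 1
    rw [← MonoidHom.mem_ker, hkerf, mem_subgroupOf]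
    exact hker e w hw hw1
  have hcyc : IsCyclic f0.range :=
    Frob.IsFPF.isCyclic_of_comm (A := f0.range) (W := W) (φ := cc) hfpf
  obtain ⟨g, hg⟩ : ∃ g : f0.range, ∀ x, x ∈ zpowers g := hcyc.exists_zpow_surjective
  have hgo : orderOf g = Nat.card f0.range := orderOf_eq_card_of_forall_mem_zpowers hg
  have hgq : g ^ q = 1 := by
    obtain ⟨_, e, rfl⟩ := g
    apply Subtype.ext
    change f0 e ^ q = 1
    rw [← map_pow]
    have : e ^ q = 1 := Subtype.ext (hEe _ e.2)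
    rw [this, map_one]
  have h1 : Nat.card f0.range ∣ q := hgo ▸ orderOf_dvd_of_pow_eq_one hgq
  have h2 : B.relIndex E = Nat.card f0.range := by
    rw [relIndex, ← hkerf, index_ker]
  rw [h2]
  rcases (Nat.dvd_prime hq.out).mp h1 with h3 | h3
  · exfalso
    rw [← h2] at h3
    have h4 : E ≤ B := relIndex_eq_one.mp h3
    apply hBne
    rw [hW, le_antisymm hBE h4, hE0]
  · exact h3

omit [Finite Γ] in
theorem Cfg.twist (h : Cfg K s t) (i : ℕ) : Cfg K s (t * s ^ i) where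
  hs := h.hs
  ht := by
    have h1 : t * s ^ i * t⁻¹ = (s⁻¹) ^ i := by rw [← conj_pow, h.hst]
    have h2 : t⁻¹ = t := by rw [inv_eq_iff_mul_eq_one, ← pow_two, h.ht]
    rw [pow_two]
    calc t * s ^ i * (t * s ^ i) = (t * s ^ i * t⁻¹) * s ^ i := by rw [h2]; group
      _ = 1 := by rw [h1, inv_pow, inv_mul_cancel]
  hst := by
    calc t * s ^ i * s * (t * s ^ i)⁻¹ = t * s * t⁻¹ := by group
      _ = s⁻¹ := h.hst
  normal := h.normal
  solv := h.solv
  cop := h.cop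
  fpf := fun x hx h1 h2 => h.fpf x hx h1 (by
    have h3 : s ^ i * x * (s ^ i)⁻¹ = x := by
      have h4 : Commute s x := mul_inv_eq_iff_eq_mul.mp h1
      rw [(h4.pow_left i).eq, mul_inv_cancel_right]
    calc t * x * t⁻¹ = t * (s ^ i * x * (s ^ i)⁻¹) * t⁻¹ := by rw [h3]
      _ = t * s ^ i * x * (t * s ^ i)⁻¹ := by group
      _ = x := h2)

omit [Finite Γ] [Finite V] in
theorem twist_V (hVf : ∀ v : V, ρ s v = v → ρ t v = v → v = 1) (i : ℕ) (v : V)
    (h1 : ρ s v = v) (h2 : ρ (t * s ^ i) v = v) : v = 1 := by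
  apply hVf v h1
  have h3 : ∀ n : ℕ, ρ (s ^ n) v = v := by
    intro n
    induction n with
    | zero => simp
    | succ n ih => rw [pow_succ, ← rho_comp, h1, ih]
  rwa [← rho_comp, h3] at h2

theorem cj_mem_normalizer_iff {G : Type*} [Group G] {g x : G} {B : Subgroup G} :
    g ∈ normalizer (cj x B : Set G) ↔ x⁻¹ * g * x ∈ normalizer (B : Set G) := by
  rw [mem_normalizer_iff, mem_normalizer_iff]
  constructor
  · intro h y
    have h1 := h (x * y * x⁻¹)
    rw [mem_map_conj, mem_map_conj] at h1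
    have e1 : x⁻¹ * (x * y * x⁻¹) * x = y := by group
    have e2 : x⁻¹ * (g * (x * y * x⁻¹) * g⁻¹) * x = x⁻¹ * g * x * y * (x⁻¹ * g * x)⁻¹ := by group
    rwa [e1, e2] at h1
  · intro h y
    have h1 := h (x⁻¹ * y * x)
    rw [mem_map_conj, mem_map_conj]
    have e2 : x⁻¹ * g * x * (x⁻¹ * y * x) * (x⁻¹ * g * x)⁻¹ = x⁻¹ * (g * y * g⁻¹) * x := by group
    rwa [e2] at h1

variable {E B : Subgroup Γ} {q : ℕ} [hq : Fact q.Prime] (hEc : ∀ a ∈ E, ∀ b ∈ E, a * b = b * a)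
  (hE0 : fixV ρ E = ⊥) (h : Cfg K s t) (hEn : E.Normal) (hEK : E ≤ K)
  (hEq : IsPGroup q E) (hqV : (Nat.card V).Coprime q) (hq2 : q ≠ 2)
  (hVf : ∀ v : V, ρ s v = v → ρ t v = v → v = 1)

include h hEn hEc hEq hE0 hqV hVf in
theorem exists_normalizes (hB : HPl ρ E q B) (hs : s ∉ normalizer (B : Set Γ)) :
    ∃ i < 3, t * s ^ i ∈ normalizer (B : Set Γ) := by
  rcases exists_normalizes_t hE0 hEc h hEn hEq hqV hVf hB hs with h1 | h1 | h1
  · exact ⟨0, by norm_num, by simpa using h1⟩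
  · exact ⟨1, by norm_num, by simpa using h1⟩
  · exact ⟨2, by norm_num, by simpa [pow_two] using h1⟩

omit [Finite Γ] [Finite V] hq in
include hEc in
theorem le_normalizer_of_le_abelian {B : Subgroup Γ} (hBE : B ≤ E) :
    E ≤ normalizer (B : Set Γ) := by
  intro e he
  rw [mem_normalizer_iff]
  intro x
  constructor
  · intro hx
    rw [hEc e he x (hBE hx), mul_inv_cancel_right]; exact hx
  · intro hx
    have h2 : x = e⁻¹ * (e * x * e⁻¹) * e := by group
    rw [h2, hEc e⁻¹ (inv_mem he) _ (hBE hx), inv_mul_cancel_right]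
    exact hx

include hEc hE0 h hEn hEK hEq hqV hq2 hVf in
/-- if one conjugate is not normalized by `s` but `s ∈ K N(B)`: contradiction -/
theorem dichotomy_aux (hgen : Acl s t ⊔ K = ⊤) (hB : HPl ρ E q B)
    (hsB : s ∉ normalizer (B : Set Γ)) (hsK : s ∈ K ⊔ normalizer (B : Set Γ)) : False := by
  obtain ⟨i, -, hi⟩ := exists_normalizes hEc hE0 h hEn hEq hqV hVf hB hsB
  have h2 := h.twist i
  have hVf2 := twist_V hVf i
  set g := t * s ^ i with hg
  have hgK : g ∈ K ⊔ normalizer (B : Set Γ) := mem_sup_right hi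
  have htK : t ∈ K ⊔ normalizer (B : Set Γ) := by
    have : t = g * (s ^ i)⁻¹ := by rw [hg]; group
    rw [this]
    exact mul_mem hgK (inv_mem (pow_mem hsK i))
  have hAle : Acl s t ≤ K ⊔ normalizer (B : Set Γ) := by
    rw [Acl, closure_le]
    rintro y (rfl | rfl)
    · exact hsK
    · exact htK
  haveI := h.normal
  obtain ⟨k, hk, hkN⟩ := Cop.exists_invariant (A := Acl s t) (K := K)
    (le_normalizer_of_normal h.normal _) h.cop_Acl (Or.inr h.solv) (P := B) (by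
      intro a ha
      obtain ⟨k, hk, n, hn, rfl⟩ := mem_sup_of_normal_left.mp (hAle ha)
      refine ⟨k, hk, ?_⟩
      rw [map_mul, mul_smul]
      congr 1
      exact cj_eq_iff.mpr hn)
  have hkN' : Acl s t ≤ normalizer (cj k B : Set Γ) := hkN
  set B0 := cj k B with hB0d
  have hB0 : HPl ρ E q B0 := hB.conj hEn k
  have hs0 : s ∈ normalizer (B0 : Set Γ) := hkN' (subset_closure (by simp))
  have ht0 : t ∈ normalizer (B0 : Set Γ) := hkN' (subset_closure (by simp))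
  have hg0 : g ∈ normalizer (B0 : Set Γ) := mul_mem ht0 (pow_mem hs0 i)
  obtain ⟨z, hzE, hzB0, hsz, hgz, -⟩ := exists_z hEc h2 hEn hEK hB0 hs0 hg0
  -- `g` acts trivially on `E / B`
  have h3 : ∀ e ∈ E, g * e * g⁻¹ * e⁻¹ ∈ B := by
    intro e he
    by_contra hne
    obtain ⟨v, hv, hv1⟩ : ∃ v ∈ fixV ρ B, v ≠ 1 := by
      by_contra hcon
      push Not at hcon
      apply hB.ne
      rw [eq_bot_iff]
      intro v hv
      exact hcon v hv
    apply hv1
    have hd : g * e * g⁻¹ * e⁻¹ ∈ E := mul_mem (hEn.conj_mem e he g) (inv_mem he)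
    refine hB.fpf hE0 hd hne hv ?_
    have hEN := le_normalizer_of_le_abelian hEc hB.le
    have hw := rho_mem_of_normalizer (hEN (inv_mem he)) hv
    have hinv : ∀ w ∈ fixV ρ B, ρ g w = w⁻¹ := fun w hw =>
      t_inverts hE0 hEc h2 hEn hEq hqV hVf2 hB hsB hi hw
    have hgi : g⁻¹ = g := by rw [inv_eq_iff_mul_eq_one, ← pow_two, h2.ht]
    have e1 : ρ (g * e * g⁻¹ * e⁻¹) v = ρ g (ρ e (ρ g (ρ e⁻¹ v))) := by
      rw [rho_comp, rho_comp, rho_comp]
      congr 2
      rw [hgi]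
    rw [e1, hinv _ hw, map_inv, rho_cancel_inv, hinv _ (inv_mem hv), inv_inv]
  -- the element `κ`
  set κ := k * g * k⁻¹ * g⁻¹ with hκ
  have hκK : κ ∈ K := by
    have e1 : κ = k * (g * k⁻¹ * g⁻¹) := by rw [hκ]; group
    rw [e1]
    exact mul_mem hk (h.normal.conj_mem _ (inv_mem hk) g)
  have hkgk : k * g * k⁻¹ ∈ normalizer (B0 : Set Γ) := by
    rw [hB0d, cj_mem_normalizer_iff]
    have e1 : k⁻¹ * (k * g * k⁻¹) * k = g := by group
    rwa [e1]
  have hκN : κ ∈ normalizer (B0 : Set Γ) := mul_mem hkgk (inv_mem hg0)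
  have h4 : ∀ e ∈ E, (k * g * k⁻¹) * e * (k * g * k⁻¹)⁻¹ * e⁻¹ ∈ B0 := by
    intro e he
    rw [hB0d, mem_map_conj]
    have he' : k⁻¹ * e * k ∈ E := by
      have := hEn.conj_mem e he k⁻¹
      rwa [inv_inv] at this
    have e1 : k⁻¹ * (k * g * k⁻¹ * e * (k * g * k⁻¹)⁻¹ * e⁻¹) * k =
        g * (k⁻¹ * e * k) * g⁻¹ * (k⁻¹ * e * k)⁻¹ := by group
    rw [e1]
    exact h3 _ he'
  have hgz' : g⁻¹ * z⁻¹ * g = z := by
    rw [← hgz]; group
  -- `b = κ z⁻¹ κ⁻¹ z⁻¹ ∈ B0`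
  have h5 : κ * z⁻¹ * κ⁻¹ * z⁻¹ ∈ B0 := by
    have e1 : κ * z⁻¹ * κ⁻¹ * z⁻¹ = (k * g * k⁻¹) * (g⁻¹ * z⁻¹ * g) * (k * g * k⁻¹)⁻¹ * z⁻¹ := by
      rw [hκ]; group
    rw [e1, hgz']
    exact h4 z hzE
  set b := κ * z⁻¹ * κ⁻¹ * z⁻¹ with hb
  have hcB : ∀ g ∈ normalizer (B0 : Set Γ), ∀ b ∈ B0, g * b * g⁻¹ ∈ B0 := fun g hg b hb =>
    (mem_normalizer_iff.mp hg b).mp hb
  have hzN : z ∈ normalizer (B0 : Set Γ) := le_normalizer_of_le_abelian hEc hB0.le hzE
  have h6 : (κ * κ) * z * (κ * κ)⁻¹ * z⁻¹ ∈ B0 := by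
    have e1 : κ * z * κ⁻¹ = z⁻¹ * b⁻¹ := by rw [hb]; group
    have e2 : (κ * κ) * z * (κ * κ)⁻¹ * z⁻¹ = b * (z * (κ * b⁻¹ * κ⁻¹) * z⁻¹) := by
      calc (κ * κ) * z * (κ * κ)⁻¹ * z⁻¹ = κ * (κ * z * κ⁻¹) * κ⁻¹ * z⁻¹ := by group
        _ = κ * (z⁻¹ * b⁻¹) * κ⁻¹ * z⁻¹ := by rw [e1]
        _ = (κ * z⁻¹ * κ⁻¹ * z⁻¹) * (z * (κ * b⁻¹ * κ⁻¹) * z⁻¹) := by group
        _ = _ := by rw [← hb]
    rw [e2]
    exact mul_mem h5 (hcB z hzN _ (hcB κ hκN _ (inv_mem h5)))
  have h7 : ∀ n : ℕ, (κ * κ) ^ n * z * ((κ * κ) ^ n)⁻¹ * z⁻¹ ∈ B0 := by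
    intro n
    induction n with
    | zero => simp
    | succ n ih =>
      have h8 := hcB _ (mul_mem hκN hκN) _ ih
      have h9 : (κ * κ) ^ (n + 1) * z * ((κ * κ) ^ (n + 1))⁻¹ * z⁻¹ =
          ((κ * κ) * ((κ * κ) ^ n * z * ((κ * κ) ^ n)⁻¹ * z⁻¹) * (κ * κ)⁻¹) *
            ((κ * κ) * z * (κ * κ)⁻¹ * z⁻¹) := by
        rw [pow_succ' (κ * κ) n]
        generalize (κ * κ) ^ n = w
        simp only [mul_assoc, mul_inv_rev, inv_mul_cancel_left]
      rw [h9]
      exact mul_mem h8 h6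
  have h8 : κ * z * κ⁻¹ * z⁻¹ ∈ B0 := by
    have h9 : (orderOf κ).Coprime 2 :=
      Nat.Coprime.coprime_dvd_left (K.orderOf_dvd_natCard hκK)
        (Nat.Coprime.coprime_dvd_right (by norm_num) h.cop)
    obtain ⟨m, hm⟩ := exists_pow_eq_self_of_coprime h9.symm
    have h10 := h7 m
    rwa [← pow_two, hm] at h10
  -- hence `z * z ∈ B0`
  have h9 : z * z ∈ B0 := by
    have e1 : κ * z * κ⁻¹ * z⁻¹ = z⁻¹ * b⁻¹ * z⁻¹ := by rw [hb]; group
    rw [e1] at h8
    have h10 := hcB z hzN _ (inv_mem h8)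
    have e2 : z * (z⁻¹ * b⁻¹ * z⁻¹)⁻¹ * z⁻¹ = (z * z) * b := by group
    rw [e2] at h10
    exact (mul_mem_cancel_right h5).mp h10
  apply hzB0
  have h10 : (orderOf z).Coprime 2 := by
    obtain ⟨k, hk⟩ := hEq.exists_orderOf_eq_pow (⟨z, hzE⟩ : E)
    rw [Subgroup.orderOf_mk] at hk
    rw [hk]
    exact Nat.Coprime.pow_left _ ((Nat.coprime_primes hq.out Nat.prime_two).mpr hq2)
  obtain ⟨m, hm⟩ := exists_pow_eq_self_of_coprime h10.symm
  rw [← hm, pow_two]
  exact pow_mem h9 m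

include hEc hE0 h hEn hEK hEq hqV hq2 hVf in
/-- **the orbit dichotomy** -/
theorem dichotomy (hgen : Acl s t ⊔ K = ⊤) (hB : HPl ρ E q B) :
    (∀ x ∈ K, s ∈ normalizer (cj x B : Set Γ)) ∨
      ∃ i : ℕ, ∀ x ∈ K, s ∉ normalizer (cj x B : Set Γ) ∧
        t * s ^ i ∈ normalizer (cj x B : Set Γ) := by
  haveI := h.normal
  have hsub : ∀ x ∈ K, ∀ g : Γ, g ∈ normalizer (cj x B : Set Γ) →
      g ∈ K ⊔ normalizer (B : Set Γ) := by
    intro x hx g hg
    rw [cj_mem_normalizer_iff] at hg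
    have e1 : g = x * (x⁻¹ * g * x) * x⁻¹ := by group
    rw [e1]
    exact mul_mem (mul_mem (mem_sup_left hx) (mem_sup_right hg)) (inv_mem (mem_sup_left hx))
  by_cases hs : s ∈ K ⊔ normalizer (B : Set Γ)
  · left
    intro x hx
    by_contra hcon
    apply dichotomy_aux hEc hE0 h hEn hEK hEq hqV hq2 hVf hgen (hB.conj hEn x) hcon
    -- `K N(B) = K N(cj x B)`
    obtain ⟨k, hk, n, hn, rfl⟩ := mem_sup_of_normal_left.mp hs
    have e1 : k * n = k * (x⁻¹ * (x * n * x⁻¹) * x) := by group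
    have h1 : x * n * x⁻¹ ∈ normalizer (cj x B : Set Γ) := by
      rw [cj_mem_normalizer_iff]
      have e2 : x⁻¹ * (x * n * x⁻¹) * x = n := by group
      rwa [e2]
    rw [e1]
    exact mul_mem (mem_sup_left hk)
      (mul_mem (mul_mem (mem_sup_left (inv_mem hx)) (mem_sup_right h1)) (mem_sup_left hx))
  · right
    have hsx : ∀ x ∈ K, s ∉ normalizer (cj x B : Set Γ) := fun x hx h1 => hs (hsub x hx s h1)
    have hs1 : s ∉ normalizer (B : Set Γ) := fun h1 => hs (mem_sup_right h1)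
    obtain ⟨i, hi3, hi⟩ := exists_normalizes hEc hE0 h hEn hEq hqV hVf hB hs1
    refine ⟨i, fun x hx => ⟨hsx x hx, ?_⟩⟩
    obtain ⟨j, hj3, hj⟩ := exists_normalizes hEc hE0 h hEn hEq hqV hVf (hB.conj hEn x) (hsx x hx)
    have hj' := hsub x hx _ hj
    have hi' : t * s ^ i ∈ K ⊔ normalizer (B : Set Γ) := mem_sup_right hi
    by_cases hij : i = j
    · rw [hij]; exact hj
    · exfalso
      apply hs
      have h1 : s ^ ((j : ℤ) - i) ∈ K ⊔ normalizer (B : Set Γ) := by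
        have e1 : s ^ ((j : ℤ) - i) = (t * s ^ i)⁻¹ * (t * s ^ j) := by group
        rw [e1]
        exact mul_mem (inv_mem hi') hj'
      have h2 : IsCoprime ((j : ℤ) - i) 3 := by
        rw [Int.isCoprime_iff_gcd_eq_one]
        interval_cases i <;> interval_cases j <;> first | exact absurd rfl hij | norm_num
      obtain ⟨a, b, hab⟩ := h2
      have e2 : s = (s ^ ((j : ℤ) - i)) ^ a * (s ^ (3 : ℤ)) ^ b := by
        rw [← zpow_mul, ← zpow_mul, ← zpow_add, mul_comm _ a, mul_comm _ b, hab, zpow_one]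
      have e3 : s ^ (3 : ℤ) = 1 := by exact_mod_cast h.hs
      rw [e2, e3, one_zpow, mul_one]
      exact zpow_mem h1 a

end

end Cfsg.Agent.H71.SThree
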