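import Mathlib
import Cfsg.Agent.H71.SThree5

/-!
Part 6 of S4305: the irreducible case and the main theorem.
-/

set_option autoImplicit false
set_option linter.style.haveILetI false
set_option linter.unusedSimpArgs false

namespace Cfsg.Agent.H71.SThree

open Subgroup
open scoped commutatorElement Pointwise

section

variable {Γ V : Type*} [Group Γ] [CommGroup V] [Finite Γ] [Finite V] {ρ : Γ →* MulAut V}
  {K : Subgroup Γ} {s t : Γ}

omit [Finite Γ] in
theorem Acl_conj (hst : t * s * t⁻¹ = s⁻¹) {a : Γ} (ha : a ∈ Acl s t) :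
    a * s * a⁻¹ = s ∨ a * s * a⁻¹ = s⁻¹ := by
  have key : ∀ g : Γ, g * s * g⁻¹ = s ∨ g * s * g⁻¹ = s⁻¹ →
      g * s⁻¹ * g⁻¹ = s ∨ g * s⁻¹ * g⁻¹ = s⁻¹ := by
    intro g hg
    have e : g * s⁻¹ * g⁻¹ = (g * s * g⁻¹)⁻¹ := by group
    rw [e]
    rcases hg with h | h
    · right; rw [h]
    · left; rw [h, inv_inv]
  induction ha using closure_induction with
  | mem x hx =>
    rcases hx with rfl | rfl
    · left; group
    · right; exact hst
  | one => left; group
  | mul x y hx hy ihx ihy =>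
    have e : x * y * s * (x * y)⁻¹ = x * (y * s * y⁻¹) * x⁻¹ := by group
    rw [e]
    rcases ihy with h | h
    · rw [h]; exact ihx
    · rw [h]; exact key x ihx
  | inv x hx ihx =>
    rcases ihx with h | h
    · left
      calc x⁻¹ * s * x⁻¹⁻¹ = x⁻¹ * (x * s * x⁻¹) * x := by rw [h]; group
        _ = s := by group
    · right
      calc x⁻¹ * s * x⁻¹⁻¹ = x⁻¹ * (x * s * x⁻¹)⁻¹ * x := by rw [h]; group
        _ = s⁻¹ := by group

omit [Finite Γ] [Finite V] in
theorem N3_inv_eq (hs : s ^ 3 = 1) (v : V) : N3 ρ s⁻¹ v = N3 ρ s v := by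
  unfold N3
  have h5 : s⁻¹ = s * s := by
    rw [inv_eq_iff_mul_eq_one, ← mul_assoc, ← pow_two, ← pow_succ, hs]
  have h6 : s⁻¹ * s⁻¹ = s := by rw [← mul_inv_rev, ← h5, inv_inv]
  rw [rho_comp s⁻¹ s⁻¹, h6, rho_comp s s, ← h5, mul_assoc, mul_assoc, mul_comm (ρ s⁻¹ v)]

/-- an automorphism of order two without fixed points: the group is abelian -/
theorem comm_of_t_fpf (hK : K.Normal) (ht : t ^ 2 = 1) (hf : ∀ x ∈ K, t * x * t⁻¹ = x → x = 1) :
    ∀ a ∈ K, ∀ b ∈ K, a * b = b * a := by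
  let φ : K →* K := (MulAut.conjNormal t : MulAut K).toMonoidHom
  have hφ : ∀ x : K, ((φ x : K) : Γ) = t * x * t⁻¹ := fun x => rfl
  have h1 : MonoidHom.FixedPointFree φ := by
    intro x hx
    apply Subtype.ext
    apply hf x x.2
    rw [← hφ, hx]
  have h2 : Function.Involutive φ := by
    intro x
    apply Subtype.ext
    rw [hφ, hφ]
    have h3 : t * t = 1 := by rw [← pow_two, ht]
    calc t * (t * x * t⁻¹) * t⁻¹ = (t * t) * x * (t * t)⁻¹ := by group
      _ = x := by rw [h3]; group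
  intro a ha b hb
  exact congrArg Subtype.val (h1.commute_all_of_involutive h2 ⟨a, ha⟩ ⟨b, hb⟩).eq

/-- **the irreducible case** -/
theorem commutator_eq_bot [Nontrivial V] (h : Cfg K s t) (hgen : Acl s t ⊔ K = ⊤) {r : ℕ}
    [hr : Fact r.Prime] (hV : IsPGroup r V) (hirr : Irr ρ) (hfaith : ∀ x ∈ K, ρ x = 1 → x = 1)
    (hVf : ∀ v : V, ρ s v = v → ρ t v = v → v = 1) : ⁅K, K⁆ = ⊥ := by
  by_cases hK1 : K = ⊥
  · rw [hK1, commutator_bot_left]
  obtain ⟨q, E, hqp, hq2, hqV, hEn, hEK, hEc, hEq, hEe, hE0⟩ := exists_E h hV hirr hfaith hK1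
  haveI : Fact q.Prime := ⟨hqp⟩
  obtain ⟨B, hB⟩ := exists_HPl hEc hEe hE0
  haveI := h.normal
  have hBv : ∃ v ∈ fixV ρ B, v ≠ 1 := by
    by_contra hcon
    push Not at hcon
    apply hB.ne
    rw [eq_bot_iff]
    intro v hv
    exact hcon v hv
  rcases dichotomy hEc hE0 h hEn hEK hEq hqV hq2 hVf hgen hB with hI | ⟨i, hII⟩
  · -- every conjugate of `s` has trivial norm
    have hcj : ∀ γ : Γ, ∃ k ∈ K, γ * s * γ⁻¹ = k * s * k⁻¹ ∨ γ * s * γ⁻¹ = k * s⁻¹ * k⁻¹ := by
      intro γ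
      have hγ : γ ∈ K ⊔ Acl s t := by rw [sup_comm, hgen]; trivial
      obtain ⟨k, hk, a, ha, rfl⟩ := mem_sup_of_normal_left.mp hγ
      refine ⟨k, hk, ?_⟩
      have e : k * a * s * (k * a)⁻¹ = k * (a * s * a⁻¹) * k⁻¹ := by group
      rw [e]
      rcases Acl_conj h.hst ha with h1 | h1
      · left; rw [h1]
      · right; rw [h1]
    let U : Subgroup V :=
      { carrier := {v | ∀ γ : Γ, N3 ρ (γ * s * γ⁻¹) v = 1}
        one_mem' := fun γ => by simp [N3]
        mul_mem' := by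
          intro a b ha hb γ
          have h1 := ha γ
          have h2 := hb γ
          unfold N3 at h1 h2 ⊢
          simp only [map_mul] at h1 h2 ⊢
          calc _ = (a * ((ρ γ * ρ s * ρ γ⁻¹) a) * ((ρ γ * ρ s * ρ γ⁻¹) ((ρ γ * ρ s * ρ γ⁻¹) a))) *
              (b * ((ρ γ * ρ s * ρ γ⁻¹) b) * ((ρ γ * ρ s * ρ γ⁻¹) ((ρ γ * ρ s * ρ γ⁻¹) b))) := by
                simp only [mul_assoc, mul_left_comm, mul_comm]
            _ = 1 := by rw [h1, h2, one_mul]
        inv_mem' := by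
          intro a ha γ
          have h1 := ha γ
          unfold N3 at h1 ⊢
          rw [map_inv, map_inv, ← mul_inv, ← mul_inv, h1, inv_one] }
    have hUinv : ∀ γ, ∀ w ∈ U, ρ γ w ∈ U := by
      intro γ w hw δ
      have h1 := hw (γ⁻¹ * δ)
      have h2 := N3_conj (ρ := ρ) γ (γ⁻¹ * δ * s * (γ⁻¹ * δ)⁻¹) (ρ γ w)
      have e : γ * (γ⁻¹ * δ * s * (γ⁻¹ * δ)⁻¹) * γ⁻¹ = δ * s * δ⁻¹ := by group
      rw [e] at h2
      rw [h2, rho_inv_cancel, h1, map_one]
    have hBU : fixV ρ B ≤ U := by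
      intro v hv γ
      obtain ⟨k, hk, h1⟩ := hcj γ
      have h2 : ρ k⁻¹ v ∈ fixV ρ (cj k⁻¹ B) := rho_mem_cj k⁻¹ hv
      have h3 : N3 ρ s (ρ k⁻¹ v) = 1 :=
        N3_eq_one hE0 hEc h hEn hEK hEq hq2 hVf (hB.conj hEn k⁻¹) (hI k⁻¹ (inv_mem hk)) h2
      rcases h1 with h1 | h1
      · rw [h1, N3_conj, h3, map_one]
      · rw [h1, N3_conj, N3_inv_eq h.hs, h3, map_one]
    have hU : U = ⊤ := by
      rcases hirr U hUinv with h1 | h1
      · exfalso
        obtain ⟨v, hv, hv1⟩ := hBv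
        have := hBU hv
        rw [h1, mem_bot] at this
        exact hv1 this
      · exact h1
    have hN : ∀ v, N3 ρ s v = 1 := by
      intro v
      have h1 : v ∈ U := by rw [hU]; trivial
      have h2 := h1 1
      have e : (1 : Γ) * s * 1⁻¹ = s := by group
      rwa [e] at h2
    have hcomm := s_trivial_solvable h.normal h.solv h.cop h.hs hV hirr hfaith hN
    have h1 := comm_of_t_fpf h.normal h.ht (fun x hx hxt =>
      h.fpf x hx (by rw [hcomm x hx, mul_inv_cancel_right]) hxt)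
    rw [eq_bot_iff, commutator_le]
    intro a ha b hb
    rw [mem_bot, commutatorElement_def, h1 a ha b hb]
    group
  · -- `g` inverts the fixed points of all conjugates
    have h2 := h.twist i
    have hVf2 := twist_V hVf i
    set g := t * s ^ i with hg
    have hinv : ∀ y ∈ K, ∀ v ∈ fixV ρ (cj y B), ρ g v = v⁻¹ := fun y hy v hv =>
      t_inverts hE0 hEc h2 hEn hEq hqV hVf2 (hB.conj hEn y) (hII y hy).1 (hII y hy).2 hv
    have hgi : g⁻¹ = g := by rw [inv_eq_iff_mul_eq_one, ← pow_two, h2.ht]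
    have hcc : ∀ k y : Γ, ∀ v ∈ fixV ρ (cj y B), ρ k v ∈ fixV ρ (cj (k * y) B) := by
      intro k y v hv
      refine rho_mem_fixV (fun b hb => ?_) hv
      rw [mem_map_conj] at hb ⊢
      have e : y⁻¹ * (k⁻¹ * b * k) * y = (k * y)⁻¹ * b * (k * y) := by group
      rwa [e]
    let N : Subgroup Γ :=
      { carrier := {x | x ∈ K ∧ ∀ y ∈ K, ∀ v ∈ fixV ρ (cj y B), ρ x v = v}
        one_mem' := ⟨one_mem K, fun _ _ _ _ => by rw [map_one]; rfl⟩
        mul_mem' := fun {a b} ha hb => ⟨mul_mem ha.1 hb.1, fun y hy v hv => by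
          rw [← rho_comp, hb.2 y hy v hv, ha.2 y hy v hv]⟩
        inv_mem' := fun {a} ha => ⟨inv_mem ha.1, fun y hy v hv => by
          conv_lhs => rw [← ha.2 y hy v hv]
          exact rho_inv_cancel a v⟩ }
    have hNK : N ≤ K := fun x hx => hx.1
    have hconj : ∀ γ : Γ, (∀ y ∈ K, ∀ v ∈ fixV ρ (cj y B), ∀ x ∈ N,
        ρ (γ * x * γ⁻¹) v = v) → ∀ x ∈ N, γ * x * γ⁻¹ ∈ N := by
      intro γ h1 x hx
      exact ⟨h.normal.conj_mem x hx.1 γ, fun y hy v hv => h1 y hy v hv x hx⟩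
    have hKN : K ≤ normalizer (N : Set Γ) := by
      have h1 : ∀ k ∈ K, ∀ x ∈ N, k * x * k⁻¹ ∈ N := by
        intro k hk
        apply hconj
        intro y hy v hv x hx
        have h3 := hcc k⁻¹ y v hv
        rw [← rho_comp, ← rho_comp, hx.2 (k⁻¹ * y) (mul_mem (inv_mem hk) hy) _ h3, rho_cancel_inv]
      intro k hk
      rw [mem_normalizer_iff]
      intro x
      refine ⟨h1 k hk x, fun hx => ?_⟩
      have h3 := h1 k⁻¹ (inv_mem hk) _ hx
      have e : k⁻¹ * (k * x * k⁻¹) * k⁻¹⁻¹ = x := by group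
      rwa [e] at h3
    have hT : ∀ x ∈ K, g * x * g⁻¹ * x⁻¹ ∈ N := by
      intro x hx
      refine ⟨mul_mem (h.normal.conj_mem x hx g) (inv_mem hx), fun y hy v hv => ?_⟩
      have h3 := hcc x⁻¹ y v hv
      have e1 : ρ (g * x * g⁻¹ * x⁻¹) v = ρ g (ρ x (ρ g (ρ x⁻¹ v))) := by
        rw [rho_comp, rho_comp, rho_comp]
        congr 2
        rw [hgi]
      rw [e1, hinv _ (mul_mem (inv_mem hx) hy) _ h3, map_inv, rho_cancel_inv,
        hinv y hy _ (inv_mem hv), inv_inv]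
    have hgN : g ∈ normalizer (N : Set Γ) := by
      have h1 : ∀ x ∈ N, g * x * g⁻¹ ∈ N := by
        intro x hx
        have h3 := mul_mem (hT x hx.1) hx
        rwa [inv_mul_cancel_right] at h3
      rw [mem_normalizer_iff]
      intro x
      refine ⟨h1 x, fun hx => ?_⟩
      have h3 := h1 _ hx
      have h4 : g * g = 1 := by rw [← pow_two, h2.ht]
      have e : g * (g * x * g⁻¹) * g⁻¹ = (g * g) * x * (g * g)⁻¹ := by group
      rw [e, h4, one_mul, inv_one, mul_one] at h3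
      exact h3
    have h3 := commutator_le_of_trivial h2 hNK hKN hgN hT
    obtain ⟨v, hv, hv1⟩ := hBv
    have h4 : v ∈ fixV ρ ⁅K, K⁆ := by
      intro b hb
      refine (h3 hb).2 1 (one_mem K) v ?_
      have := rho_mem_cj (ρ := ρ) 1 hv
      rwa [map_one] at this
    have h5 : fixV ρ ⁅K, K⁆ ≠ ⊥ := by
      intro h6
      rw [h6, mem_bot] at h4
      exact hv1 h4
    exact eq_bot_of_fixV (commutator_le_left K K) hfaith ((hirr.fixV_eq ⁅K, K⁆).resolve_left h5)

end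

end Cfsg.Agent.H71.SThree
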