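import Mathlib
import Cfsg.Agent.H71.SThree6

/-!
Part 7 of S4305: the main induction.
-/

set_option autoImplicit false
set_option linter.style.haveILetI false
set_option linter.unusedSimpArgs false

namespace Cfsg.Agent.H71.SThree

open Subgroup
open scoped commutatorElement Pointwise

universe u

/-- **Main theorem** -/
theorem isNilpotent_commutator (n : ℕ) : ∀ {Γ : Type u} [Group Γ] [Finite Γ] (K : Subgroup Γ)
    (s t : Γ), Cfg K s t → Acl s t ⊔ K = ⊤ → Nat.card K = n → Group.IsNilpotent ↥⁅K, K⁆ := by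
  induction n using Nat.strong_induction_on with
  | _ n ih =>
  intro Γ _ _ K s t h hgen hn
  haveI hKn := h.normal
  by_cases hK1 : K = ⊥
  · rw [hK1, commutator_bot_left]
    infer_instance
  -- a minimal normal subgroup
  obtain ⟨M, hM⟩ := (Set.toFinite {M : Subgroup Γ | M.Normal ∧ M ≤ K ∧ M ≠ ⊥}).exists_minimal
    ⟨K, hKn, le_rfl, hK1⟩
  obtain ⟨hMn, hMK, hM1⟩ := hM.prop
  haveI := hMn
  have hMnt : Nontrivial M := nontrivial_iff_ne_bot M |>.mpr hM1
  have hMsol : Group.IsSolvable M := Cop.isSolvable_of_le hMK h.solv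
  obtain ⟨r, V0, hr, hchar, hcomm, hpg, hne, hexp⟩ := Frob.exists_characteristic_abelian hMsol
  haveI : Fact r.Prime := ⟨hr⟩
  have hV0 : V0.map M.subtype = M := by
    apply le_antisymm (map_subtype_le _)
    apply hM.le_of_le (y := V0.map M.subtype)
    · refine ⟨inferInstance, (map_subtype_le _).trans hMK, ?_⟩
      intro h1
      exact hne ((map_eq_bot_iff_of_injective _ M.subtype_injective).mp h1)
    · exact map_subtype_le _
  have hMc : ∀ a ∈ M, ∀ b ∈ M, a * b = b * a := by
    intro a ha b hb
    rw [← hV0] at ha hb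
    obtain ⟨a, ha, rfl⟩ := ha
    obtain ⟨b, hb, rfl⟩ := hb
    rw [← map_mul, ← map_mul]
    congr 1
    exact setLike_mul_comm ha hb
  have hMp : IsPGroup r M := by
    have h1 : IsPGroup r (V0.map M.subtype) := hpg.map M.subtype
    rwa [hV0] at h1
  letI : CommGroup M := { (inferInstance : Group M) with
    mul_comm := fun a b => Subtype.ext (hMc a a.2 b b.2) }
  -- the action on `M`
  set C : Subgroup Γ := K ⊓ centralizer (M : Set Γ) with hC
  haveI hCn : C.Normal := inferInstance
  let ρ0 : Γ →* MulAut M := MulAut.conjNormal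
  have hρ0 : ∀ (g : Γ) (v : M), ((ρ0 g v : M) : Γ) = g * v * g⁻¹ := fun g v => rfl
  have hCker : C ≤ ρ0.ker := by
    intro c hc
    rw [MonoidHom.mem_ker]
    ext v
    rw [hρ0, ← (mem_centralizer_iff.mp hc.2 v v.2), mul_inv_cancel_right]
    rfl
  let ρ : Γ ⧸ C →* MulAut M := QuotientGroup.lift C ρ0 hCker
  have hρ : ∀ (g : Γ) (v : M), ((ρ (QuotientGroup.mk' C g) v : M) : Γ) = g * v * g⁻¹ :=
    fun g v => rfl
  have hCK : C ≤ K := inf_le_left
  have key := commutator_eq_bot (ρ := ρ) (h.quot C hCK) (r := r) (by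
      have h1 := congrArg (Subgroup.map (QuotientGroup.mk' C)) hgen
      rw [Subgroup.map_sup, ← MonoidHom.range_eq_map, QuotientGroup.range_mk', Acl,
        MonoidHom.map_closure, Set.image_pair] at h1
      exact h1)
    hMp (by
      intro W hW
      by_cases hW1 : W = ⊥
      · exact Or.inl hW1
      · right
        have hWn : (W.map M.subtype).Normal := by
          constructor
          rintro _ ⟨w, hw, rfl⟩ g
          exact ⟨ρ (QuotientGroup.mk' C g) w, hW _ w hw, hρ g w⟩
        have h1 : M ≤ W.map M.subtype := by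
          apply hM.le_of_le
          · refine ⟨hWn, (map_subtype_le _).trans hMK, ?_⟩
            intro h1
            exact hW1 ((map_eq_bot_iff_of_injective _ M.subtype_injective).mp h1)
          · exact map_subtype_le _
        rw [eq_top_iff]
        intro w _
        obtain ⟨w', hw', e⟩ := h1 w.2
        rwa [← Subtype.ext e])
    (by
      rintro _ ⟨x, hx, rfl⟩ h1
      refine (QuotientGroup.eq_one_iff x).mpr (Subgroup.mem_inf.mpr ⟨hx, ?_⟩)
      rw [mem_centralizer_iff]
      intro m hm
      have h2 := hρ x ⟨m, hm⟩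
      rw [h1] at h2
      have h3 : m = x * m * x⁻¹ := h2
      exact (mul_inv_eq_iff_eq_mul.mp h3.symm).symm)
    (by
      intro v h1 h2
      apply Subtype.ext
      refine h.fpf v (hMK v.2) ?_ ?_
      · rw [← hρ, h1]
      · rw [← hρ, h2])
  have hDC : ⁅K, K⁆ ≤ C := by
    rw [← map_commutator, Subgroup.map_eq_bot_iff, QuotientGroup.ker_mk'] at key
    exact key
  -- the induction hypothesis
  have hih := ih _ (by
    rw [← hn]
    have h1 := Subgroup.relIndex_ker (K := K) (QuotientGroup.mk' M)
    rw [QuotientGroup.ker_mk'] at h1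
    have h2 := relIndex_mul_relIndex ⊥ M K bot_le hMK
    rw [relIndex_bot_left, relIndex_bot_left, h1] at h2
    have h3 : 1 < Nat.card M := (Subgroup.one_lt_card_iff_ne_bot M).mpr hM1
    have h4 : 0 < Nat.card (K.map (QuotientGroup.mk' M)) := Nat.card_pos
    nlinarith : Nat.card (K.map (QuotientGroup.mk' M)) < n) (K.map (QuotientGroup.mk' M)) _ _
      (h.quot M hMK) (by
        have h1 := congrArg (Subgroup.map (QuotientGroup.mk' M)) hgen
        rw [Subgroup.map_sup, ← MonoidHom.range_eq_map, QuotientGroup.range_mk', Acl,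
          MonoidHom.map_closure, Set.image_pair] at h1
        exact h1) rfl
  rw [← map_commutator] at hih

  haveI := hih
  refine Subgroup.isNilpotent_of_ker_le_center ((QuotientGroup.mk' M).subgroupMap ⁅K, K⁆) ?_
  intro x hx
  rw [MonoidHom.mem_ker] at hx
  have h1 : QuotientGroup.mk' M (x : Γ) = 1 := congrArg Subtype.val hx
  have h2 : (x : Γ) ∈ M := (QuotientGroup.eq_one_iff _).mp h1
  rw [mem_center_iff]
  intro y
  apply Subtype.ext
  have h3 := (Subgroup.mem_inf.mp (hDC y.2)).2
  exact (mem_centralizer_iff.mp h3 x h2).symm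

end Cfsg.Agent.H71.SThree
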