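import Cfsg.Agent.Cop.ThompsonOdd
import Cfsg.Agent.Cop.GenAb
import Cfsg.Agent.H23.TransCrit
import Cfsg.Agent.H36.PConstr
import Cfsg.Agent.ZJ.Replacement

/-!
Bender: in a `p`-constrained group an abelian `p`-subgroup `A` containing the `p`-elements of its centralizer
has all its invariant `p'`-subgroups in `O_{p'}`; the transitivity theorem.
-/

set_option autoImplicit false

namespace Cfsg.Agent.H71.Transit

open Subgroup Cfsg Pointwise
open scoped commutatorElement

section Abs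

set_option linter.unusedSectionVars false

variable {X : Type*} [Group X] [Finite X] {p : ℕ} [hpf : Fact p.Prime]

/-- Thompson (`p` odd), version with the elements of order `p` in `C_G(P)`. -/
theorem le_centralizer_omega (hp2 : p ≠ 2) (P Q G : Subgroup X)
    (hP : IsPGroup p P) (hQ : (Nat.card Q).Coprime p) (hPQ : P ≤ normalizer (Q : Set X))
    (hG : IsPGroup p G) (hPG : P ≤ normalizer (G : Set X)) (hQG : Q ≤ normalizer (G : Set X))
    (hC : ∀ x ∈ G, x ∈ centralizer (P : Set X) → x ^ p = 1 → x ∈ centralizer (Q : Set X)) :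
    Q ≤ centralizer (G : Set X) := by
  rw [le_centralizer_iff, ← commutator_eq_bot_iff_le_centralizer]
  by_contra hnt
  have hBG : P ⊔ Q ≤ normalizer (G : Set X) := sup_le hPG hQG
  have hBQ : P ⊔ Q ≤ normalizer (Q : Set X) := sup_le hPQ le_normalizer
  obtain ⟨H, hHG, hBH, hHnt, hmin⟩ := Cop.exists_min hBG hnt
  have hH : IsPGroup p H := hG.to_le hHG
  have hst := Cop.min_structure hH hBH le_sup_right hBQ hQ hHnt hmin
  have hexp : ∀ x ∈ H, x ^ p = 1 := by
    rcases hst with ⟨h3, _⟩ | ⟨h3, _⟩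
    · exact h3.2
    · -- special
      have hcl : ∀ x y z : H, Commute ⁅x, y⁆ z := by
        intro x y z
        have h6 : ⁅x, y⁆ ∈ center H := by
          rw [← h3.2.2, _root_.commutator_def]
          exact commutator_mem_commutator (mem_top _) (mem_top _)
        exact (mem_center_iff.1 h6 z).symm
      have hmul : ∀ x y : H, x ^ p = 1 → y ^ p = 1 → (x * y) ^ p = 1 := by
        intro x y hx hy
        have h1 := ZJ.mul_pow_class_two (hcl y x x) (hcl y x y) p
        have h2 : (⁅y, x⁆ : H) ^ p = 1 := by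
          have h3 : ∀ n : ℕ, ⁅y, x⁆ ^ n = ⁅y ^ n, x⁆ := by
            intro n
            induction n with
            | zero => simp
            | succ n ih =>
              rw [pow_succ, ih, pow_succ]
              have h4 := Cop.comm_mul_left hcl (y ^ n) y x
              rw [h4]
          rw [h3, hy]
          simp
        obtain ⟨k, hk⟩ : p ∣ p * (p - 1) / 2 := by
          have hodd : Odd p := hpf.out.odd_of_ne_two hp2
          obtain ⟨m, hm⟩ := hodd
          refine ⟨m, ?_⟩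
          have : p - 1 = 2 * m := by omega
          rw [this]
          have h5 : p * (2 * m) = 2 * (p * m) := by ring
          rw [h5, Nat.mul_div_cancel_left _ (by norm_num)]
        have h5 : (⁅y, x⁆ : H) ^ (p.choose 2) = 1 := by
          rw [Nat.choose_two_right, hk, pow_mul, h2, one_pow]
        rw [h1, hx, hy]
        simpa using h5
      let Ω : Subgroup X :=
        { carrier := {x | x ∈ H ∧ x ^ p = 1}
          one_mem' := ⟨H.one_mem, one_pow _⟩
          mul_mem' := by
            rintro a b ⟨ha, ha'⟩ ⟨hb, hb'⟩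
            refine ⟨H.mul_mem ha hb, ?_⟩
            have := hmul ⟨a, ha⟩ ⟨b, hb⟩ (Subtype.ext ha') (Subtype.ext hb')
            exact congrArg Subtype.val this
          inv_mem' := by
            rintro a ⟨ha, ha'⟩
            exact ⟨H.inv_mem ha, by rw [inv_pow, ha', inv_one]⟩ }
      have hΩH : Ω ≤ H := fun x hx => hx.1
      have hBΩ : P ⊔ Q ≤ normalizer (Ω : Set X) := by
        have key : ∀ b ∈ P ⊔ Q, ∀ x ∈ Ω, b * x * b⁻¹ ∈ Ω := by
          rintro b hb x ⟨hx, hx'⟩
          refine ⟨(mem_normalizer_iff.1 (hBH hb) x).1 hx, ?_⟩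
          rw [conj_pow, hx']; simp
        intro b hb
        rw [mem_normalizer_iff]
        intro x
        refine ⟨key b hb x, fun h => ?_⟩
        have := key b⁻¹ (inv_mem hb) _ h
        have e : b⁻¹ * (b * x * b⁻¹) * b⁻¹⁻¹ = x := by group
        rwa [e] at this
      rcases hΩH.lt_or_eq with hlt | heq
      · exfalso
        apply hHnt
        have h1 := hmin Ω hlt hBΩ
        rw [commutator_eq_bot_iff_le_centralizer] at h1 ⊢
        rw [← le_centralizer_iff]
        refine BG.le_centralizer_of_omega1 hp2 Q hQ _ H rfl hH (le_sup_right.trans hBH) ?_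
        intro x hx hxp a ha
        have := mem_centralizer_iff.1 (h1 (show x ∈ Ω from ⟨hx, hxp⟩)) a ha
        exact this
      · intro x hx
        rw [← heq] at hx
        exact hx.2
  apply hHnt
  rw [commutator_eq_bot_iff_le_centralizer, ← le_centralizer_iff]
  refine Cop.le_centralizer_of_thompson_odd hp2 P Q H hP hQ hPQ hH (le_sup_left.trans hBH)
    (le_sup_right.trans hBH) ?_
  rintro x ⟨hx, hx'⟩
  exact hC x (hHG hx) hx' (hexp x hx)

/-- `p = 2`, class at most two. -/
theorem le_centralizer_class_two (P Q G S : Subgroup X)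
    (hP : IsPGroup p P) (hQ : (Nat.card Q).Coprime p) (hPQ : P ≤ normalizer (Q : Set X))
    (hG : IsPGroup p G) (hPG : P ≤ normalizer (G : Set X)) (hQG : Q ≤ normalizer (G : Set X))
    (hPS : P ≤ S) (hGS : G ≤ S) (hS : ∀ x ∈ S, ∀ y ∈ S, ∀ z ∈ S, z * ⁅x, y⁆ = ⁅x, y⁆ * z)
    (hC : G ⊓ centralizer (P : Set X) ≤ centralizer (Q : Set X)) :
    Q ≤ centralizer (G : Set X) := by
  have hcop : (Nat.card P).Coprime (Nat.card Q) := by
    obtain ⟨n, hn⟩ := IsPGroup.iff_card.1 hP
    rw [hn]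
    exact (Nat.Coprime.pow_right n hQ).symm
  have hcopG : (Nat.card Q).Coprime (Nat.card G) := by
    obtain ⟨n, hn⟩ := IsPGroup.iff_card.1 hG
    rw [hn]
    exact Nat.Coprime.pow_right n hQ
  have hPs : Group.IsSolvable P := by
    haveI : Group.IsNilpotent P := hP.isNilpotent
    infer_instance
  have hGs : Group.IsSolvable G := by
    haveI : Group.IsNilpotent G := hG.isNilpotent
    infer_instance
  set Z := ⁅G, P⁆ with hZ
  have hZG : Z ≤ G := le_normalizer_iff_commutator_le_left.1 hPG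
  have hZC : Z ≤ centralizer (S : Set X) := by
    rw [hZ, commutator_le]
    intro g hg x hx
    rw [mem_centralizer_iff]
    intro s hs
    exact hS g (hGS hg) x (hPS hx) s hs
  have hZQ : Z ≤ centralizer (Q : Set X) := by
    refine le_trans (le_inf hZG (hZC.trans ?_)) hC
    exact centralizer_le hPS
  -- the subgroup of elements acting trivially on `G/Z`
  have hB : ∀ q ∈ Q, ∀ x ∈ P, ∀ g ∈ G, ⁅g, q * x * q⁻¹⁆ ∈ Z := by
    intro q hq x hx g hg
    have h1 : ⁅q⁻¹ * g * q, x⁆ ∈ Z := commutator_mem_commutator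
      (by
        have := (mem_normalizer_iff.1 (hQG (inv_mem hq)) g).1 hg
        rwa [inv_inv] at this) hx
    have h2 : ⁅g, q * x * q⁻¹⁆ = q * ⁅q⁻¹ * g * q, x⁆ * q⁻¹ := by
      rw [commutatorElement_def, commutatorElement_def]; group
    have h3 := mem_centralizer_iff.1 (hZQ h1) q hq
    rw [h2, h3]
    simpa using h1
  let B : Subgroup X :=
    { carrier := {b | (∀ g ∈ G, ⁅g, b⁆ ∈ Z) ∧ ∀ z ∈ Z, b * z = z * b}
      one_mem' := ⟨fun g _ => by simp [Z.one_mem], fun z _ => by simp⟩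
      mul_mem' := by
        rintro a b ⟨ha, ha'⟩ ⟨hb, hb'⟩
        refine ⟨fun g hg => ?_, fun z hz => ?_⟩
        · have h1 : ⁅g, a * b⁆ = ⁅g, a⁆ * (a * ⁅g, b⁆ * a⁻¹) := by
            simp only [commutatorElement_def]; group
          have h2 : a * ⁅g, b⁆ * a⁻¹ = ⁅g, b⁆ := by
            rw [ha' _ (hb g hg)]; group
          rw [h1, h2]
          exact Z.mul_mem (ha g hg) (hb g hg)
        · rw [mul_assoc, hb' z hz, ← mul_assoc, ha' z hz, mul_assoc]
      inv_mem' := by
        rintro a ⟨ha, ha'⟩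
        have ha2 : ∀ z ∈ Z, a⁻¹ * z = z * a⁻¹ := by
          intro z hz
          have h1 : Commute a z := ha' z hz
          exact h1.inv_left.eq
        refine ⟨fun g hg => ?_, ha2⟩
        have h1 : ⁅g, a⁻¹⁆ = a⁻¹ * (⁅g, a⁆)⁻¹ * a := by
          simp only [commutatorElement_def]; group
        rw [h1, ha2 _ (Z.inv_mem (ha g hg))]
        simpa using Z.inv_mem (ha g hg) }
  have hPZ : ∀ x ∈ P, ∀ z ∈ Z, x * z = z * x := by
    intro x hx z hz
    exact (mem_centralizer_iff.1 (hZC hz) x (hPS hx))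
  have hPB : P ≤ B := fun x hx => ⟨fun g hg => commutator_mem_commutator hg hx, hPZ x hx⟩
  have hPB' : ∀ q ∈ Q, ∀ x ∈ P, q * x * q⁻¹ ∈ B := by
    intro q hq x hx
    refine ⟨fun g hg => hB q hq x hx g hg, fun z hz => ?_⟩
    have h1 : ∀ r ∈ Q, r * z = z * r := fun r hr => mem_centralizer_iff.1 (hZQ hz) r hr
    have h2 : Commute q z := h1 q hq
    have h3 : Commute x z := hPZ x hx z hz
    exact ((h2.mul_left h3).mul_left h2.inv_left).eq
  have hW : ⁅Q, P⁆ ≤ B := by
    rw [commutator_le]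
    intro q hq x hx
    rw [commutatorElement_def]
    exact B.mul_mem (hPB' q hq x hx) (B.inv_mem (hPB hx))
  have hWQ : ⁅Q, P⁆ ≤ Q := le_normalizer_iff_commutator_le_left.1 hPQ
  have hWG : ⁅G, ⁅Q, P⁆⁆ ≤ Z := by
    rw [commutator_le]
    intro g hg w hw
    exact (hW hw).1 g hg
  have hWGn : ⁅Q, P⁆ ≤ normalizer (G : Set X) := hWQ.trans hQG
  have h0 : ⁅⁅G, ⁅Q, P⁆⁆, ⁅Q, P⁆⁆ = ⊥ := by
    rw [commutator_eq_bot_iff_le_centralizer]
    exact hWG.trans (hZQ.trans (centralizer_le hWQ))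
  have hcopW : (Nat.card ↥⁅Q, P⁆).Coprime (Nat.card G) :=
    Nat.Coprime.coprime_dvd_left (card_dvd_of_le hWQ) hcopG
  have h1 : ⁅G, ⁅Q, P⁆⁆ = ⊥ := by
    rw [← Cop.commutator_commutator_eq hWGn hcopW (Or.inr hGs), h0]
  have h2 : ⁅Q, P⁆ ≤ centralizer (G : Set X) := by
    rw [commutator_eq_bot_iff_le_centralizer] at h1
    exact le_centralizer_iff.1 h1
  have h3 : Q ⊓ centralizer (P : Set X) ≤ centralizer (G : Set X) := by
    refine Cop.le_centralizer_of_AxB p hP
      (Nat.Coprime.coprime_dvd_left (card_dvd_of_le inf_le_left) hQ) hG ?_ hPG (inf_le_left.trans hQG) ?_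
    · exact le_centralizer_iff.1 inf_le_right
    · exact hC.trans (centralizer_le inf_le_left)
  rw [← Cop.commutator_sup_centralizer hPQ hcop (Or.inl hPs)]
  exact sup_le h2 h3

/-- Bender, `p` odd. -/
theorem bender_odd (hp2 : p ≠ 2) (hX : IsPConstrained p X) {A Y : Subgroup X} (hAp : IsPGroup p A)
    (hA : ∀ x ∈ centralizer (A : Set X), x ^ p = 1 → x ∈ A)
    (hY : (Nat.card Y).Coprime p) (hAY : A ≤ normalizer (Y : Set X)) :
    Y ≤ pPrimeCore p X := by
  set K := pPrimeCore p X with hK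
  set Q := pCore p (X ⧸ K) with hQ
  have hQp : IsPGroup p Q := Solv.pCore_isPGroup p
  have hQn : Q.Normal := inferInstance
  have hH : centralizer (Q : Set (X ⧸ K)) ≤ Q := H36.PConstr.isPConstrained_iff.1 hX
  apply H23.le_of_map_mk'_eq_bot
  have hYc : (Nat.card (Y.map (QuotientGroup.mk' K))).Coprime p := H23.card_map_coprime _ hY
  obtain ⟨S, hAS⟩ := hAp.exists_le_sylow
  have hQS : Q ≤ (S : Subgroup X).map (QuotientGroup.mk' K) :=
    Solv.pCore_le_sylow (S.mapSurjective (QuotientGroup.mk'_surjective K))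
  refine H23.eq_bot_of_le_pgroup hQp hYc (le_trans ?_ hH)
  have hAY' : A.map (QuotientGroup.mk' K) ≤ normalizer (Y.map (QuotientGroup.mk' K) : Set (X ⧸ K)) := by
    rintro _ ⟨a, ha, rfl⟩
    exact H23.mem_normalizer_map _ (hAY ha)
  refine le_centralizer_omega hp2 (A.map (QuotientGroup.mk' K)) _ Q (hAp.map _) hYc hAY' hQp
    le_normalizer_of_normal le_normalizer_of_normal ?_
  intro x hxQ hxC hxp
  obtain ⟨s, hs, rfl⟩ := hQS hxQ
  have h1 := H23.mem_centralizer_of_map (Solv.pPrimeCore_card_coprime p) S.isPGroup' hAS hs hxC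
  have h2 : s ^ p = 1 := by
    refine H23.eq_one_of_mem_pgroup S.isPGroup' (Solv.pPrimeCore_card_coprime p) (pow_mem hs p) ?_
    rw [← QuotientGroup.ker_mk' (pPrimeCore p X), MonoidHom.mem_ker, map_pow]
    exact hxp
  have h3 := hA s h1 h2
  exact H23.mem_centralizer_of_mem_normal (p := p) (Q := Q) hQn hQp hYc hxQ
    (hAY' ⟨s, h3, rfl⟩)

/-- Bender, class two (any `p`, used for `p = 2`). -/
theorem bender_class_two (hX : IsPConstrained p X)
    (hcl : ∀ S : Sylow p X, ∀ x ∈ S, ∀ y ∈ S, ∀ z ∈ S, z * ⁅x, y⁆ = ⁅x, y⁆ * z)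
    {A Y : Subgroup X} (hAp : IsPGroup p A)
    (hA : ∀ x ∈ centralizer (A : Set X), IsPGroup p (zpowers x) → x ∈ A)
    (hY : (Nat.card Y).Coprime p) (hAY : A ≤ normalizer (Y : Set X)) :
    Y ≤ pPrimeCore p X := by
  set K := pPrimeCore p X with hK
  set Q := pCore p (X ⧸ K) with hQ
  have hQp : IsPGroup p Q := Solv.pCore_isPGroup p
  have hQn : Q.Normal := inferInstance
  have hH : centralizer (Q : Set (X ⧸ K)) ≤ Q := H36.PConstr.isPConstrained_iff.1 hX
  apply H23.le_of_map_mk'_eq_bot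
  have hYc : (Nat.card (Y.map (QuotientGroup.mk' K))).Coprime p := H23.card_map_coprime _ hY
  obtain ⟨S, hAS⟩ := hAp.exists_le_sylow
  have hQS : Q ≤ (S : Subgroup X).map (QuotientGroup.mk' K) :=
    Solv.pCore_le_sylow (S.mapSurjective (QuotientGroup.mk'_surjective K))
  refine H23.eq_bot_of_le_pgroup hQp hYc (le_trans ?_ hH)
  have hAY' : A.map (QuotientGroup.mk' K) ≤ normalizer (Y.map (QuotientGroup.mk' K) : Set (X ⧸ K)) := by
    rintro _ ⟨a, ha, rfl⟩
    exact H23.mem_normalizer_map _ (hAY ha)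
  refine le_centralizer_class_two (p := p) (A.map (QuotientGroup.mk' K)) _ Q
    ((S : Subgroup X).map (QuotientGroup.mk' K)) (hAp.map _) hYc hAY' hQp
    le_normalizer_of_normal le_normalizer_of_normal (map_mono hAS) hQS ?_ ?_
  · rintro _ ⟨x, hx, rfl⟩ _ ⟨y, hy, rfl⟩ _ ⟨z, hz, rfl⟩
    rw [← map_commutatorElement, ← map_mul, ← map_mul, hcl S x hx y hy z hz]
  · rintro x ⟨hxQ, hxC⟩
    obtain ⟨s, hs, rfl⟩ := hQS hxQ
    have h1 := H23.mem_centralizer_of_map (Solv.pPrimeCore_card_coprime p) S.isPGroup' hAS hs hxC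
    have h3 := hA s h1 (S.isPGroup'.to_le (zpowers_le.2 hs))
    exact H23.mem_centralizer_of_mem_normal (p := p) (Q := Q) hQn hQp hYc hxQ
      (hAY' ⟨s, h3, rfl⟩)

end Abs

end Cfsg.Agent.H71.Transit
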