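import Cfsg.Agent.H71.Transit
import Cfsg.Agent.Transfer.NPC

/-!
The transitivity theorem for groups with `p`-constrained `p`-locals.
-/

set_option autoImplicit false

namespace Cfsg.Agent.H71.Transit

open Subgroup Cfsg Pointwise
open scoped commutatorElement

section Main

variable {G : Type*} [Group G] [Finite G] {p : ℕ} [hpf : Fact p.Prime]

omit [Finite G] hpf in
theorem comm_of_class_two {T : Type*} [Group T] (hn : Group.IsNilpotent T)
    (h : Group.nilpotencyClass T ≤ 2) (x y z : T) : z * ⁅x, y⁆ = ⁅x, y⁆ * z := by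
  have h1 := Subgroup.upperCentralSeries_eq_top_iff_nilpotencyClass_le.2 h
  have h2 : x ∈ Subgroup.upperCentralSeries T 2 := by rw [h1]; exact mem_top _
  have h3 := (Subgroup.mem_upperCentralSeries_succ_iff (n := 1)).1 h2 y
  rw [Subgroup.upperCentralSeries_one] at h3
  exact mem_center_iff.1 h3 z

omit [Finite G] hpf in
theorem class_two_of_sylow {T : Subgroup G} (hn : Group.IsNilpotent T)
    (h : Group.nilpotencyClass T ≤ 2) {x y z : G} (hx : x ∈ T) (hy : y ∈ T) (hz : z ∈ T) :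
    z * ⁅x, y⁆ = ⁅x, y⁆ * z :=
  congrArg Subtype.val (comm_of_class_two hn h ⟨x, hx⟩ ⟨y, hy⟩ ⟨z, hz⟩)

theorem mem_zpowers_isPGroup_map {H : Type*} [Group H] (f : G →* H) {x : G}
    (h : IsPGroup p (zpowers x)) : IsPGroup p (zpowers (f x)) := by
  rw [← MonoidHom.map_zpowers]
  exact h.map f

/-- The hypotheses of the theorem on `E`. -/
structure Hyp (p : ℕ) (E : Subgroup G) : Prop where
  loc : ∀ T : Subgroup G, IsPGroup p T → T ≠ ⊥ → IsPConstrained p ↥(normalizer (T : Set G))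
  two : p = 2 → ∀ S : Subgroup G, IsPGroup p S → ∀ x ∈ S, ∀ y ∈ S, ∀ z ∈ S, z * ⁅x, y⁆ = ⁅x, y⁆ * z
  pgr : IsPGroup p E
  comm : IsMulCommutative E
  full : ∀ x ∈ centralizer (E : Set G), IsPGroup p (zpowers x) → x ∈ E

omit [Finite G] hpf in
theorem Hyp.le_cent {E : Subgroup G} (h : Hyp p E) : E ≤ centralizer (E : Set G) :=
  (H11.comm_iff_le_centralizer E).1 h.comm

/-- The relevant signalizer of `b`. -/
noncomputable def sig (p : ℕ) (b : G) : Subgroup G :=
  (pPrimeCore p ↥(normalizer (zpowers b : Set G))).map (normalizer (zpowers b : Set G)).subtype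

theorem sig_le (b : G) : sig p b ≤ normalizer (zpowers b : Set G) := by
  rintro _ ⟨x, _, rfl⟩
  exact x.2

theorem card_sig_coprime (b : G) : (Nat.card (sig p b)).Coprime p := by
  have h1 := Solv.pPrimeCore_card_coprime (G := ↥(normalizer (zpowers b : Set G))) p
  have h2 : Nat.card (sig p b) = Nat.card (pPrimeCore p ↥(normalizer (zpowers b : Set G))) :=
    Subgroup.card_map_of_injective (normalizer (zpowers b : Set G)).subtype_injective
  rw [h2]
  exact h1

theorem normalizer_le_normalizer_sig (b : G) :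
    normalizer (zpowers b : Set G) ≤ normalizer (sig p b : Set G) := by
  have key : ∀ g ∈ normalizer (zpowers b : Set G), ∀ x ∈ sig p b, g * x * g⁻¹ ∈ sig p b := by
    rintro g hg _ ⟨y, hy, rfl⟩
    have hn : (pPrimeCore p ↥(normalizer (zpowers b : Set G))).Normal := inferInstance
    exact ⟨⟨g, hg⟩ * y * ⟨g, hg⟩⁻¹, hn.conj_mem y hy ⟨g, hg⟩, rfl⟩
  intro g hg
  rw [mem_normalizer_iff]
  intro x
  refine ⟨key g hg x, fun h => ?_⟩
  have := key g⁻¹ (inv_mem hg) _ h
  have e : g⁻¹ * (g * x * g⁻¹) * g⁻¹⁻¹ = x := by group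
  rwa [e] at this

theorem le_normalizer_zpowers {E : Subgroup G} (h : Hyp p E) {b : G} (hb : b ∈ E) :
    E ≤ normalizer (zpowers b : Set G) := by
  intro x hx
  have hxb : x * b = b * x := mem_centralizer_iff.1 (h.le_cent hb) x hx
  have hc : x ∈ centralizer (zpowers b : Set G) := by
    rw [mem_centralizer_iff]
    rintro _ ⟨k, rfl⟩
    have h1 : Commute b x := hxb.symm
    exact (h1.zpow_left k).eq
  exact H23.centralizer_le_normalizer' _ hc

/-- `E`-invariant `p'`-subgroups of `N(⟨b⟩)` are in the signalizer. -/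
theorem le_sig {E : Subgroup G} (h : Hyp p E) {b : G} (hb : b ∈ E) (hb1 : b ≠ 1) {Y : Subgroup G}
    (hY : (Nat.card Y).Coprime p) (hEY : E ≤ normalizer (Y : Set G))
    (hYU : Y ≤ normalizer (zpowers b : Set G)) : Y ≤ sig p b := by
  set U := normalizer (zpowers b : Set G) with hU
  have hEU : E ≤ U := le_normalizer_zpowers h hb
  have hbp : IsPGroup p (zpowers b) := h.pgr.to_le (zpowers_le.2 hb)
  have hcon : IsPConstrained p U := h.loc (zpowers b) hbp (by
    rw [Ne, zpowers_eq_bot]; exact hb1)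
  have hE' : IsPGroup p (E.subgroupOf U) := h.pgr.comap_of_injective _ U.subtype_injective
  have hfull : ∀ x ∈ centralizer ((E.subgroupOf U : Subgroup U) : Set U), IsPGroup p (zpowers x) →
      x ∈ E.subgroupOf U := by
    intro x hx hxp
    rw [mem_subgroupOf]
    apply h.full
    · rw [mem_centralizer_iff] at hx ⊢
      intro e he
      exact congrArg Subtype.val (hx ⟨e, hEU he⟩ he)
    · exact mem_zpowers_isPGroup_map U.subtype hxp
  have hYc : (Nat.card (Y.subgroupOf U)).Coprime p := by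
    rw [Nat.card_congr (Subgroup.subgroupOfEquivOfLe hYU).toEquiv]; exact hY
  have hEY' : E.subgroupOf U ≤ normalizer ((Y.subgroupOf U : Subgroup U) : Set U) := by
    intro x hx
    rw [mem_normalizer_iff]
    intro y
    exact mem_normalizer_iff.1 (hEY hx) (y : G)
  have key : Y.subgroupOf U ≤ pPrimeCore p U := by
    by_cases hp2 : p = 2
    · refine bender_class_two hcon ?_ hE' hfull hYc hEY'
      intro S x hx y hy z hz
      have h1 := h.two hp2 ((S : Subgroup U).map U.subtype) (S.isPGroup'.map _) x ⟨x, hx, rfl⟩ y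
        ⟨y, hy, rfl⟩ z ⟨z, hz, rfl⟩
      apply Subtype.ext
      exact h1
    · refine bender_odd hp2 hcon hE' ?_ hYc hEY'
      intro x hx hxp
      refine hfull x hx ?_
      intro y
      refine ⟨1, ?_⟩
      obtain ⟨k, hk⟩ := y.2
      apply Subtype.ext
      have hk' : x ^ k = (y : U) := hk
      rw [pow_one, Subgroup.coe_pow, ← hk', ← zpow_natCast, ← zpow_mul, mul_comm, zpow_mul, zpow_natCast,
        hxp, one_zpow]
      rfl
  intro y hy
  exact ⟨⟨y, hYU hy⟩, key hy, rfl⟩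

/-- the `p'`-subgroups of `C(E)` lie in `O_{p'}(C(E))`. -/
theorem le_piCoreOf_cent {E : Subgroup G} (h : Hyp p E) {Y : Subgroup G}
    (hY : Y ≤ centralizer (E : Set G)) (hYp : (Nat.card Y).Coprime p) :
    Y ≤ piCoreOf (primesNotDvd p) (centralizer (E : Set G)) := by
  set C := centralizer (E : Set G) with hC
  have hEC : E ≤ C := h.le_cent
  obtain ⟨P, N, hN, hNP⟩ : HasNormalPComplement p C := by
    obtain ⟨P⟩ : Nonempty (Sylow p C) := inferInstance
    refine Transfer.hasNPC_of_normalizer_le_centralizer P ?_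
    have hPE : ∀ x ∈ (P : Subgroup C), (x : G) ∈ E := by
      intro x hx
      apply h.full
      · exact x.2
      · exact mem_zpowers_isPGroup_map C.subtype (P.isPGroup'.to_le (zpowers_le.2 hx))
    intro x _
    rw [mem_centralizer_iff]
    intro y hy
    apply Subtype.ext
    exact mem_centralizer_iff.1 x.2 y (hPE y hy)
  have hNc : (Nat.card N).Coprime p := by
    have h1 : Nat.card N = (P : Subgroup C).index := hNP.index_eq_card.symm
    rw [h1]
    exact (Nat.Prime.coprime_iff_not_dvd hpf.out).2 P.not_dvd_index |>.symm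
  have hYN : Y.subgroupOf C ≤ N := by
    have hi : N.index = Nat.card P := hNP.symm.index_eq_card
    apply H23.le_of_coprime_index hN
    rw [Nat.card_congr (Subgroup.subgroupOfEquivOfLe hY).toEquiv, hi]
    obtain ⟨n, hn⟩ := IsPGroup.iff_card.1 P.isPGroup'
    rw [hn]
    exact Nat.Coprime.pow_right n hYp
  have h2 : N.map C.subtype ≤ piCoreOf (primesNotDvd p) C := by
    apply H23.le_piCoreOf
    · rintro _ ⟨x, _, rfl⟩; exact x.2
    · intro g hg
      have key : ∀ g ∈ C, ∀ x ∈ N.map C.subtype, g * x * g⁻¹ ∈ N.map C.subtype := by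
        rintro g hg _ ⟨y, hy, rfl⟩
        exact ⟨⟨g, hg⟩ * y * ⟨g, hg⟩⁻¹, hN.conj_mem y hy ⟨g, hg⟩, rfl⟩
      rw [mem_normalizer_iff]
      intro x
      refine ⟨key g hg x, fun h => ?_⟩
      have := key g⁻¹ (inv_mem hg) _ h
      have e : g⁻¹ * (g * x * g⁻¹) * g⁻¹⁻¹ = x := by group
      rwa [e] at this
    · intro r hr hd
      rw [Subgroup.card_map_of_injective C.subtype_injective] at hd
      refine ⟨hr, fun hrp => ?_⟩
      have := Nat.Coprime.eq_one_of_dvd (Nat.Coprime.coprime_dvd_left hd hNc) hrp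
      exact hr.ne_one this
  intro y hy
  exact h2 ⟨⟨y, hY hy⟩, hYN hy, rfl⟩

/-- Sylow argument inside the signalizer of `b`. -/
theorem exists_conj_common' {E : Subgroup G} (h : Hyp p E) {q : ℕ} [hq : Fact q.Prime] (hqp : q ≠ p)
    {b : G} (hb : b ∈ E) (hb1 : b ≠ 1) {D Y₁ Y₂ : Subgroup G} (hD : E ≤ normalizer (D : Set G))
    (h1 : IsPGroup q Y₁) (h2 : IsPGroup q Y₂) (hE1 : E ≤ normalizer (Y₁ : Set G))
    (hE2 : E ≤ normalizer (Y₂ : Set G)) (hb1' : Y₁ ≤ centralizer {b}) (hb2' : Y₂ ≤ centralizer {b})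
    (hD1 : Y₁ ≤ normalizer (D : Set G)) (hD2 : Y₂ ≤ normalizer (D : Set G)) :
    ∃ k ∈ piCoreOf (primesNotDvd p) (centralizer (E : Set G)), k ∈ normalizer (D : Set G) ∧
      ∃ R : Subgroup G, IsPGroup q R ∧ R ≤ normalizer (D : Set G) ∧ E ≤ normalizer (R : Set G) ∧
        MulAut.conj k • Y₁ ≤ R ∧ Y₂ ≤ R := by
  have hcb : centralizer ({b} : Set G) ≤ normalizer (zpowers b : Set G) := by
    refine le_trans ?_ (H23.centralizer_le_normalizer' _)
    intro x hx
    rw [mem_centralizer_iff]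
    rintro _ ⟨k, rfl⟩
    have h3 : Commute b x := (mem_centralizer_iff.1 hx b rfl)
    exact (h3.zpow_left k).eq
  have hcop : ∀ Y : Subgroup G, IsPGroup q Y → (Nat.card Y).Coprime p := by
    intro Y hY
    obtain ⟨n, hn⟩ := IsPGroup.iff_card.1 hY
    rw [hn]
    exact Nat.Coprime.pow_left n ((Nat.coprime_primes hq.out hpf.out).2 hqp)
  set L := sig p b ⊓ normalizer (D : Set G) with hL
  have hEn : E ≤ normalizer (zpowers b : Set G) := le_normalizer_zpowers h hb
  have hEL : E ≤ normalizer (L : Set G) := by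
    refine le_trans ?_ (Subgroup.inf_normalizer_le_normalizer_inf)
    exact le_inf (hEn.trans (normalizer_le_normalizer_sig b)) (hD.trans le_normalizer)
  have hLc : (Nat.card L).Coprime p :=
    Nat.Coprime.coprime_dvd_left (card_dvd_of_le inf_le_left) (card_sig_coprime b)
  have hcopE : (Nat.card E).Coprime (Nat.card L) := by
    obtain ⟨n, hn⟩ := IsPGroup.iff_card.1 h.pgr
    rw [hn]
    exact (Nat.Coprime.pow_right n hLc).symm
  have hEs : Group.IsSolvable E := Cop.isSolvable_of_isMulCommutative h.comm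
  have hY₁ : Y₁ ≤ L := le_inf (le_sig h hb hb1 (hcop _ h1) hE1 (hb1'.trans hcb)) hD1
  have hY₂ : Y₂ ≤ L := le_inf (le_sig h hb hb1 (hcop _ h2) hE2 (hb2'.trans hcb)) hD2
  obtain ⟨P₁, hP₁, hP₁'⟩ := Cop.exists_invariant_sylow_ge hEL hcopE (Or.inl hEs) q hY₁ h1 hE1
  obtain ⟨P₂, hP₂, hP₂'⟩ := Cop.exists_invariant_sylow_ge hEL hcopE (Or.inl hEs) q hY₂ h2 hE2
  obtain ⟨c, hc, hc'⟩ := Cop.exists_centralizer_conj_sylow hEL hcopE (Or.inl hEs) q P₁ P₂ hP₁' hP₂'
  refine ⟨c, ?_, c.2.2, (P₂ : Subgroup L).map L.subtype, P₂.isPGroup'.map _, ?_, hP₂', ?_, hP₂⟩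
  · have h3 : L ⊓ centralizer (E : Set G) ≤ piCoreOf (primesNotDvd p) (centralizer (E : Set G)) :=
      le_piCoreOf_cent h inf_le_right
        (Nat.Coprime.coprime_dvd_left (card_dvd_of_le inf_le_left) hLc)
    exact h3 ⟨c.2, hc⟩
  · rintro _ ⟨x, _, rfl⟩
    exact x.2.2
  · intro y hy
    rw [Hall.mem_conj_smul] at hy
    obtain ⟨z, hz, hzy⟩ := hP₁ hy
    refine ⟨c * z * c⁻¹, ?_, ?_⟩
    · rw [← hc']
      exact ⟨z, hz, rfl⟩
    · have h5 : (z : G) = (c : G)⁻¹ * y * c := hzy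
      simp [h5, mul_assoc]

/-- a subgroup with small index in `B` centralizing something outside `D` -/
theorem exists_hyper {B : Subgroup G} (hB : IsElementaryAbelian p B) {N D : Subgroup G}
    (hBN : B ≤ normalizer (N : Set G)) (hcop : (Nat.card B).Coprime (Nat.card N)) (hND : ¬ N ≤ D) :
    ∃ B₁ ≤ B, B₁.relIndex B ≤ p ∧ ¬ (N ⊓ centralizer (B₁ : Set G) ≤ D) := by
  by_contra hcon
  push Not at hcon
  apply hND
  refine (Cop.le_genT hB.1 _ N rfl hBN hcop).trans ?_
  unfold Cop.genT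
  refine iSup₂_le ?_
  rintro B₁ ⟨hB₁, a, ha, hsup⟩
  apply hcon B₁ hB₁
  have hBc : B ≤ centralizer (B : Set G) := (H11.comm_iff_le_centralizer B).1 hB.1
  have hn : zpowers a ≤ normalizer (B₁ : Set G) := by
    refine le_trans ?_ (H23.centralizer_le_normalizer' _)
    rw [zpowers_le]
    exact (hBc.trans (centralizer_le hB₁)) ha
  have h1 := Cop.relIndex_sup_eq hn
  rw [sup_comm, hsup] at h1
  rw [h1]
  have h2 : B₁.relIndex (zpowers a) ∣ Nat.card (zpowers a) := relIndex_dvd_card _ _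
  rw [Nat.card_zpowers] at h2
  have h3 : orderOf a ∣ p := orderOf_dvd_of_pow_eq_one (hB.2 a ha)
  exact Nat.le_of_dvd hpf.out.pos (h2.trans h3)

theorem main_aux {E : Subgroup G} (h : Hyp p E) {q : ℕ} [hq : Fact q.Prime] (hqp : q ≠ p)
    {B : Subgroup G} (hBE : B ≤ E) (hB : IsElementaryAbelian p B) (hBc : p ^ 2 < Nat.card B) :
    ∀ n : ℕ, ∀ Q₁ ∈ maxInvSubgroups ⊤ E {q}, ∀ Q₂ ∈ maxInvSubgroups ⊤ E {q},
      Nat.card G ≤ Nat.card ↥(Q₁ ⊓ Q₂) + n →
      ∃ k ∈ piCoreOf (primesNotDvd p) (centralizer (E : Set G)), Q₂ = MulAut.conj k • Q₁ := by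
  intro n
  induction n with
  | zero =>
    intro Q₁ h₁ Q₂ h₂ hc
    have hT : Q₁ ⊓ Q₂ = ⊤ := Subgroup.eq_top_of_card_eq _
      (le_antisymm (Nat.le_of_dvd Nat.card_pos (Subgroup.card_subgroup_dvd_card _)) (by simpa using hc))
    have h3 : Q₁ = ⊤ := top_le_iff.1 (hT ▸ inf_le_left)
    have h4 : Q₂ = ⊤ := top_le_iff.1 (hT ▸ inf_le_right)
    exact ⟨1, one_mem _, by simp [h3, h4]⟩
  | succ n ih =>
    intro Q₁ h₁ Q₂ h₂ hc
    set D := Q₁ ⊓ Q₂ with hD
    have hQ₁ : IsPGroup q Q₁ := H23.isPGroup_of_primes h₁.1.2.1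
    have hQ₂ : IsPGroup q Q₂ := H23.isPGroup_of_primes h₂.1.2.1
    by_cases hD1 : D = Q₁
    · have := h₁.2 Q₂ h₂.1 (hD1 ▸ inf_le_right)
      exact ⟨1, one_mem _, by simp [this]⟩
    by_cases hD2 : D = Q₂
    · have := h₂.2 Q₁ h₁.1 (hD2 ▸ inf_le_left)
      exact ⟨1, one_mem _, by simp [this]⟩
    have hDlt1 : D < Q₁ := lt_of_le_of_ne inf_le_left hD1
    have hDlt2 : D < Q₂ := lt_of_le_of_ne inf_le_right hD2
    have hAD : E ≤ normalizer (D : Set G) := by
      refine le_trans ?_ (Subgroup.inf_normalizer_le_normalizer_inf)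
      exact le_inf h₁.1.2.2 h₂.1.2.2
    have hAN : E ≤ normalizer ((normalizer (D : Set G) : Subgroup G) : Set G) :=
      hAD.trans le_normalizer
    have hEN : ∀ Q ∈ maxInvSubgroups ⊤ E {q}, E ≤ normalizer ((Q ⊓ normalizer (D : Set G) : Subgroup G) : Set G) := by
      intro Q hQ
      refine le_trans ?_ (Subgroup.inf_normalizer_le_normalizer_inf)
      exact le_inf hQ.1.2.2 hAN
    have hcopB : ∀ Q : Subgroup G, IsPGroup q Q → (Nat.card B).Coprime (Nat.card Q) := by
      intro Q hQ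
      obtain ⟨n, hn⟩ := IsPGroup.iff_card.1 hQ
      obtain ⟨m, hm⟩ := IsPGroup.iff_card.1 (h.pgr.to_le hBE)
      rw [hn, hm]
      exact Nat.Coprime.pow _ _ ((Nat.coprime_primes hpf.out hq.out).2 hqp.symm)
    have hlt1 := H23.lt_inf_normalizer hQ₁ hDlt1
    have hlt2 := H23.lt_inf_normalizer hQ₂ hDlt2
    set N₁ := Q₁ ⊓ normalizer (D : Set G) with hN₁
    set N₂ := Q₂ ⊓ normalizer (D : Set G) with hN₂
    obtain ⟨B₁, hB₁, hi₁, hn₁⟩ := exists_hyper hB (hBE.trans (hEN Q₁ h₁))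
      (hcopB _ (hQ₁.to_le inf_le_left)) (not_le_of_gt hlt1)
    obtain ⟨B₂, hB₂, hi₂, hn₂⟩ := exists_hyper hB (hBE.trans (hEN Q₂ h₂))
      (hcopB _ (hQ₂.to_le inf_le_left)) (not_le_of_gt hlt2)
    -- a common nontrivial element
    have hne : B₁ ⊓ B₂ ≠ ⊥ := by
      intro hbot
      have h3 := relIndex_inf_le (H := B₁) (K := B₂) (L := B)
      rw [hbot, relIndex_bot_left] at h3
      have h4 : B₁.relIndex B * B₂.relIndex B ≤ p * p := Nat.mul_le_mul hi₁ hi₂
      rw [← sq] at h4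
      omega
    obtain ⟨b, hb, hb1⟩ : ∃ b : G, b ∈ B₁ ⊓ B₂ ∧ b ≠ 1 := by
      obtain ⟨b, hb⟩ := Subgroup.ne_bot_iff_exists_ne_one.1 hne
      exact ⟨b, b.2, fun hh => hb (Subtype.ext hh)⟩
    have hbE : (b : G) ∈ E := hBE (hB₁ hb.1)
    set Y₁ := N₁ ⊓ centralizer {(b : G)} with hY₁
    set Y₂ := N₂ ⊓ centralizer {(b : G)} with hY₂
    have hY₁D : ¬ Y₁ ≤ D := fun hh => hn₁ (le_trans (le_inf inf_le_left
      (inf_le_right.trans (centralizer_le (by simpa using hb.1)))) hh)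
    have hY₂D : ¬ Y₂ ≤ D := fun hh => hn₂ (le_trans (le_inf inf_le_left
      (inf_le_right.trans (centralizer_le (by simpa using hb.2)))) hh)
    have hEY₁ : E ≤ normalizer (Y₁ : Set G) :=
      Cop.normalizer_inf_centralizer h.comm (hEN Q₁ h₁) (by simpa using hbE)
    have hEY₂ : E ≤ normalizer (Y₂ : Set G) :=
      Cop.normalizer_inf_centralizer h.comm (hEN Q₂ h₂) (by simpa using hbE)
    have hQY₁ : IsPGroup q Y₁ := hQ₁.to_le (inf_le_left.trans inf_le_left)
    have hQY₂ : IsPGroup q Y₂ := hQ₂.to_le (inf_le_left.trans inf_le_left)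
    obtain ⟨k, hk, hkD, R, hRq, hRD, hER, hkR, hR2⟩ := exists_conj_common' h hqp hbE hb1 hAD hQY₁ hQY₂
      hEY₁ hEY₂ inf_le_right inf_le_right (inf_le_left.trans inf_le_right) (inf_le_left.trans inf_le_right)
    have hRD' : R ⊔ D ∈ invSubgroups ⊤ E {q} := by
      refine ⟨le_top, ?_, ?_⟩
      · exact H23.primes_of_isPGroup hq.out
          (IsPGroup.to_sup_of_normal_right' hRq (hQ₁.to_le inf_le_left) hRD)
      · intro x hx
        have h5 := hER hx
        have h6 := hAD hx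
        rw [mem_normalizer_iff_map_conj_eq] at h5 h6 ⊢
        rw [Subgroup.map_sup, h5, h6]
    obtain ⟨Q₃, hQ₃, hRQ₃⟩ := H23.exists_maxInv_ge hRD'
    have hkN : k ∈ normalizer (E : Set G) :=
      H23.centralizer_le_normalizer' E (H23.piCoreOf_le _ _ hk)
    have h₁' := H23.conj_smul_mem_maxInv h₁ hkN
    have e1 : Nat.card D < Nat.card ↥(Q₃ ⊓ Q₂) := by
      refine lt_of_lt_of_le (H23.card_lt_card_of_lt (show D < D ⊔ Y₂ from ?_)) ?_
      · exact lt_of_le_of_ne le_sup_left fun hh => hY₂D (hh ▸ le_sup_right)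
      · refine Nat.le_of_dvd Nat.card_pos (Subgroup.card_dvd_of_le (sup_le (le_inf ?_ inf_le_right) (le_inf ?_ ?_)))
        · exact le_sup_right.trans hRQ₃
        · exact hR2.trans (le_sup_left.trans hRQ₃)
        · exact inf_le_left.trans inf_le_left
    have e2 : Nat.card D < Nat.card ↥(MulAut.conj k • Q₁ ⊓ Q₃) := by
      refine lt_of_lt_of_le (H23.card_lt_card_of_lt (show D < D ⊔ Y₁ from ?_)) ?_
      · exact lt_of_le_of_ne le_sup_left fun hh => hY₁D (hh ▸ le_sup_right)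
      · rw [← Hall.card_conj_smul k]
        refine Nat.le_of_dvd Nat.card_pos (Subgroup.card_dvd_of_le (le_inf ?_ ?_))
        · exact Hall.conj_smul_mono (sup_le inf_le_left (inf_le_left.trans inf_le_left))
        · rw [Subgroup.smul_sup]
          refine sup_le ?_ ?_
          · rw [Cop.conj_smul_eq_of_mem_normalizer hkD]
            exact le_sup_right.trans hRQ₃
          · exact hkR.trans (le_sup_left.trans hRQ₃)
    obtain ⟨k1, hk1, e3⟩ := ih _ h₁' _ hQ₃ (by omega)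
    obtain ⟨k2, hk2, e4⟩ := ih _ hQ₃ _ h₂ (by omega)
    refine ⟨k2 * k1 * k, mul_mem (mul_mem hk2 hk1) hk, ?_⟩
    rw [e4, e3, Hall.conj_smul_conj_smul, Hall.conj_smul_conj_smul, mul_assoc]

end Main

end Cfsg.Agent.H71.Transit
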