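import Mathlib
import Cfsg.Agent.S4275

/-!
Odd-order automorphisms of doubly transitive groups (S4276, S4290): the integral intertwiner.
-/

set_option autoImplicit false
set_option linter.style.haveILetI false
set_option linter.unusedSimpArgs false

namespace Cfsg.Agent.H71.TwistPerm

open Matrix

variable {Ω : Type*} [Fintype Ω] [DecidableEq Ω] {G : Type*} [Group G] [MulAction G Ω]

/-- A matrix invariant under a doubly transitive group is `c I + d J`. -/
theorem eq_smul_add (h2 : MulAction.IsMultiplyPretransitive G Ω 2) (A : Matrix Ω Ω ℤ)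
    (hA : ∀ (g : G) (x y : Ω), A (g • x) (g • y) = A x y) {o y : Ω} (hoy : o ≠ y) :
    ∀ x z : Ω, A x z = (A o o - A o y) * (if x = z then 1 else 0) + A o y := by
  rw [MulAction.is_two_pretransitive_iff] at h2
  intro x z
  by_cases hxz : x = z
  · subst hxz
    simp only [if_true]
    obtain ⟨w, hw⟩ : ∃ w, x ≠ w := by
      by_cases h : x = o
      · exact ⟨y, by rw [h]; exact hoy⟩
      · exact ⟨o, h⟩
    obtain ⟨g, hg1, hg2⟩ := h2 hoy hw
    rw [← hg1, hA]; ring
  · simp only [if_neg hxz]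
    obtain ⟨g, hg1, hg2⟩ := h2 hoy hxz
    rw [← hg1, ← hg2, hA]; ring

/-- arithmetic core -/
theorem arith (n k r : ℕ) (hn : 2 ≤ n) (hk1 : 1 ≤ k) (hkn : k < n) (hcop : k.Coprime n)
    (hr : Odd r) (m c d : ℤ) (hm : m * (n - 1) = k * (n - k)) (hc : c ^ 2 = m ^ r)
    (hd : (k : ℤ) ^ r = c + n * d) : k = 1 ∨ k = n - 1 := by
  have hn1 : (0 : ℤ) < (n : ℤ) - 1 := by
    have : (2 : ℤ) ≤ n := by exact_mod_cast hn
    linarith
  have hkZ : (0 : ℤ) < k := by exact_mod_cast hk1
  have hknZ : (k : ℤ) < n := by exact_mod_cast hkn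
  have hmpos : 0 < m := by
    have h1 : 0 < m * ((n : ℤ) - 1) := by
      rw [hm]; exact mul_pos hkZ (by linarith)
    exact (mul_pos_iff_of_pos_right hn1).mp h1
  obtain ⟨t, ht⟩ := hr
  -- `m ^ t ∣ c`
  have hdvd : m ^ t ∣ c := by
    rw [← Int.pow_dvd_pow_iff (n := 2) (by norm_num), hc, ht]
    exact ⟨m, by ring⟩
  obtain ⟨e, he⟩ := hdvd
  have he2 : e ^ 2 = m := by
    have h1 : (m ^ t) ^ 2 * e ^ 2 = (m ^ t) ^ 2 * m := by
      rw [← mul_pow, ← he, hc, ht]; ring
    exact mul_left_cancel₀ (pow_ne_zero _ (pow_ne_zero _ hmpos.ne')) h1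
  have hce : c = e ^ r := by
    rw [he, ht, ← he2]; ring
  -- congruences mod n
  have h1 : (k : ℤ) ^ r ≡ e ^ r [ZMOD n] := by
    rw [hd, hce]
    exact (Int.modEq_iff_dvd.mpr ⟨-d, by ring⟩)
  have h2 : (k : ℤ) ^ 2 ≡ e ^ 2 [ZMOD n] := by
    rw [he2]
    apply Int.modEq_iff_dvd.mpr
    refine ⟨m - k, ?_⟩
    linarith [hm]
  have h3 : (k : ℤ) * ((k : ℤ) ^ 2) ^ t ≡ e * ((k : ℤ) ^ 2) ^ t [ZMOD n] := by
    calc (k : ℤ) * ((k : ℤ) ^ 2) ^ t = (k : ℤ) ^ r := by rw [ht]; ring
      _ ≡ e ^ r [ZMOD n] := h1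
      _ = e * (e ^ 2) ^ t := by rw [ht]; ring
      _ ≡ e * ((k : ℤ) ^ 2) ^ t [ZMOD n] := ((h2.symm).pow t).mul_left e
  have hcopZ : IsCoprime (n : ℤ) (((k : ℤ) ^ 2) ^ t) := by
    apply IsCoprime.pow_right
    apply IsCoprime.pow_right
    exact (Nat.isCoprime_iff_coprime.mpr hcop).symm
  have h4 : (n : ℤ) ∣ e - k := by
    have h5 := Int.modEq_iff_dvd.mp h3
    rw [← sub_mul] at h5
    exact hcopZ.dvd_of_dvd_mul_right h5
  -- bounds on e
  have hb1 : e ^ 2 ≤ k := by
    rw [he2]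
    have h5 : m * ((n : ℤ) - 1) ≤ k * ((n : ℤ) - 1) := by
      rw [hm]
      exact mul_le_mul_of_nonneg_left (by linarith) hkZ.le
    exact le_of_mul_le_mul_right h5 hn1
  have hb2 : e ^ 2 ≤ n - k := by
    rw [he2]
    have h5 : m * ((n : ℤ) - 1) ≤ (n - k) * ((n : ℤ) - 1) := by
      rw [hm, mul_comm]
      exact mul_le_mul_of_nonneg_left (by linarith) (by linarith)
    exact le_of_mul_le_mul_right h5 hn1
  obtain ⟨j, hj⟩ := h4
  have hle : |e| ≤ e ^ 2 := by
    rw [← sq_abs]
    by_cases h0 : e = 0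
    · rw [h0]; simp
    · have : 1 ≤ |e| := Int.one_le_abs h0
      nlinarith
  have habs1 : -(e ^ 2) ≤ e := by linarith [neg_abs_le e]
  have habs2 : e ≤ e ^ 2 := by linarith [le_abs_self e]
  have hj0 : j = 0 ∨ j = -1 := by
    have h6 : (n : ℤ) * j < n := by linarith
    have h7 : -(2 * n : ℤ) < (n : ℤ) * j := by linarith
    have hnpos : (0 : ℤ) < n := by linarith
    have h8 : j < 1 := by
      by_contra hcon
      push Not at hcon
      nlinarith
    have h9 : -2 < j := by
      by_contra hcon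
      push Not at hcon
      nlinarith
    omega
  rcases hj0 with h0 | h0
  · left
    have h5 : e = k := by rw [h0, mul_zero] at hj; linarith
    rw [h5] at hb1
    have : (k : ℤ) ≤ 1 := by nlinarith
    have : k ≤ 1 := by exact_mod_cast this
    omega
  · right
    have h5 : e = k - n := by rw [h0] at hj; linarith
    rw [h5] at hb2
    have h6 : ((n : ℤ) - k) ≤ 1 := by
      have h7 : ((n : ℤ) - k) ^ 2 ≤ n - k := by
        calc ((n : ℤ) - k) ^ 2 = ((k : ℤ) - n) ^ 2 := by ring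
          _ ≤ _ := hb2
      nlinarith
    have : n ≤ k + 1 := by
      have : (n : ℤ) ≤ k + 1 := by linarith
      exact_mod_cast this
    omega


section Main

variable (α : MulAut G) (o ω : Ω)

open scoped Classical in
/-- the twisted intertwiner matrix -/
noncomputable def T : Matrix Ω Ω ℤ := fun x y => if ∃ g : G, g • o = y ∧ (α g) • ω = x then 1 else 0

theorem T_equiv (g : G) (x y : Ω) : T α o ω ((α g) • x) (g • y) = T α o ω x y := by
  unfold T
  congr 1
  apply propext
  constructor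
  · rintro ⟨h, h1, h2⟩
    refine ⟨g⁻¹ * h, ?_, ?_⟩
    · rw [mul_smul, h1, inv_smul_smul]
    · rw [map_mul, mul_smul, h2, map_inv, inv_smul_smul]
  · rintro ⟨h, h1, h2⟩
    refine ⟨g * h, ?_, ?_⟩
    · rw [mul_smul, h1]
    · rw [map_mul, mul_smul, h2]

theorem T_sq (x y : Ω) : T α o ω x y * T α o ω x y = T α o ω x y := by
  unfold T
  split_ifs <;> simp

theorem Tpow_equiv (j : ℕ) : ∀ (g : G) (x y : Ω),
    (T α o ω ^ j) (((α ^ j) g) • x) (g • y) = (T α o ω ^ j) x y := by
  induction j with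
  | zero =>
    intro g x y
    simp only [pow_zero, MulAut.one_apply, Matrix.one_apply]
    congr 1
    exact propext (smul_left_cancel_iff g)
  | succ j ih =>
    intro g x y
    rw [pow_succ, Matrix.mul_apply, Matrix.mul_apply]
    have h1 : (α ^ (j + 1)) g = (α ^ j) (α g) := by rw [pow_succ]; rfl
    rw [h1]
    rw [← Equiv.sum_comp (MulAction.toPerm (α g) : Equiv.Perm Ω)]
    apply Finset.sum_congr rfl
    intro z _
    rw [MulAction.toPerm_apply, ih, T_equiv]

theorem TtT_equiv (g : G) (y z : Ω) :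
    ((T α o ω)ᵀ * T α o ω) (g • y) (g • z) = ((T α o ω)ᵀ * T α o ω) y z := by
  rw [Matrix.mul_apply, Matrix.mul_apply]
  rw [← Equiv.sum_comp (MulAction.toPerm (α g) : Equiv.Perm Ω)]
  apply Finset.sum_congr rfl
  intro x _
  rw [MulAction.toPerm_apply, Matrix.transpose_apply, Matrix.transpose_apply, T_equiv, T_equiv]

theorem TTt_equiv (g : G) (x z : Ω) :
    (T α o ω * (T α o ω)ᵀ) (g • x) (g • z) = (T α o ω * (T α o ω)ᵀ) x z := by
  obtain ⟨g, rfl⟩ := α.surjective g
  rw [Matrix.mul_apply, Matrix.mul_apply]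
  rw [← Equiv.sum_comp (MulAction.toPerm g : Equiv.Perm Ω)]
  apply Finset.sum_congr rfl
  intro y _
  rw [MulAction.toPerm_apply, Matrix.transpose_apply, Matrix.transpose_apply, T_equiv, T_equiv]

/-- column sums -/
theorem col_sum (htr : MulAction.IsPretransitive G Ω) (y : Ω) :
    ∑ x, T α o ω x y =
      Nat.card (MulAction.orbit ((MulAction.stabilizer G o).map α.toMonoidHom) ω) := by
  classical
  obtain ⟨g, rfl⟩ := htr.exists_smul_eq o y
  rw [← Equiv.sum_comp (MulAction.toPerm (α g) : Equiv.Perm Ω)]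
  simp only [MulAction.toPerm_apply, T_equiv]
  unfold T
  rw [Finset.sum_boole, Nat.card_eq_fintype_card, Fintype.card_subtype]
  congr 2
  ext x
  rw [Finset.mem_filter, Finset.mem_filter]
  refine and_congr_right fun _ => ?_
  constructor
  · rintro ⟨h, h1, h2⟩
    exact ⟨⟨α h, ⟨h, h1, rfl⟩⟩, h2⟩
  · rintro ⟨⟨_, ⟨h, h1, rfl⟩⟩, h2⟩
    exact ⟨h, h1, h2⟩

theorem row_sum (htr : MulAction.IsPretransitive G Ω) (x : Ω) :
    ∑ y, T α o ω x y =
      Nat.card (MulAction.orbit ((MulAction.stabilizer G o).map α.toMonoidHom) ω) := by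
  set k : ℕ := Nat.card (MulAction.orbit ((MulAction.stabilizer G o).map α.toMonoidHom) ω) with hk
  have hconst : ∀ x', ∑ y, T α o ω x' y = ∑ y, T α o ω x y := by
    intro x'
    obtain ⟨g, rfl⟩ := htr.exists_smul_eq x x'
    obtain ⟨g, rfl⟩ := α.surjective g
    rw [← Equiv.sum_comp (MulAction.toPerm g : Equiv.Perm Ω)]
    simp only [MulAction.toPerm_apply, T_equiv]
  have h1 : ∑ x', ∑ y, T α o ω x' y = (Fintype.card Ω : ℤ) * ∑ y, T α o ω x y := by
    rw [Finset.sum_congr rfl (fun x' _ => hconst x'), Finset.sum_const, Finset.card_univ, nsmul_eq_mul]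
  have h2 : ∑ x', ∑ y, T α o ω x' y = (Fintype.card Ω : ℤ) * k := by
    have h0 : ∑ x', ∑ y, T α o ω x' y = ∑ y, ∑ x', T α o ω x' y := by
      exact Finset.sum_comm (s := Finset.univ) (t := Finset.univ) (f := fun x' y => T α o ω x' y)
    rw [h0, Finset.sum_congr rfl (fun y _ => col_sum α o ω htr y), Finset.sum_const,
      Finset.card_univ, nsmul_eq_mul]
  have h3 : (Fintype.card Ω : ℤ) ≠ 0 := by
    haveI : Nonempty Ω := ⟨x⟩
    exact_mod_cast Fintype.card_ne_zero
  exact mul_left_cancel₀ h3 (h1.symm.trans h2)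

/-- the scalar-plus-J form, as a matrix identity applied to a vector with zero sum -/
theorem mulVec_of_form {A : Matrix Ω Ω ℤ} {c d : ℤ}
    (hA : ∀ x z : Ω, A x z = c * (if x = z then 1 else 0) + d) (v : Ω → ℤ) :
    A *ᵥ v = c • v + (fun _ => d * ∑ z, v z) := by
  ext x
  simp only [Matrix.mulVec, dotProduct, Pi.add_apply, Pi.smul_apply, smul_eq_mul]
  simp only [hA, add_mul, Finset.sum_add_distrib]
  congr 1
  · simp [mul_assoc]
  · rw [← Finset.mul_sum]

theorem main (h2 : MulAction.IsMultiplyPretransitive G Ω 2) (hα : Odd (orderOf α))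
    (hk : (Nat.card (MulAction.orbit ((MulAction.stabilizer G o).map α.toMonoidHom) ω)).Coprime
      (Fintype.card Ω)) (hn : 2 ≤ Fintype.card Ω) :
    Nat.card (MulAction.orbit ((MulAction.stabilizer G o).map α.toMonoidHom) ω) = 1 ∨
      Nat.card (MulAction.orbit ((MulAction.stabilizer G o).map α.toMonoidHom) ω) =
        Fintype.card Ω - 1 := by
  have htr : MulAction.IsPretransitive G Ω := by
    haveI := h2
    exact MulAction.isPretransitive_of_is_two_pretransitive
  set k : ℕ := Nat.card (MulAction.orbit ((MulAction.stabilizer G o).map α.toMonoidHom) ω) with hkdef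
  set n : ℕ := Fintype.card Ω with hndef
  have hk1 : 1 ≤ k := by
    haveI : Nonempty (MulAction.orbit ((MulAction.stabilizer G o).map α.toMonoidHom) ω) :=
      ⟨⟨ω, MulAction.mem_orbit_self ω⟩⟩
    exact Nat.card_pos
  have hkn' : k ≤ n := by
    rw [hkdef, hndef, ← Nat.card_eq_fintype_card]
    exact Nat.card_le_card_of_injective _ Subtype.val_injective
  have hkn : k < n := by
    rcases Nat.lt_or_ge k n with h | h
    · exact h
    · exfalso
      have : k = n := le_antisymm hkn' h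
      rw [this, Nat.coprime_self] at hk
      omega
  obtain ⟨y, hy⟩ : ∃ y, o ≠ y := by
    haveI : Nontrivial Ω := Fintype.one_lt_card_iff_nontrivial.mp hn
    obtain ⟨y, hy⟩ := exists_ne o
    exact ⟨y, hy.symm⟩
  set r := orderOf α with hr
  have hαr : α ^ r = 1 := pow_orderOf_eq_one α
  -- T^r
  have hTr := eq_smul_add h2 (T α o ω ^ r) (fun g x z => by
    have := Tpow_equiv α o ω r g x z
    rwa [hαr, MulAut.one_apply] at this) hy
  set c := (T α o ω ^ r) o o - (T α o ω ^ r) o y with hc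
  set d := (T α o ω ^ r) o y with hd
  have hA := eq_smul_add h2 ((T α o ω)ᵀ * T α o ω) (TtT_equiv α o ω) hy
  set lam := ((T α o ω)ᵀ * T α o ω) o y with hlam
  have hdiag : ((T α o ω)ᵀ * T α o ω) o o = k := by
    rw [Matrix.mul_apply]
    simp only [Matrix.transpose_apply, T_sq]
    exact col_sum α o ω htr o
  rw [hdiag] at hA
  have hB := eq_smul_add h2 (T α o ω * (T α o ω)ᵀ) (TTt_equiv α o ω) hy
  set mu := (T α o ω * (T α o ω)ᵀ) o y with hmu
  have hdiagB : (T α o ω * (T α o ω)ᵀ) o o = k := by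
    rw [Matrix.mul_apply]
    simp only [Matrix.transpose_apply, T_sq]
    exact row_sum α o ω htr o
  rw [hdiagB] at hB
  -- action on the all-ones vector
  have hT1 : T α o ω *ᵥ (fun _ => (1 : ℤ)) = fun _ => (k : ℤ) := by
    ext x
    simp only [Matrix.mulVec, dotProduct, mul_one]
    exact row_sum α o ω htr x
  have hTt1 : (T α o ω)ᵀ *ᵥ (fun _ => (1 : ℤ)) = fun _ => (k : ℤ) := by
    ext x
    simp only [Matrix.mulVec, dotProduct, mul_one, Matrix.transpose_apply]
    exact col_sum α o ω htr x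
  have hsc : ∀ (A : Matrix Ω Ω ℤ) (a : ℤ), A *ᵥ (fun _ => a) = a • (A *ᵥ (fun _ => (1 : ℤ))) := by
    intro A a
    rw [← Matrix.mulVec_smul]
    congr 1
    ext x
    simp
  have hsum1 : ∑ _z : Ω, (1 : ℤ) = n := by simp [hndef]
  have eA : (k : ℤ) * k = (k - lam) + lam * n := by
    have h3 : ((T α o ω)ᵀ * T α o ω) *ᵥ (fun _ => (1 : ℤ)) = fun _ => (k : ℤ) * k := by
      rw [← Matrix.mulVec_mulVec, hT1, hsc, hTt1]
      ext x; simp
    have h4 := mulVec_of_form hA (fun _ => (1 : ℤ))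
    rw [h3] at h4
    have h5 := congrFun h4 o
    simp only [Pi.add_apply, Pi.smul_apply, smul_eq_mul, mul_one, hsum1] at h5
    exact h5
  have eB : (k : ℤ) * k = (k - mu) + mu * n := by
    have h3 : (T α o ω * (T α o ω)ᵀ) *ᵥ (fun _ => (1 : ℤ)) = fun _ => (k : ℤ) * k := by
      rw [← Matrix.mulVec_mulVec, hTt1, hsc, hT1]
      ext x; simp
    have h4 := mulVec_of_form hB (fun _ => (1 : ℤ))
    rw [h3] at h4
    have h5 := congrFun h4 o
    simp only [Pi.add_apply, Pi.smul_apply, smul_eq_mul, mul_one, hsum1] at h5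
    exact h5
  have hn1 : (n : ℤ) - 1 ≠ 0 := by
    have : (2 : ℤ) ≤ n := by exact_mod_cast hn
    intro h; linarith
  have hlm : lam = mu := by
    have h3 : lam * ((n : ℤ) - 1) = mu * ((n : ℤ) - 1) := by linarith
    exact mul_right_cancel₀ hn1 h3
  have hcomm : (T α o ω)ᵀ * T α o ω = T α o ω * (T α o ω)ᵀ := by
    ext x z
    rw [hA, hB, hlm]
  -- the zero-sum vector
  set v : Ω → ℤ := Pi.single o 1 - Pi.single y 1 with hv
  have hvsum : ∑ z, v z = 0 := by
    simp [hv, Finset.sum_sub_distrib]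
  have hvo : v o = 1 := by
    simp [hv, hy]
  have hAv : ∀ j : ℕ, (((T α o ω)ᵀ * T α o ω) ^ j) *ᵥ v = ((k : ℤ) - lam) ^ j • v := by
    intro j
    induction j with
    | zero => simp
    | succ j ih =>
      rw [pow_succ, ← Matrix.mulVec_mulVec, mulVec_of_form hA, hvsum]
      simp only [mul_zero]
      have : (((k : ℤ) - lam) • v + fun _ : Ω => (0 : ℤ)) = ((k : ℤ) - lam) • v := by
        ext x; simp
      rw [this, Matrix.mulVec_smul, ih, smul_smul, pow_succ, mul_comm]
  have hTv : (T α o ω ^ r) *ᵥ v = c • v := by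
    rw [mulVec_of_form hTr, hvsum]
    ext x; simp
  have hTtv : ((T α o ω ^ r)ᵀ) *ᵥ v = c • v := by
    have hTr' : ∀ x z : Ω, (T α o ω ^ r)ᵀ x z = c * (if x = z then 1 else 0) + d := by
      intro x z
      rw [Matrix.transpose_apply, hTr]
      simp only [eq_comm]
    rw [mulVec_of_form hTr', hvsum]
    ext x; simp
  have hpow : ((T α o ω)ᵀ * T α o ω) ^ r = (T α o ω ^ r)ᵀ * T α o ω ^ r := by
    rw [Matrix.transpose_pow]
    exact (show Commute ((T α o ω)ᵀ) (T α o ω) from hcomm).mul_pow r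
  have hcm : c ^ 2 = ((k : ℤ) - lam) ^ r := by
    have h3 := hAv r
    rw [hpow, ← Matrix.mulVec_mulVec, hTv, Matrix.mulVec_smul, hTtv, smul_smul] at h3
    have h4 := congrFun h3 o
    simp only [Pi.smul_apply, smul_eq_mul, hvo, mul_one] at h4
    rw [← h4]; ring
  have hkr : (k : ℤ) ^ r = c + n * d := by
    have h3 : ∀ j : ℕ, (T α o ω ^ j) *ᵥ (fun _ => (1 : ℤ)) = fun _ => (k : ℤ) ^ j := by
      intro j
      induction j with
      | zero => simp
      | succ j ih =>
        rw [pow_succ, ← Matrix.mulVec_mulVec, hT1, hsc, ih]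
        ext x
        simp only [Pi.smul_apply, smul_eq_mul, pow_succ]
        ring
    have h4 := mulVec_of_form hTr (fun _ => (1 : ℤ))
    rw [h3] at h4
    have h5 := congrFun h4 o
    simp only [Pi.add_apply, Pi.smul_apply, smul_eq_mul, mul_one, hsum1] at h5
    rw [h5]; ring
  refine arith n k r hn hk1 hkn hk hα (k - lam) c d ?_ hcm hkr
  linarith

end Main

end Cfsg.Agent.H71.TwistPerm
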